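import Cfsg.Agent.Lib.OMax.Frame6A
import Cfsg.Agent.Lib.OMax.FrameGet

/-!
# Orthogonal frames in dimension six
-/

set_option autoImplicit false

namespace Cfsg.Lib.OMax

open QuadraticMap Module Cfsg.Lib.Orth Finset

theorem dihedral_cases {G : Type*} [Group G] [Finite G] {x y : G} (hx : x * x = 1) (hy : y * y = 1) :
    (Odd (orderOf (x * y)) ∧ ∃ j : ℕ, x = (x * y) ^ j * y * ((x * y) ^ j)⁻¹) ∨
    ∃ m : ℕ, (x * y) ^ m ≠ 1 ∧ (x * y) ^ m * (x * y) ^ m = 1 ∧ Commute ((x * y) ^ m) x ∧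
      Commute ((x * y) ^ m) y ∧
      ((∃ j : ℕ, (x * y) ^ m * x = (x * y) ^ j * x * ((x * y) ^ j)⁻¹) ∧
        (∃ j : ℕ, (x * y) ^ m * y = (x * y) ^ j * y * ((x * y) ^ j)⁻¹) ∨
      ∃ j : ℕ, (x * y) ^ m * x = (x * y) ^ j * y * ((x * y) ^ j)⁻¹) := by
  have hx' := inv_eq_of_mul_eq_one_left hx
  have hy' := inv_eq_of_mul_eq_one_left hy
  have a1 : ∀ j : ℕ, x * ((x * y) ^ j)⁻¹ = (x * y) ^ j * x := fun j => by
    rw [← inv_pow]
    exact SemiconjBy.pow_right (by simp [SemiconjBy, hx', hy', mul_assoc]) j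
  have a2 : ∀ j : ℕ, y * ((x * y) ^ j)⁻¹ = (x * y) ^ j * y := fun j => by
    rw [← inv_pow]
    exact SemiconjBy.pow_right (by simp [SemiconjBy, hx', hy', ← mul_assoc, hy, mul_assoc x]) j
  have a3 : ∀ j : ℕ, (x * y) ^ j * x * ((x * y) ^ j)⁻¹ = (x * y) ^ (2 * j) * x := fun j => by
    rw [mul_assoc, a1, ← mul_assoc, ← pow_add, two_mul]
  have a4 : ∀ j : ℕ, (x * y) ^ j * y * ((x * y) ^ j)⁻¹ = (x * y) ^ (2 * j) * y := fun j => by
    rw [mul_assoc, a2, ← mul_assoc, ← pow_add, two_mul]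
  have a5 : ∀ j : ℕ, (x * y) ^ (j + 1) * y = (x * y) ^ j * x := fun j => by
    rw [pow_succ, mul_assoc, mul_assoc, hy, mul_one]
  rcases Nat.even_or_odd' (orderOf (x * y)) with ⟨m, h | h⟩
  · have h1 := orderOf_pos (x * y)
    have h2 : (x * y) ^ m * (x * y) ^ m = 1 := by rw [← pow_add, ← two_mul, ← h, pow_orderOf_eq_one]
    have h3 := inv_eq_of_mul_eq_one_left h2
    refine Or.inr ⟨m, pow_ne_one_of_lt_orderOf (by omega) (by omega), h2,
      by rw [Commute, SemiconjBy, ← a1, h3], by rw [Commute, SemiconjBy, ← a2, h3], ?_⟩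
    rcases Nat.even_or_odd' m with ⟨j, rfl | rfl⟩
    · exact Or.inl ⟨⟨j, (a3 j).symm⟩, j, (a4 j).symm⟩
    · exact Or.inr ⟨j + 1, by rw [a4, ← a5]; rfl⟩
  · refine Or.inl ⟨⟨m, h⟩, m + 1, ?_⟩
    rw [a4, show 2 * (m + 1) = orderOf (x * y) + 1 by omega, a5, pow_orderOf_eq_one, one_mul]

variable {F V : Type*} [Field F] [AddCommGroup V] [Module F V] {Q : QuadraticForm F V}
  {K : Subgroup (O Q)} {κ : Type*} {e : κ → V}

/-- Signed roots. -/
def Nr (e : κ → V) (v : V) (F : Type*) [Field F] [Module F V] : Prop :=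
  ∃ k m, ∃ η ε : F, k ≠ m ∧ η * η = 1 ∧ ε * ε = 1 ∧ v = η • e k + ε • e m

/-- Sign changes. -/
def Dg (e : κ → V) (z : O Q) : Prop := ∀ i, z.1 (e i) = e i ∨ z.1 (e i) = -e i

theorem Dg.mul {z z' : O Q} (h : Dg e z) (h' : Dg e z') : Dg e (z * z') := fun i => by
  rcases h i with a | a <;> rcases h' i with b | b <;> simp [O.mul_apply, a, b]

theorem exists_fix_four [FiniteDimensional F V] (hQ : ND Q) (hn : 4 < finrank F V) (a b c d : V) :
    ∃ x, x ≠ 0 ∧ (refl Q a * refl Q b * (refl Q c * refl Q d)).1 x = x := by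
  have a1 := Submodule.finrank_add_le_finrank_add_finrank (Submodule.span F {a, b})
    (Submodule.span F {c, d})
  have a2 := finrank_span_pair_le (F := F) a b
  have a3 := finrank_span_pair_le (F := F) c d
  have a4 := finrank_add_finrank_perp hQ (Submodule.span F {a, b} ⊔ Submodule.span F {c, d})
  obtain ⟨x, hx, h0⟩ := Submodule.exists_mem_ne_zero_of_ne_bot
    (p := perp Q (Submodule.span F {a, b} ⊔ Submodule.span F {c, d})) fun h => by
      rw [h, finrank_bot] at a4; omega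
  simp only [perp_sup, Submodule.mem_inf, mem_perp_pair] at hx
  exact ⟨x, h0, by simp [O.mul_apply, refl_apply_of_perp, hx]⟩

theorem pow_ne_neg (h2 : (2 : F) ≠ 0) {g : O Q} {x : V} (h0 : x ≠ 0) (h : g.1 x = x) (m : ℕ) :
    g ^ m ≠ O.neg Q := fun h1 => by
  have : (g ^ m).1 x = x := by
    clear h1
    induction m with
    | zero => rfl
    | succ m ih => rw [pow_succ, O.mul_apply, h, ih]
  rw [h1, O.neg_apply] at this
  exact h0 (smul_right_injective V h2 (by linear_combination (norm := module) -this))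

namespace Fr

variable [DecidableEq κ] (S : Fr Q e) [FiniteDimensional F V] [Fintype κ]
include S

omit [FiniteDimensional F V] [Fintype κ] in
theorem dg_refl (i : κ) : Dg e (refl Q (e i)) := fun j => by
  rw [S.refl_e, S.pol]
  split_ifs with h
  · right; rw [h]; module
  · left; simp

omit [FiniteDimensional F V] [Fintype κ] in
theorem dg_conj {g t : O Q} (hg : g ∈ mon Q e) (ht : Dg e t) : Dg e (g * t * g⁻¹) := fun i => by
  obtain ⟨j, ε, -, h⟩ := S.exists_apply (inv_mem hg) i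
  rw [O.mul_apply, O.mul_apply, h, map_smul]
  refine (ht j).imp (fun h1 => ?_) fun h1 => ?_
  · rw [h1, ← h, O.apply_inv_apply]
  · rw [h1, smul_neg, ← h, map_neg, O.apply_inv_apply]

theorem refl_comb_mem (a b : κ) {ε ε' : F} (h : ε * ε = ε' * ε') :
    refl Q (ε • e a + ε' • e b) ∈ mon Q e := by
  by_cases hab : a = b
  · exact S.mem_of_supp_one (i := a) fun j hj => by simp [polar_add_right, S.pol, ← hab, hj]
  · exact S.mem_of_supp_two hab (fun k h1 h2 => by simp [polar_add_right, S.pol, h1, h2])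
      (by simpa [polar_add_right, S.pol, hab, Ne.symm hab, pow_two])

theorem refl_sub_mem {v v' : V} (h : Nr e v F) (h' : Nr e v' F) {o : κ} (h0 : polar Q (e o) v ≠ 0)
    (h1 : polar Q (e o) v = polar Q (e o) v') : refl Q (v - v') ∈ mon Q e := by
  have key : ∀ v, Nr e v F → polar Q (e o) v ≠ 0 →
      ∃ a, ∃ ε : F, ε * ε = 1 ∧ v = polar Q (e o) v • e o + ε • e a := by
    rintro _ ⟨k, m, η, ε, a1, a2, a3, rfl⟩ h
    by_cases b1 : o = k
    · exact ⟨m, ε, a3, by simp [polar_add_right, S.pol, b1, a1]⟩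
    by_cases b2 : o = m
    · exact ⟨k, η, a2, by simp [polar_add_right, S.pol, b2, a1.symm, add_comm]⟩
    · simp [polar_add_right, S.pol, b1, b2] at h
  obtain ⟨a, ε, a1, a2⟩ := key v h h0
  obtain ⟨b, ε', b1, b2⟩ := key v' h' (h1 ▸ h0)
  rw [show v - v' = ε • e a + (-ε') • e b by rw [a2, b2, ← h1]; module]
  exact S.refl_comb_mem a b (by simp [a1, b1])

omit [FiniteDimensional F V] [Fintype κ] in
theorem nr_map {g : O Q} (hg : g ∈ mon Q e) {v : V} (h : Nr e v F) : Nr e (g.1 v) F := by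
  obtain ⟨k, m, η, ε, a1, a2, a3, rfl⟩ := h
  obtain ⟨k', η', b1, b2⟩ := S.exists_apply hg k
  obtain ⟨m', ε', c1, c2⟩ := S.exists_apply hg m
  refine ⟨k', m', η * η', ε * ε', fun h => ?_, by linear_combination η' * η' * a2 + b1,
    by linear_combination ε' * ε' * a3 + c1, by simp [b2, c2, smul_smul]⟩
  have := O.map_polar g (e k) (e m)
  rw [b2, c2, h] at this
  simp [S.pol, a1, left_ne_zero_of_mul_eq_one b1, left_ne_zero_of_mul_eq_one c1] at this

theorem false_of_pairs (hn : 5 ≤ Fintype.card κ) {g : O Q}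
    (hg : ∀ i, refl Q (g.1 (e i)) ∉ mon Q e) (h : ∀ i j, i ≠ j → ∃ α β : F, ∃ v v', α ≠ 0 ∧ β ≠ 0 ∧
      Nr e v F ∧ Nr e v' F ∧ α • g.1 (e i) = v - v' ∧ β • g.1 (e j) = v + v') : False := by
  obtain ⟨i, j, hij⟩ := Fintype.exists_pair_of_one_lt_card (α := κ) (by omega)
  obtain ⟨o, ho⟩ : ∃ o, polar Q (e o) (g.1 (e i)) = 0 := by
    obtain ⟨α, β, _, _, a1, -, ⟨k, m, η, ε, -, -, -, rfl⟩, ⟨k', m', η', ε', -, -, -, rfl⟩, a2, -⟩ :=
      h i j hij
    obtain ⟨o, -, ho⟩ := exists_mem_notMem_list univ [k, m, k', m'] hn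
    simp only [List.mem_cons, List.not_mem_nil, or_false, not_or] at ho
    have := congrArg (polar Q (e o)) a2
    exact ⟨o, by simpa [polar_sub_right, polar_add_right, S.pol, ho, a1] using this⟩
  refine O.apply_ne_zero g⁻¹ (ne_zero_of_Q_ne_zero (S.Q_ne o)) (S.eq_zero _ fun j => ?_)
  rw [← O.polar_left, polar_comm]
  by_contra hj
  obtain ⟨α, β, v, v', a1, a2, a3, a4, a5, a6⟩ := h i j (by rintro rfl; exact hj ho)
  have b1 := congrArg (polar Q (e o)) a5
  have b2 := congrArg (polar Q (e o)) a6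
  rw [polar_smul_right', ho, mul_zero, polar_sub_right, eq_comm, sub_eq_zero] at b1
  rw [polar_smul_right', polar_add_right, ← b1] at b2
  refine hg i (refl_smul (Q := Q) a1 _ ▸ a5 ▸ S.refl_sub_mem a3 a4 (o := o) (fun h0 => ?_) b1)
  exact mul_ne_zero a2 hj (by rw [b2, h0, add_zero])

variable (hH : mon Q e ⊓ commutator (O Q) ≤ K)
  (hN : ∀ a b, Q b ≠ 0 → refl Q b ∈ mon Q e → RC K a b → refl Q a ∈ mon Q e)
  (hn : Fintype.card κ = 6)
include hH hN hn

theorem mem_of_e {g : O Q} (hg : g ∈ K) {i : κ} (h : refl Q (g.1 (e i)) ∈ mon Q e) : g ∈ mon Q e :=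
  S.mem_of_rc hH hN (by omega) hg
    (S.rc_of_mem hH h (S.refl_e_mem i) (by simpa using S.Q_ne i) (by simp))

theorem mem_of_special {g : O Q} (hg : g ∈ K) {v : V} (h0 : Q v ≠ 0) (h1 : refl Q v ∈ mon Q e)
    (h : refl Q (g.1 v) ∈ mon Q e) : g ∈ mon Q e := by
  obtain ⟨c, hc, k, rfl | ⟨m, ε, a1, a2, rfl⟩⟩ := S.cases_of_mem h0 h1 <;>
    rw [map_smul, refl_smul hc] at h
  · exact S.mem_of_e hH hN hn hg h
  by_contra hg'
  have key : ∀ i j, i ≠ j → ∀ η : F, η * η = 1 → Nr e (g.1 (e i + η • e j)) F := fun i j b1 η b2 => by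
    have b3 : Q (g.1 (e i + η • e j)) = 1 := by rw [O.map_Q, S.Q_rt b1 b2]
    obtain ⟨d, hd, l, b4 | ⟨o, δ, b4, b5, b6⟩⟩ := S.cases_of_mem (b3 ▸ one_ne_zero) (hN _ _
      (by rw [O.map_Q, S.Q_rt a1 a2]; exact one_ne_zero) h ((S.rc_rt hH b1 a1 b2 a2).map hg))
    · refine absurd (S.mem_of_e hH hN hn (inv_mem hg) (i := l) ?_) (by simpa)
      rw [← refl_smul hd, ← map_smul, ← b4, O.inv_apply_apply]
      exact S.refl_rt_mem b1 b2
    · rw [b6, Q_smul, S.Q_rt b4 b5, mul_one, pow_two] at b3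
      exact ⟨l, o, d, d * δ, b4, b3, by linear_combination δ * δ * b3 + b5, by
        rw [b6, smul_add, smul_smul]⟩
  exact S.false_of_pairs (by omega) (fun i h => hg' (S.mem_of_e hH hN hn hg h)) fun i j hij =>
    ⟨2, 2, _, _, S.two, S.two, key j i hij.symm 1 (by simp), key j i hij.symm (-1) (by simp),
      by simp only [map_add, map_smul]; module, by simp only [map_add, map_smul]; module⟩

theorem mem_of_bi {g : O Q} (hg : g ∈ K) {i j : κ} (hij : i ≠ j)
    (h : g * (refl Q (e i) * refl Q (e j)) * g⁻¹ ∈ mon Q e) : g ∈ mon Q e := by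
  by_contra hg'
  have h2 := S.two
  have e1 : ∀ i j, g * (refl Q (e i) * refl Q (e j)) * g⁻¹ = refl Q (g.1 (e i)) * refl Q (g.1 (e j)) :=
    fun i j => by rw [← conj_refl, ← conj_refl]; group
  rw [e1] at h
  have e2 : ∀ i j, polar Q (g.1 (e i)) (g.1 (e j)) = if i = j then 1 else 0 := fun i j => by
    rw [O.map_polar, S.pol]
  have e3 : ∀ i, Q (g.1 (e i)) ≠ 0 := fun i => by simpa using S.Q_ne i
  have A : ∀ i j, i ≠ j → refl Q (g.1 (e i)) * refl Q (g.1 (e j)) ∈ mon Q e → ∃ k m, ∃ ε α β : F,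
      ε * ε = 1 ∧ e k - ε • e m ≠ 0 ∧ e k - ε • e m = α • g.1 (e i) + β • g.1 (e j) := by
    intro i j hij h
    obtain ⟨k, hk⟩ : ∃ k, (refl Q (g.1 (e i)) * refl Q (g.1 (e j))).1 (e k) ≠ e k := by
      by_contra! hc
      have h3 := congrArg (fun x : O Q => x.1 (g.1 (e j))) (ext_of_basis S.eq_zero (g' := 1) hc)
      simp only [O.mul_apply, refl_apply_self (e3 j), map_neg, O.one_apply,
        refl_apply_of_perp ((e2 i j).trans (if_neg hij))] at h3
      exact ne_zero_of_Q_ne_zero (e3 j)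
        (smul_right_injective V h2 (by linear_combination (norm := module) -h3))
    obtain ⟨m, ε, a1, a2⟩ := S.exists_apply h k
    obtain ⟨α, β, a3⟩ := Submodule.mem_span_pair.1
      (neg_mem (refl_mul_refl_sub_mem (Q := Q) (g.1 (e i)) (g.1 (e j)) (e k)))
    exact ⟨k, m, ε, α, β, a1, sub_ne_zero.2 (a2 ▸ hk.symm), by rw [a3, a2, neg_sub]⟩
  have B : ∀ k m, ∀ ε : F, ε * ε = 1 → e k - ε • e m ≠ 0 → Q (e k - ε • e m) ≠ 0 :=
    fun k m ε a1 a2 => by
    by_cases h : k = m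
    · rw [← h, show e k - ε • e k = (1 - ε) • e k by module] at a2 ⊢
      rw [Q_smul]
      exact mul_ne_zero (pow_ne_zero _ (left_ne_zero_of_smul a2)) (S.Q_ne k)
    · rw [sub_eq_add_neg, ← neg_smul, S.Q_rt h (by simpa)]; exact one_ne_zero
  have B' : ∀ k m, ∀ ε : F, ε * ε = 1 → refl Q (e k - ε • e m) ∈ mon Q e := fun k m ε a1 => by
    simpa [sub_eq_add_neg] using S.refl_comb_mem k m (ε := 1) (ε' := -ε) (by simp [a1])
  have C : ∀ i j, i ≠ j → refl Q (g.1 (e i)) * refl Q (g.1 (e j)) ∈ mon Q e → ∀ k l, k ∉ [i, j] →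
      l ∉ [i, j] → refl Q (g.1 (e k)) * refl Q (g.1 (e l)) ∈ mon Q e := by
    intro i j hij h k l hk hl
    simp only [List.mem_cons, List.not_mem_nil, or_false, not_or] at hk hl
    obtain ⟨a, b, ε, α, β, a1, a2, a3⟩ := A i j hij h
    refine S.mem_of_special hH hN hn ((S.rc_e hH k l).map hg).2 (B a b ε a1 a2) (B' a b ε a1) ?_
    rw [O.mul_apply, refl_apply_of_perp (x := e a - ε • e b), refl_apply_of_perp]
    · exact B' a b ε a1
    all_goals simp [a3, polar_add_right, S.pol, hk, hl]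
  have D : ∀ a b, refl Q (g.1 (e a)) * refl Q (g.1 (e b)) ∈ mon Q e := fun a b => by
    obtain ⟨k, -, hk⟩ := exists_mem_notMem_list univ [i, j, a, b] (by simp [hn])
    obtain ⟨l, -, hl⟩ := exists_mem_notMem_list univ [i, j, a, b, k] (by simp [hn])
    simp only [List.mem_cons, List.not_mem_nil, or_false, not_or] at hk hl
    exact C k l (Ne.symm hl.2.2.2.2) (C i j hij h k l (by simp [hk]) (by simp [hl])) a b
      (by simp [Ne.symm hk.2.2.1, Ne.symm hl.2.2.1]) (by simp [Ne.symm hk.2.2.2, Ne.symm hl.2.2.2.1])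
  have E : ∀ i, refl Q (g.1 (e i)) ∉ mon Q e := fun i h => hg' (S.mem_of_e hH hN hn hg h)
  refine S.false_of_pairs (by omega) E fun i j hij => ?_
  obtain ⟨k, m, ε, α, β, a1, a2, a3⟩ := A i j hij (D i j)
  have a4 : α ≠ 0 := by
    rintro rfl
    rw [zero_smul, zero_add] at a3
    exact E j (refl_smul (Q := Q) (left_ne_zero_of_smul (a3 ▸ a2)) _ ▸ a3 ▸ B' k m ε a1)
  have a5 : β ≠ 0 := by
    rintro rfl
    rw [zero_smul, add_zero] at a3
    exact E i (refl_smul (Q := Q) a4 _ ▸ a3 ▸ B' k m ε a1)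
  obtain ⟨l, -, hl⟩ := exists_mem_notMem_list univ [i, j] (by simp [hn])
  simp only [List.mem_cons, List.not_mem_nil, or_false, not_or] at hl
  have a6 : (refl Q (g.1 (e i)) * refl Q (g.1 (e l))).1 (e k - ε • e m) =
      -(α • g.1 (e i)) + β • g.1 (e j) := by
    rw [a3, O.mul_apply, refl_apply_of_perp (v := g.1 (e l)) (by simp [polar_add_right, S.pol, hl]),
      map_add, map_smul, map_smul, refl_apply_self (e3 i),
      refl_apply_of_perp ((e2 i j).trans (if_neg hij)), smul_neg]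
  by_cases hkm : k = m
  · obtain ⟨o, η, b1, b2⟩ := S.exists_apply (D i l) k
    rw [← hkm] at a3 a6
    rw [map_sub, map_smul, b2] at a6
    refine (E i ?_).elim
    rw [← refl_smul (mul_ne_zero h2 a4), show (2 * α) • g.1 (e i) =
      (1 - ε) • e k + (-((1 - ε) * η)) • e o by linear_combination (norm := module) a6 - a3]
    exact S.refl_comb_mem k o (by linear_combination -(1 - ε) ^ 2 * b1)
  have a7 : Nr e (e k - ε • e m) F := ⟨k, m, 1, -ε, hkm, by simp, by simpa, by module⟩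
  exact ⟨2 * α, 2 * β, _, _, mul_ne_zero h2 a4, mul_ne_zero h2 a5, a7, S.nr_map (D i l) a7,
    by rw [a6, a3]; module, by rw [a6, a3]; module⟩

theorem mem_of_comm {z c : O Q} (hz : Dg e z) (h1 : z ≠ 1) (h2 : z ≠ O.neg Q) (hc : c ∈ K)
    (h : z * c = c * z) : c ∈ mon Q e := by
  obtain ⟨i, j, o, ε, a1, a2, a3, a4, a5⟩ : ∃ i j o, ∃ ε : F, i ≠ j ∧ ε * ε = 1 ∧
      z.1 (e i) = ε • e i ∧ z.1 (e j) = ε • e j ∧ z.1 (e o) = -ε • e o := by
    obtain ⟨a, ha⟩ : ∃ a, z.1 (e a) ≠ e a := by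
      by_contra! hc; exact h1 (ext_of_basis S.eq_zero hc)
    obtain ⟨b, hb⟩ : ∃ b, z.1 (e b) ≠ -e b := by
      by_contra! hc; exact h2 (ext_of_basis S.eq_zero hc)
    obtain ⟨l, -, hl⟩ := exists_mem_notMem_list univ [a, b] (by simp [hn])
    simp only [List.mem_cons, List.not_mem_nil, or_false, not_or] at hl
    have ha' := (hz a).resolve_left ha
    have hb' := (hz b).resolve_right hb
    rcases hz l with h | h
    · exact ⟨l, b, a, 1, hl.2, by simp, by simpa, by simpa, by simpa⟩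
    · exact ⟨l, a, b, -1, hl.1, by simp, by simpa, by simpa, by simpa⟩
  have key : ∀ k, z.1 (e k) = ε • e k → polar Q (c.1 (e k)) (e o) = 0 := fun k hk => by
    have := O.map_polar z (c.1 (e k)) (e o)
    rw [← O.mul_apply, h, O.mul_apply, hk, a5, map_smul, polar_smul_left', polar_smul_right'] at this
    exact mul_left_cancel₀ S.two (by
      linear_combination -this - polar Q (c.1 (e k)) (e o) * a2)
  refine S.mem_of_bi hH hN hn hc a1 (S.mem_of_e hH hN hn
    (mul_mem (mul_mem hc (S.rc_e hH i j).2) (inv_mem hc)) (i := o) ?_)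
  rw [show c * (refl Q (e i) * refl Q (e j)) * c⁻¹ = refl Q (c.1 (e i)) * refl Q (c.1 (e j)) by
    rw [← conj_refl, ← conj_refl]; group, O.mul_apply, refl_apply_of_perp (key j a4),
    refl_apply_of_perp (key i a3)]
  exact S.refl_e_mem o

omit hH hN in
theorem bi_ne {i j : κ} (hij : i ≠ j) :
    refl Q (e i) * refl Q (e j) ≠ 1 ∧ refl Q (e i) * refl Q (e j) ≠ O.neg Q := by
  obtain ⟨l, -, hl⟩ := exists_mem_notMem_list univ [i, j] (by simp [hn])
  simp only [List.mem_cons, List.not_mem_nil, or_false, not_or] at hl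
  constructor <;> intro h
  · have := congrArg (fun x : O Q => polar Q (e i) (x.1 (e i))) h
    simp only [O.mul_apply, S.pol_refl_e, hij, S.pol, if_true, if_false, O.one_apply] at this
    exact S.two (by linear_combination -this)
  · have := congrArg (fun x : O Q => polar Q (e l) (x.1 (e l))) h
    simp only [O.mul_apply, S.pol_refl_e, hl, S.pol, if_true, if_false, O.neg_apply,
      polar_neg_right] at this
    exact S.two (by linear_combination this)

theorem dg_of_bi {g : O Q} (hg : g ∈ K) {i j : κ} (hij : i ≠ j)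
    (h : g * (refl Q (e i) * refl Q (e j)) * g⁻¹ ∈ mon Q e) :
    Dg e (g * (refl Q (e i) * refl Q (e j)) * g⁻¹) :=
  S.dg_conj (S.mem_of_bi hH hN hn hg hij h) ((S.dg_refl i).mul (S.dg_refl j))

omit hH hN hn [Fintype κ] [FiniteDimensional F V] in
theorem bi_mul_self {i j : κ} (hij : i ≠ j) (g : O Q) :
    g * (refl Q (e i) * refl Q (e j)) * g⁻¹ * (g * (refl Q (e i) * refl Q (e j)) * g⁻¹) = 1 := by
  rw [conj_mul, refl_mul_refl_mul_self ((S.pol i j).trans (if_neg hij))]; simp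

variable [Finite F]

theorem odd_orderOf {g : O Q} (hg : g ∈ K) (hg' : g ∉ mon Q e) {i j k l : κ} (hij : i ≠ j)
    (hkl : k ≠ l) : Odd (orderOf (refl Q (e i) * refl Q (e j) *
      (g * (refl Q (e k) * refl Q (e l)) * g⁻¹))) := by
  have : Finite V := finite_of_finiteDimensional F V
  have ht := refl_mul_refl_mul_self ((S.pol i j).trans (if_neg hij))
  refine (dihedral_cases ht (S.bi_mul_self hkl g)).elim (·.1) ?_
  rintro ⟨m, a1, -, a2, a3, a4⟩
  obtain ⟨x, b1, b2⟩ := exists_fix_four S.nd (by rw [S.card_eq]; omega) (e i) (e j) (g.1 (e k))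
    (g.1 (e l))
  rw [← conj_refl, ← conj_refl, conj_mul] at b2
  have b3 := pow_ne_neg S.two b1 b2 m
  have htK := (S.rc_e hH i j).2
  have huK := mul_mem (mul_mem hg (S.rc_e hH k l).2) (inv_mem hg)
  have c1 := mul_mem htK huK
  have c2 := mul_mem (S.mem_of_comm hH hN hn ((S.dg_refl i).mul (S.dg_refl j)) (S.bi_ne hn hij).1
    (S.bi_ne hn hij).2 (pow_mem c1 m) a2.symm) (mul_mem (S.refl_e_mem i) (S.refl_e_mem j))
  generalize refl Q (e i) * refl Q (e j) * (g * (refl Q (e k) * refl Q (e l)) * g⁻¹) = r at *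
  have c3 : Dg e (r ^ m * (refl Q (e i) * refl Q (e j))) := by
    rcases a4 with ⟨⟨n, a4⟩, -⟩ | ⟨n, a4⟩ <;> rw [a4] at c2 ⊢
    · exact S.dg_of_bi hH hN hn (pow_mem c1 n) hij c2
    · have := S.dg_of_bi hH hN hn (mul_mem (pow_mem c1 n) hg) hkl
      simp only [mul_assoc, mul_inv_rev] at this c2 ⊢
      exact this c2
  have c4 := c3.mul ((S.dg_refl i).mul (S.dg_refl j))
  rw [mul_assoc, ht, mul_one] at c4
  exact (hg' (S.mem_of_bi hH hN hn hg hkl (S.mem_of_comm hH hN hn c4 a1 b3 huK a3))).elim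

theorem conj_notMem {g : O Q} (hg : g ∈ K) (hg' : g ∉ mon Q e) {s : O Q}
    (h1 : finrank F (O.comm s) ≤ 2) {i j : κ} (hij : i ≠ j) {ε : F} (hε : ε * ε = 1)
    (h2 : s.1 (e i + ε • e j) = -(e i + ε • e j)) : g⁻¹ * s * g ∉ mon Q e := fun h => by
  classical
  have a1 := S.card_le h 2 (O.comm (g⁻¹ * s * g)) (univ.filter fun k => (g⁻¹ * s * g).1 (e k) ≠ e k)
    (by
      have := O.comm_conj s g⁻¹
      rw [inv_inv] at this
      rwa [this, LinearEquiv.finrank_map_eq])
    fun k hk => ⟨(mem_filter.1 hk).2, O.sub_mem_comm _ _⟩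
  obtain ⟨k, hk, l, hl, hkl⟩ := one_lt_card.1 (show 1 < (univ.filter fun k =>
    (g⁻¹ * s * g).1 (e k) ≠ e k)ᶜ.card by rw [card_compl]; omega)
  have key : ∀ k ∈ (univ.filter fun k => (g⁻¹ * s * g).1 (e k) ≠ e k)ᶜ,
      polar Q (g.1 (e k)) (e i + ε • e j) = 0 := fun k hk => by
    have hk : (g⁻¹ * s * g).1 (e k) = e k := by
      by_contra h3
      exact mem_compl.1 hk (mem_filter.2 ⟨mem_univ _, h3⟩)
    rw [O.mul_apply, O.mul_apply, O.inv_apply_eq] at hk
    have := O.map_polar s (g.1 (e k)) (e i + ε • e j)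
    rw [hk, h2, polar_neg_right] at this
    exact mul_left_cancel₀ S.two (by linear_combination -this)
  have a2 := S.odd_orderOf hH hN hn hg hg' hij hkl
  generalize hr : refl Q (e i) * refl Q (e j) * (g * (refl Q (e k) * refl Q (e l)) * g⁻¹) = r at a2
  have a3 : r.1 (e i + ε • e j) = -(e i + ε • e j) := by
    rw [← hr, ← conj_mul, conj_refl, conj_refl, O.mul_apply, O.mul_apply _ (refl Q _),
      O.mul_apply _ (refl Q _), refl_apply_of_perp (key l hl), refl_apply_of_perp (key k hk)]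
    refine S.ext fun o => ?_
    simp only [S.pol_refl_e, polar_neg_right, polar_add_right, polar_smul_right', S.pol]
    grind
  have a4 : ∀ n : ℕ, (r ^ n).1 (e i + ε • e j) = (-1 : F) ^ n • (e i + ε • e j) := fun n => by
    induction n with
    | zero => simp [O.one_apply]
    | succ n ih => rw [pow_succ', O.mul_apply, ih, map_smul, a3, pow_succ]; module
  have a5 := congrArg (polar Q (e i)) (a4 (orderOf r))
  simp only [pow_orderOf_eq_one, O.one_apply, a2.neg_one_pow, polar_smul_right', polar_add_right,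
    S.pol, hij, if_true, if_false] at a5
  exact S.two (by linear_combination a5)

theorem le_mon_six (hK : K ≤ commutator (O Q)) : K ≤ mon Q e := fun g hg => by
  by_contra hg'
  have : Finite V := finite_of_finiteDimensional F V
  obtain ⟨T, -, hT⟩ := exists_subset_card_eq (show 4 ≤ (univ : Finset κ).card by simp [hn])
  obtain ⟨i, j, k, l, c1, c2, c3, c4, c5, c6, -⟩ := card_eq_four.1 hT
  have h1 : polar Q (e i - e j) (e k - e l) = 0 := by
    simp [polar_sub_left, polar_sub_right, S.pol, c2, c3, c4, c5]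
  have hs := refl_mul_refl_mul_self h1
  have hsK : refl Q (e i - e j) * refl Q (e k - e l) ∈ K := by
    simpa [sub_eq_add_neg] using (S.rc_rt hH c1 c6 (ε := -1) (ε' := -1) (by simp) (by simp)).2
  have hsM : refl Q (e i - e j) * refl Q (e k - e l) ∈ mon Q e := by
    simpa [sub_eq_add_neg] using mul_mem (S.refl_rt_mem c1 (ε := -1) (by simp))
      (S.refl_rt_mem c6 (ε := -1) (by simp))
  have hs1 : (refl Q (e i - e j) * refl Q (e k - e l)).1 (e i) = e j := by
    rw [O.mul_apply, refl_apply_of_perp (x := e i) (by simp [polar_sub_left, S.pol, c2.symm, c3.symm]),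
      S.swap_apply c1]
  have hs2 : ∀ h ∈ K, h⁻¹ * (refl Q (e i - e j) * refl Q (e k - e l)) * h ∈ mon Q e →
      h ∈ mon Q e := fun h hh h2 => by_contra fun h3 => S.conj_notMem hH hN hn hh h3
    ((Submodule.finrank_mono fun x hx => by
      obtain ⟨y, rfl⟩ := O.mem_comm.1 hx
      exact refl_mul_refl_sub_mem _ _ _).trans (finrank_span_pair_le _ _)) c1 (ε := -1) (by simp)
    (by rw [neg_one_smul, ← sub_eq_add_neg, O.mul_apply, 
      refl_apply_of_perp (x := e i - e j) ((polar_comm Q _ _).trans h1),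
      refl_apply_self (S.Q_sub' c1 ▸ one_ne_zero)]) h2
  obtain ⟨x, b1, b2⟩ := exists_fix_four S.nd (by rw [S.card_eq]; omega) (e i - e j) (e k - e l)
    (g.1 (e i)) (g.1 (e j))
  rw [← conj_refl, ← conj_refl, conj_mul] at b2
  have huK := mul_mem (mul_mem hg (S.rc_e hH i j).2) (inv_mem hg)
  have hr := mul_mem hsK huK
  have hc : ∀ h ∈ K, ∀ c ∈ K, Commute c (h * (refl Q (e i) * refl Q (e j)) * h⁻¹) →
      h⁻¹ * c * h ∈ mon Q e := fun h hh c hc h2 =>
    S.mem_of_comm hH hN hn ((S.dg_refl i).mul (S.dg_refl j)) (S.bi_ne hn c1).1 (S.bi_ne hn c1).2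
      (mul_mem (mul_mem (inv_mem hh) hc) hh) (by
        have := congrArg (fun x => h⁻¹ * x * h) h2.eq
        simpa [mul_assoc] using this.symm)
  have hD := dihedral_cases hs (S.bi_mul_self c1 g)
  have b3 := pow_ne_neg S.two b1 b2
  generalize refl Q (e i - e j) * refl Q (e k - e l) = s at *
  generalize s * (g * (refl Q (e i) * refl Q (e j)) * g⁻¹) = r at *
  have e1 : ∀ n : ℕ, r ^ n * (g * (refl Q (e i) * refl Q (e j)) * g⁻¹) * (r ^ n)⁻¹ =
      r ^ n * g * (refl Q (e i) * refl Q (e j)) * (r ^ n * g)⁻¹ := fun n => by group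
  simp only [e1] at hD
  rcases hD with ⟨-, n, a1⟩ | ⟨m, a1, a2, a3, a4, a5⟩
  · have := S.dg_of_bi hH hN hn (mul_mem (pow_mem hr n) hg) c1 (a1 ▸ hsM) i
    rw [← a1, hs1] at this
    have h2 := this.imp (congrArg (polar Q (e j))) (congrArg (polar Q (e j)))
    simp [S.pol, c1.symm] at h2
  have a6 := hc g hg _ (pow_mem hr m) a4
  rcases a5 with ⟨-, n, a5⟩ | ⟨n, a5⟩
  · have d1 := S.dg_of_bi hH hN hn (mul_mem (inv_mem hg) (mul_mem (pow_mem hr n) hg)) c1
    rw [show g⁻¹ * (r ^ n * g) * (refl Q (e i) * refl Q (e j)) * (g⁻¹ * (r ^ n * g))⁻¹ =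
      g⁻¹ * r ^ m * g * (refl Q (e i) * refl Q (e j)) by
        have := congrArg (fun x => g⁻¹ * x * g) a5
        simpa [mul_assoc] using this.symm] at d1
    have d2 := (d1 (mul_mem a6 (mul_mem (S.refl_e_mem i) (S.refl_e_mem j)))).mul
      ((S.dg_refl i).mul (S.dg_refl j))
    rw [mul_assoc, refl_mul_refl_mul_self ((S.pol i j).trans (if_neg c1)), mul_one] at d2
    refine hg' (hs2 g hg (S.mem_of_comm hH hN hn d2 (fun h => a1 (by
      have := congrArg (fun x => g * x * g⁻¹) h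
      simpa [mul_assoc] using this))
      (fun h => b3 m (O.ext fun v => ?_)) (mul_mem (mul_mem (inv_mem hg) hsK) hg) ?_))
    · generalize r ^ m = z at h
      have := congrArg (fun x : O Q => (g * x * g⁻¹).1 v) h
      simp only [mul_assoc, mul_inv_cancel, mul_one, mul_inv_cancel_left] at this
      rw [this, O.mul_apply, O.mul_apply, O.neg_apply, map_neg, ← O.mul_apply, mul_inv_cancel,
        O.one_apply, O.neg_apply]
    · have := congrArg (fun x => g⁻¹ * x * g) a3.eq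
      simpa [mul_assoc] using this
  · have d0 := mul_mem (pow_mem hr n) hg
    have d1 := S.dg_conj (hs2 _ d0 (hc _ d0 s hsK (a5 ▸ (a3.symm.mul_right (Commute.refl s)))))
      ((S.dg_refl i).mul (S.dg_refl j))
    rw [← a5] at d1
    have d2 := hK (pow_mem hr m)
    generalize r ^ m = z at *
    obtain ⟨η, d3, d4⟩ : ∃ η : F, η * η = 1 ∧ z.1 (e i) = η • e j := by
      have : z.1 (e i) = (z * s).1 (e j) := by
        rw [← hs1, ← O.mul_apply, mul_assoc, hs, mul_one]
      rcases d1 j with h | h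
      · exact ⟨1, by simp, by rw [this, h, one_smul]⟩
      · exact ⟨-1, by simp, by rw [this, h, neg_one_smul]⟩
    have d5 : z.1 (e j) = η • e i := by
      rw [← one_smul F (e j), ← d3, mul_smul, map_smul, ← d4, ← O.mul_apply, a2, O.one_apply]
    have d6 := (dickson_eq_one_iff S.nd).1 (Abelianization.commutator_subset_ker _ d2)
    have d7 := O.finrank_comm_add_finrank_fix z
    rw [S.card_eq, hn] at d7
    by_cases d8 : finrank F (O.comm z) ≤ 2
    · exact S.conj_notMem hH hN hn hg hg' d8 c1 (ε := -η) (by simpa) (by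
        rw [map_add, map_smul, d4, d5, smul_smul, neg_mul, d3]; module) a6
    · refine S.conj_notMem hH hN hn hg hg' (s := O.neg Q * z) ((Submodule.finrank_mono (t := O.fix z)
        fun x hx => ?_).trans (by grind)) c1 d3 (by
        rw [O.mul_apply, O.neg_apply, map_add, map_smul, d4, d5, smul_smul, d3]; module) ?_
      · obtain ⟨y, rfl⟩ := O.mem_comm.1 hx
        rw [O.mem_fix, O.mul_apply, O.neg_apply, map_sub, map_neg, ← O.mul_apply, a2, O.one_apply]
        abel
      · rw [show g⁻¹ * (O.neg Q * z) * g = O.neg Q * (g⁻¹ * z * g) from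
          O.ext fun v => by simp [O.mul_apply]]
        exact mul_mem (S.mem_mon fun i => ⟨i, -1, by simp⟩) a6

end Fr

/-- The stabiliser of an orthonormal frame is maximal in dimension six. -/
theorem Fr.max_six [DecidableEq κ] (S : Fr Q e) [FiniteDimensional F V] [Fintype κ] [Finite F]
    (hn : Fintype.card κ = 6) : MaxC (mon Q e) := fun K hH hK => by
  refine or_iff_not_imp_right.2 fun hc => S.le_mon_six hH (fun a b h1 h2 h3 => ?_) hn hK
  obtain ⟨c, hc0, k, h4⟩ := S.cases_of_mem h1 h2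
  have h5 : ∀ b', b = c • b' → RC K (c⁻¹ • a) b' := by
    rintro b' rfl
    refine ⟨by rw [Q_smul, h3.1, Q_smul]; field_simp, ?_⟩
    simpa only [refl_smul hc0, refl_smul (inv_ne_zero hc0)] using h3.2
  rw [← refl_smul (inv_ne_zero hc0)]
  by_contra h
  obtain h4 | ⟨m, ε, h6, h7, h4⟩ := h4
  · exact hc (S.commutator_le_of_rc_e hH (by omega) hK (h5 _ h4) h)
  obtain ⟨L, h8, h9, h10⟩ := S.exists_ext' hH hK (S.Q_rt h6 h7 ▸ one_ne_zero) (S.refl_rt_mem h6 h7)
  exact hc (h10 (S.core_rt' h8 (fun i j hij η hη => h9 _ (S.rc_rt hH hij h6 hη h7))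
    hn ((h5 _ h4).1.trans (S.Q_rt h6 h7)) (h9 _ (h5 _ h4)) h))

end Cfsg.Lib.OMax
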