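import Cfsg.Agent.Lib.OMax.Dec2C
import Cfsg.Agent.Lib.OMax.Refl

/-!
# Decompositions into three anisotropic planes
-/

set_option autoImplicit false

namespace Cfsg.Lib.OMax

open QuadraticMap Module Cfsg.Lib.Orth Finset

variable {F V : Type*} [Field F] [AddCommGroup V] [Module F V] {Q : QuadraticForm F V}
  {K : Subgroup (O Q)}

open Polynomial in
theorem sq_eq_one_of_isSquare [Finite F] (h1 : ¬ IsSquare (-1 : F)) {m : F} (hm : m ≠ 0)
    (h : ∀ x : F, IsSquare (x ^ 2 + 1) → IsSquare ((m * x) ^ 2 + 1)) : m ^ 2 = 1 := by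
  classical
  have := Fintype.ofFinite F
  have h2 : (2 : F) ≠ 0 := fun h2 => h1 (isSquare_of_two_eq_zero h2 _)
  have h2' : ringChar F ≠ 2 := fun h => h2 (ringChar_eq_two_iff.1 h)
  have h3 := odd_card_of_two_ne_zero h2
  have h4 := Fintype.one_lt_card (α := F)
  have a1 : ∀ (k : ℕ) (x : F), IsSquare (x ^ 2 + 1) → IsSquare ((m ^ k * x) ^ 2 + 1) := fun k => by
    induction k with
    | zero => simp
    | succ k ih => exact fun x hx => by rw [pow_succ' m, mul_assoc]; exact h _ (ih x hx)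
  have a2 : ∀ x : F, IsSquare ((m * x) ^ 2 + 1) → IsSquare (x ^ 2 + 1) := fun x hx => by
    have := a1 (Fintype.card F - 2) _ hx
    rwa [← mul_assoc, ← pow_succ, show Fintype.card F - 2 + 1 = Fintype.card F - 1 by omega,
      FiniteField.pow_card_sub_one_eq_one m hm, one_mul] at this
  have a3 : ∀ x : F, x ^ 2 + 1 ≠ 0 := fun x hx => h1 ⟨x, by linear_combination -hx⟩
  obtain ⟨d, hd⟩ : ∃ d, Fintype.card F / 2 = d + 1 := ⟨Fintype.card F / 2 - 1, by omega⟩
  have a4 : (X ^ 2 + 1 : F[X]) ^ (d + 1) - (C (m ^ 2) * X ^ 2 + 1) ^ (d + 1) = 0 := by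
    refine eq_zero_of_natDegree_lt_card_of_eval_eq_zero _ Function.injective_id (fun x => ?_) ?_
    · simp only [eval_sub, eval_pow, eval_add, eval_mul, eval_C, eval_X, eval_one, id, ← hd,
        ← mul_pow]
      rcases FiniteField.pow_dichotomy h2' (a3 x) with b1 | b1 <;>
        rcases FiniteField.pow_dichotomy h2' (a3 (m * x)) with b2 | b2
      · rw [b1, b2, sub_self]
      · have := (FiniteField.isSquare_iff h2' (a3 _)).1 (h x ((FiniteField.isSquare_iff h2' (a3 _)).2 b1))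
        exact absurd (by linear_combination b2 - this) h2
      · have := (FiniteField.isSquare_iff h2' (a3 _)).1 (a2 x ((FiniteField.isSquare_iff h2' (a3 _)).2 b2))
        exact absurd (by linear_combination b1 - this) h2
      · rw [b1, b2, sub_self]
    · have b1 : (X ^ 2 + 1 : F[X]).natDegree ≤ 2 := by compute_degree
      have b2 : (C (m ^ 2) * X ^ 2 + 1 : F[X]).natDegree ≤ 2 := by compute_degree
      have b3 := natDegree_pow_le_of_le (d + 1) b1
      have b4 := natDegree_pow_le_of_le (d + 1) b2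
      have := natDegree_sub_le_of_le b3 b4
      omega
  have a5 : ((d + 1 : ℕ) : F) ≠ 0 := fun h0 => by
    have := FiniteField.cast_card_eq_zero F
    rw [show Fintype.card F = 2 * (d + 1) + 1 by omega, Nat.cast_add, Nat.cast_mul, h0] at this
    simp at this
  have a6 := congrArg derivative a4
  simp only [derivative_sub, derivative_pow, derivative_add, derivative_mul, derivative_C,
    derivative_X, derivative_one, map_zero, Nat.add_sub_cancel] at a6
  have a7 : (C (((d + 1 : ℕ) : F) * 2) * X) * ((X ^ 2 + 1 : F[X]) ^ d -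
      C (m ^ 2) * (C (m ^ 2) * X ^ 2 + 1) ^ d) = 0 := by
    rw [← a6, map_mul]; simp only [map_ofNat, Nat.cast_ofNat]; ring
  have a8 := congrArg (eval 0) ((mul_eq_zero.1 a7).resolve_left
    (mul_ne_zero (C_ne_zero.2 (mul_ne_zero a5 h2)) X_ne_zero))
  simp at a8
  linear_combination -a8

theorem sqsign_perp [Finite F] (h2 : (2 : F) ≠ 0) {W : Submodule F V}
    (hA : ∀ x ∈ W, Q x = 0 → x = 0) {x z : V} (hx : x ∈ W) (hz : z ∈ W) (hx0 : Q x ≠ 0)
    (hz0 : Q z ≠ 0) (h : polar Q x z = 0) : sqsign (-1 : F) * sqsign (Q x) = -sqsign (Q z) := by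
  rw [← sqsign_mul (by simp) hx0]
  refine Int.units_ne_iff_eq_neg.1 fun h1 => ?_
  obtain ⟨c, hc, e⟩ := exists_sq_mul_of_sqsign_eq (by simpa) hz0 h1
  have := congrArg (polar Q x) (hA _ (add_mem (W.smul_mem c hx) hz)
    (by rw [Q_add, Q_smul, polar_smul_left', h, e]; ring))
  simp [polar_add_right, polar_self', h, hc, h2, hx0] at this

theorem fin_three : ∀ {i j l : Fin 3}, i ≠ j → i ≠ l → j ≠ l → ∀ m, m = i ∨ m = j ∨ m = l := by
  decide

namespace DecStr

variable {D : Fin 3 → Submodule F V} [FiniteDimensional F V] (S : DecStr Q D 2) [Finite F]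
  (h3 : Nat.card F ≠ 3) (hA : ∀ i, ∀ x ∈ D i, Q x = 0 → x = 0)
include S h3 hA

omit [Finite F] [FiniteDimensional F V] in
theorem big3 (i : Fin 3) : Big Q (D i) :=
  ⟨S.ndD i, S.dim i, h3, fun e he h0 h1 => absurd (hA i e he h1) h0⟩

omit h3 hA [Finite F] in
theorem not_exc3 : ¬ Exc Q := not_exc_of_five_le (by rw [S.finrank_eq]; simp)

omit h3 hA [Finite F] in
theorem Q_three {i j l : Fin 3} (hij : i ≠ j) (hil : i ≠ l) (hjl : j ≠ l) (x : V) :
    Q x = Q (S.pr i x) + Q (S.pr j x) + Q (S.pr l x) := by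
  rw [S.Q_eq_sum, show (univ : Finset (Fin 3)) = {i, j, l} by revert i j l; decide,
    sum_insert (by simp [hij, hil]), sum_pair hjl, add_assoc]

variable (hH : dstab Q D ⊓ commutator (O Q) ≤ K)
include hH

theorem le_AE3 {e w : V} (he0 : e ≠ 0) (he : Q e = 0) {i j l : Fin 3} (hij : i ≠ j) (hil : i ≠ l)
    (hjl : j ≠ l) (hj : S.pr j e = 0) (hw : w ∈ AE K e) (hwj : S.pr j w ≠ 0) :
    S.pr i e ≠ 0 ∧ S.pr l e ≠ 0 ∧ ∀ x ∈ D j, x ∈ AE K e := by
  have hb := S.big3 h3 hA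
  have hj' := S.pr_eq_zero.1 hj
  have h0 := S.Q_three hij hil hjl e
  rw [he, hj, map_zero, add_zero] at h0
  have a0 := fin_three hij hil hjl
  have a1 : S.pr i e ≠ 0 := fun h => he0 (S.ext fun m => by
    rcases a0 m with rfl | rfl | rfl <;> simp only [h, hj, map_zero]
    exact hA _ _ (S.pr_mem _ _) (by simpa [h] using h0.symm))
  have a2 : S.pr l e ≠ 0 := fun h => a1 (hA _ _ (S.pr_mem _ _) (by simpa [h] using h0.symm))
  have a1' : Q (S.pr i e) ≠ 0 := mt (hA _ _ (S.pr_mem _ _)) a1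
  have a2' : Q (S.pr l e) ≠ 0 := mt (hA _ _ (S.pr_mem _ _)) a2
  refine ⟨a1, a2, fun x hx => ?_⟩
  have key : ∀ c ∈ D j, Q c ≠ 0 → ∀ m, m ≠ j → ∀ z ∈ D m, Q z ≠ 0 → polar Q (S.pr m e) z = 0 →
      sqsign (Q c) = sqsign (Q z) → ∀ y ∈ D j, y ∈ AE K e → (refl Q c).1 y ∈ AE K e :=
    fun c hc c0 m hm z hz z0 z1 h y hy h6 => by
      have := apply_mem_AE (hH ⟨mul_mem (S.refl_mem_dstab hc) (S.refl_mem_dstab hz),
        refl_mul_refl_mem_commutator' S.nd c0 z0 h⟩) (by
          rw [O.mul_apply, refl_apply_of_perp (v := z) (by rwa [polar_comm, ← S.polar_pr' hz]),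
            refl_mem_fixer hc e hj']) h6
      rwa [O.mul_apply, refl_apply_of_perp (S.orth' hm hz hy)] at this
  obtain ⟨z, z1, z2, z3⟩ := (hb i).exists_perp (S.pr_mem i e) a1'
  obtain ⟨z', z1', z2', z3'⟩ := (hb l).exists_perp (S.pr_mem l e) a2'
  obtain ⟨b, b1, a, c1, b2, c2, h2, -⟩ := (hb j).exists_pair one_ne_zero
  have h4 := mul_mem (refl_mem_fixer (Q := Q) c1) (refl_mem_fixer b1)
  have h5 := sub_mem (apply_mem_AE (S.refl_mul_mem hH c1 b1 (by simp [c2]) (c2.trans b2.symm))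
    (h4 e hj') hw) hw
  refine (hb j).mem_of_refl (fun c hc y hy h6 => ?_) (sub_mem_of_fixer S.nd h4 w) h5
    (fun h6 => hwj ?_) hx
  · by_cases c0 : Q c = 0
    · rwa [refl_of_singular c0]
    by_cases d1 : sqsign (Q c) = sqsign (Q z)
    · exact key c hc c0 i hij z z1 z2 z3 d1 y hy h6
    by_cases d2 : sqsign (Q c) = sqsign (Q z')
    · exact key c hc c0 l hjl.symm z' z1' z2' z3' d2 y hy h6
    have h2 : (2 : F) ≠ 0 := fun h2 => d1 (by simp [sqsign_of_isSquare (isSquare_of_two_eq_zero h2 _)])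
    obtain ⟨c', e1, e2, e3⟩ := (hb j).exists_perp hc c0
    have d3 := sqsign_perp h2 (hA _) hc e1 c0 e2 e3
    have d4 := sqsign_perp h2 (hA _) (S.pr_mem i e) z1 a1' z2 z3
    have d5 := sqsign_perp h2 (hA _) (S.pr_mem l e) z1' a2' z2' z3'
    rw [show Q (S.pr i e) = -1 * Q (S.pr l e) by linear_combination -h0,
      sqsign_mul (by simp) a2'] at d4
    have d6 : sqsign (Q c') = sqsign (Q z) := by
      revert d1 d2 d3 d4 d5
      generalize sqsign (Q c) = s1, sqsign (Q c') = s2, sqsign (Q z) = s3, sqsign (Q z') = s4,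
        sqsign (-1 : F) = s5, sqsign (Q (S.pr l e)) = s6
      revert s1 s2 s3 s4 s5 s6
      decide
    have d7 := neg_mem (key c' e1 e2 i hij z z1 z2 z3 d6 y hy h6)
    obtain ⟨s, t, rfl⟩ := Submodule.mem_span_pair.1 (le_span_of_finrank_two (S.dim j) hc e1
      (ne_zero_of_Q_ne_zero c0) (fun h => by
        obtain ⟨t, rfl⟩ := Submodule.mem_span_singleton.1 h
        simp [polar_self', h2, c0] at e3
        simp [e3] at e2) hy)
    simpa [refl_apply_self c0, refl_apply_self e2, refl_apply_of_perp e3,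
      refl_apply_of_perp (polar_comm Q c c' ▸ e3), add_comm] using d7
  · have h7 : (refl Q b).1 w = (refl Q a).1 w := by
      simpa [O.mul_apply] using congrArg (refl Q a).1 (sub_eq_zero.1 h6)
    simp only [refl_apply, c2, b2, inv_one, one_mul, sub_right_inj] at h7
    have h8 : polar Q a w = 0 := by_contra fun h8 =>
      h2 ((Submodule.smul_mem_iff _ h8).1 (h7 ▸ Submodule.smul_mem _ _ (by simp)))
    have hb0 := ne_zero_of_Q_ne_zero (show Q b ≠ 0 by simp [b2])
    refine S.pr_eq_zero.2 (perp_anti (le_span_of_finrank_two (S.dim j) b1 c1 hb0 h2) ?_)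
    simpa [mem_perp_pair, h8, hb0] using h7

theorem commutator_le_of_short3 {e w : V} (he0 : e ≠ 0) (he : Q e = 0) {i j l : Fin 3}
    (hij : i ≠ j) (hil : i ≠ l) (hjl : j ≠ l) (hj : S.pr j e = 0) (hw : w ∈ AE K e)
    (hwj : S.pr j w ≠ 0) : commutator (O Q) ≤ K := by
  have hb := S.big3 h3 hA
  have hE := S.not_exc3
  have hj' := S.pr_eq_zero.1 hj
  obtain ⟨hi, hl, h8⟩ := S.le_AE3 h3 hA hH he0 he hij hil hjl hj hw hwj
  obtain ⟨c, c1, c2, -, c3⟩ := (hb i).exists_third one_ne_zero (S.pr_mem i e) hi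
  rw [S.polar_pr' c1] at c3
  have corr : ∀ m, ∀ c ∈ D m, ∃ g ∈ K, g ∈ stab Q (D j) ∧ ∀ x ∈ perp Q (D j), g.1 x = (refl Q c).1 x :=
    fun m c hc => by
      obtain ⟨r, r1, r2⟩ := S.exists_corr hE hH le_rfl (S.refl_mem_dstab hc) j
      exact ⟨_, r2, mul_mem (S.mem_stab_of_fix (refl_mem_fixer hc) j) (S.mem_stab_of_fix r1 j),
        fun x hx => by rw [O.mul_apply, r1 x hx]⟩
  obtain ⟨g, g1, g2, g3⟩ := corr i c c1
  obtain ⟨f, hf⟩ : ∃ f, f = (refl Q c).1 e := ⟨_, rfl⟩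
  have h11 : ∀ x ∈ D j, x ∈ AE K f := fun x hx => by
    obtain ⟨y, hy, rfl⟩ := (mem_stab.1 g2).ge hx
    simpa using conj_mem_AE he g1 one_ne_zero (e' := f) (by rw [g3 e hj', hf, one_smul]) (h8 y hy)
  have hf0 : Q f = 0 := by rw [hf, O.map_Q, he]
  have hef : polar Q e f ≠ 0 := by
    simp [hf, refl_apply, polar_sub_right, polar_self', he, c2, c3, polar_comm Q c e]
  have key : ∀ e f, Q e = 0 → polar Q e f ≠ 0 → (∀ x ∈ D j, x ∈ AE K e) →
      FullAt K (D j ⊔ Submodule.span F {e, f}) e := fun e f he hef h8 =>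
    fullAt_iff.2 fun z hz _ h => by
      obtain ⟨x, hx, y, hy, rfl⟩ := Submodule.mem_sup.1 hz
      obtain ⟨s, t, rfl⟩ := Submodule.mem_span_pair.1 hy
      simp only [polar_add_right, polar_smul_right', (h8 x hx).1, polar_self', he, mul_zero,
        zero_add, mul_eq_zero, hef, or_false] at h
      simpa [h] using (add_mem (h8 x hx) (smul_self_mem_AE he s)).2
  have heX : e ∈ D j ⊔ Submodule.span F {e, f} :=
    Submodule.mem_sup_right (Submodule.subset_span (by simp))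
  have hfX : f ∈ D j ⊔ Submodule.span F {e, f} :=
    Submodule.mem_sup_right (Submodule.subset_span (by simp))
  have hU : D j ⊔ F ∙ c ≤ D j ⊔ Submodule.span F {e, f} := sup_le le_sup_left
    ((Submodule.span_singleton_le_iff_mem _ _).2 ((Submodule.smul_mem_iff _ c3).1 (by
      simpa [hf, refl_apply, c2, polar_comm Q c e] using sub_mem heX hfX)))
  obtain ⟨d, d1, d2⟩ := exists_Q_eq_mem (S.ndD j) (S.dim j).ge (-1)
  have d0 : Q d ≠ 0 := by simp [d2]
  obtain ⟨z, z1, z2, z3⟩ := (hb j).exists_perp d1 d0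
  obtain ⟨y, y1, y2⟩ := S.exists_polar_ne d1 (ne_zero_of_Q_ne_zero d0)
  have hG : Good Q (D j ⊔ F ∙ c) (d + c) := RG.good_of_polar_ne
    (by rw [Q_add, d2, c2, S.orth' hij.symm d1 c1]; ring)
    (add_mem (Submodule.mem_sup_left d1) (Submodule.mem_sup_right (by simp)))
    (Submodule.mem_sup_left y1) (Submodule.mem_sup_left z1)
    (by rwa [polar_add_left, S.orth' hij c1 y1, add_zero])
    (by rw [polar_add_left, S.orth' hij c1 z1, z3, add_zero]) z2
  obtain ⟨M, M1, M2⟩ := (full_of_pair heX hfX he hf0 hef (key e f he hef h8)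
    (Set.pair_comm f e ▸ key f e hf0 (by rwa [polar_comm]) h11)).exists_maxFull (hG.mono hU)
  have h12 : ∀ d ∈ D l, Q d = 1 → polar Q (S.pr l e) d ≠ 0 → d ∈ M := fun d hd d1 d2 => by
    obtain ⟨g, g1, g2, g3⟩ := corr l d hd
    have := apply_mem_of_mem_stab (M2.mem_stab hG (hU.trans M1) g1 (mem_stab.2 (by
      rw [Submodule.map_sup, mem_stab.1 g2, Submodule.map_span, Set.image_singleton]
      simp only [LinearEquiv.coe_coe]
      rw [g3 c (S.orth _ _ hij.symm c1), refl_apply_of_perp (S.orth' hil.symm hd c1)]))) (M1 heX)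
    rw [S.polar_pr' hd, polar_comm] at d2
    exact (M.smul_mem_iff d2).1 (by simpa [g3 e hj', refl_apply, d1] using sub_mem (M1 heX) this)
  obtain ⟨u, u1, u2, -, u3⟩ := (hb l).exists_third one_ne_zero (S.pr_mem l e) hl
  obtain ⟨v, v1, v2, v3, v4⟩ := (hb l).exists_notMem one_ne_zero ((hb l).not_le_span u)
    ((hb l).not_le_perp (S.pr_mem l e) hl)
  refine S.commutator_le_of_full hE hH le_rfl (fun _ i h => ?_) (i := j) (j := l) ?_ M2.full
    (le_sup_left.trans M1) ((le_span_of_finrank_two (S.dim l) u1 v1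
      (ne_zero_of_Q_ne_zero (Q := Q) (by simp [u2])) v3).trans (Submodule.span_le.2 (by
        simpa [Set.insert_subset_iff] using ⟨h12 u u1 u2 u3,
          h12 v v1 v2 (mt mem_perp_singleton.2 v4)⟩))) (M1 heX) fun h => hi ?_
  · obtain ⟨-, x, h1, h2, h3⟩ := h
    exact h2 (hA i x h1 h3)
  · have h1 := Submodule.finrank_sup_add_finrank_inf_eq (D j) (D l)
    rw [((nd_restrict_iff_disjoint.1 (S.ndD j)).mono_right (S.orth j l hjl)).eq_bot, finrank_bot,
      S.dim, S.dim] at h1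
    omega
  · obtain ⟨x, hx, y, hy, rfl⟩ := Submodule.mem_sup.1 h
    rw [map_add, S.pr_of_ne hij hx, S.pr_of_ne hil hy, add_zero]

variable {i₀ : Fin 3} {b : V} (hb0 : b ∈ D i₀) (hb1 : Q b ≠ 0)
include hb0 hb1

omit hb0 in
theorem commutator_le_of_sub3 {a a' : V} (h : RC K a b) (h' : RC K a' b) (h0 : a - a' ≠ 0)
    (h1 : Q (a - a') = 0) {i j l : Fin 3} (hij : i ≠ j) (hil : i ≠ l) (hjl : j ≠ l)
    (hj : S.pr j (a - a') = 0) (ha : S.pr j a ≠ 0) : commutator (O Q) ≤ K :=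
  S.commutator_le_of_short3 h3 hA hH h0 h1 hij hil hjl hj
    ((h.trans h'.symm).mem_AE (h.1 ▸ hb1) h1) (by simp [h.1, hb1, ha])

theorem commutator_le_of_two3 (h2 : (2 : F) = 0) {a : V} (h : RC K a b)
    {i j : Fin 3} (hij : i ≠ j) (hi : S.pr i a ≠ 0) (hj : S.pr j a ≠ 0) : commutator (O Q) ≤ K := by
  have hb := S.big3 h3 hA
  obtain ⟨l, hl⟩ := exists_notMem_of_card [i, j] (by simp)
  simp only [List.mem_cons, List.not_mem_nil, or_false, not_or] at hl
  obtain ⟨φ, h3', h4⟩ : ∃ φ : O Q, (∀ x ∈ D i, φ.1 x ∈ D l) ∧ φ.1 (S.pr i a) ≠ S.pr l a := by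
    obtain ⟨φ, hφ⟩ := S.iso i l
    by_cases h3 : φ.1 (S.pr i a) = S.pr l a
    · obtain ⟨c, c1, c2, -, c3⟩ := (hb i).exists_third one_ne_zero (S.pr_mem i a) hi
      refine ⟨φ * refl Q c, fun x hx => hφ _ (apply_mem_of_mem_stab (refl_mem_stab_of_mem c1) hx),
        fun h4 => ?_⟩
      rw [← h3, O.mul_apply, φ.1.injective.eq_iff, refl_apply, polar_comm] at h4
      simp [c2, c3, ne_zero_of_Q_ne_zero (show Q c ≠ 0 by simp [c2])] at h4
    · exact ⟨φ, hφ, h3⟩
  obtain ⟨g, g1, g2, g3, g4⟩ := S.exists_swap_of (Ne.symm hl.1) h3'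
  have h5 := sub_mem (S.pr_mem i a) (S.inv_mem h3' (S.pr_mem l a))
  have h6 : a - g.1 a = (S.pr i a - (φ⁻¹).1 (S.pr l a)) - φ.1 (S.pr i a - (φ⁻¹).1 (S.pr l a)) := by
    have := g4 (a - S.pr i a - S.pr l a) (S.pr_eq_zero.1 (by simp [S.pr_pr_ne (Ne.symm hl.1)]))
      (S.pr_eq_zero.1 (by simp [S.pr_pr_ne hl.1]))
    rw [map_sub, map_sub, g2 _ (S.pr_mem i a), g3 _ (S.pr_mem l a)] at this
    rw [map_sub, O.apply_inv_apply]
    linear_combination (norm := module) -this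
  refine S.commutator_le_of_sub3 h3 hA hH hb1 h (S.rc_apply S.not_exc3 hH hb0 hb1 h g1 ?_)
    (fun h0 => h4 ?_) ?_ hij (Ne.symm hl.1) (Ne.symm hl.2) ?_ hj
  · simp [classChar, sqsign_of_isSquare (isSquare_of_two_eq_zero h2 _), spinor_of_two_eq_zero _ h2]
  · have := congrArg (S.pr l) (h6.symm.trans h0)
    rw [map_sub, S.pr_of_ne hl.1 h5, S.pr_of_mem (h3' _ h5), map_sub, O.apply_inv_apply] at this
    exact Eq.symm (by simpa [sub_eq_zero] using this)
  · rw [h6, Q_sub, O.map_Q, S.orth' (Ne.symm hl.1) h5 (h3' _ h5), ← two_mul, h2]; simp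
  · rw [h6, map_sub, S.pr_of_ne hij.symm h5, S.pr_of_ne (Ne.symm hl.2) (h3' _ h5), sub_zero]

theorem commutator_le_of_full3 (h2 : (2 : F) ≠ 0) {a : V} (h : RC K a b) (ha : ∀ i, S.pr i a ≠ 0)
    (hg : sqsign (-1 : F) = 1 ∨ ∃ m, ∃ z ∈ D m, Q z ≠ 0 ∧ polar Q z a = 0 ∧
      sqsign (Q z) ≠ sqsign (Q b)) : commutator (O Q) ≤ K := by
  have hb := S.big3 h3 hA
  have ha' : ∀ i, Q (S.pr i a) ≠ 0 := fun i => mt (hA _ _ (S.pr_mem _ _)) (ha i)
  have par : ∀ i, ∃ φ : F → F, Function.Injective φ ∧ ∀ y, ∃ c ∈ D i, Q c ≠ 0 ∧ polar Q c a ≠ 0 ∧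
      polar Q c a ^ 2 * (Q c)⁻¹ = φ (y ^ 2) := fun i => by
    obtain ⟨z, hz, h1, h4⟩ := (hb i).exists_perp (S.pr_mem i a) (ha' i)
    have h5 : ∀ y : F, polar Q (S.pr i a + y • z) a = 2 * Q (S.pr i a) := fun y => by
      rw [← S.polar_pr (add_mem (S.pr_mem i a) ((D i).smul_mem _ hz)), polar_add_left,
        polar_smul_left', polar_comm Q z, h4, polar_self']
      ring
    refine ⟨fun u => (2 * Q (S.pr i a)) ^ 2 * (Q (S.pr i a) + u * Q z)⁻¹, fun u v huv => ?_,
      fun y => ⟨_, add_mem (S.pr_mem i a) ((D i).smul_mem y hz), fun h0 => ?_, by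
        simp [h5, h2, ha'], ?_⟩⟩
    · simpa [ha', h1, h2] using huv
    · have := h5 y
      rw [hA _ _ (add_mem (S.pr_mem i a) ((D i).smul_mem y hz)) h0] at this
      simp [h2, ha'] at this
    · rw [h5, Q_add, polar_smul_right', h4, Q_smul]; simp
  obtain ⟨φ, a1, a2⟩ := par 0
  obtain ⟨ψ, b1, b2⟩ := par 2
  obtain ⟨x, y, h5⟩ := exists_sq_add_sq h2 a1 b1 0
  obtain ⟨c, c1, c2, c3, c4⟩ := a2 x
  obtain ⟨d, d1, d2, d3, d4⟩ := b2 y
  rw [← c4, ← d4] at h5
  have h6 := mul_mem (S.refl_mem_dstab c1) (S.refl_mem_dstab d1)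
  have h7 : classChar S.nd (Q b) (refl Q c * refl Q d) = sqsign (-1 : F) := by
    have := congrArg sqsign (show polar Q c a ^ 2 * (Q c)⁻¹ = polar Q d a ^ 2 * (-1 * (Q d)⁻¹) by
      linear_combination h5)
    rw [sqsign_sq_mul c3, sqsign_sq_mul d3, sqsign_mul (by simp) (inv_ne_zero d2), sqsign_inv,
      sqsign_inv] at this
    rw [map_mul, classChar_refl _ _ c2, classChar_refl _ _ d2, this, mul_mul_mul_comm,
      Int.units_mul_self, mul_one, mul_assoc, Int.units_mul_self, mul_one]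
  have h8 : RC K ((refl Q c * refl Q d).1 a) b := by
    rcases Int.units_eq_one_or (sqsign (-1 : F)) with h8 | h8
    · exact S.rc_apply S.not_exc3 hH hb0 hb1 h h6 (h7.trans h8)
    obtain ⟨m, z, z1, z2, z3, z4⟩ := hg.resolve_left (by simp [h8])
    simpa only [O.mul_apply, refl_apply_of_perp z3] using S.rc_apply S.not_exc3 hH hb0 hb1 h
      (mul_mem h6 (S.refl_mem_dstab z1)) (by
        rw [map_mul, h7, h8, classChar_refl _ _ z2, Int.units_ne_iff_eq_neg.1 z4]; simp)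
  have h9 : a - (refl Q c * refl Q d).1 a =
      ((Q c)⁻¹ * polar Q c a) • c + ((Q d)⁻¹ * polar Q d a) • d := by
    have := refl_mul_refl_apply (S.orth' (show (0 : Fin 3) ≠ 2 by decide) c1 d1) a
    linear_combination (norm := module) -this
  refine S.commutator_le_of_sub3 h3 hA hH hb1 h h8 (fun h0 => ?_) ?_ (i := 0) (j := 1) (l := 2)
    (by decide) (by decide) (by decide) ?_ (ha 1)
  · have := congrArg (S.pr 0) (h9.symm.trans h0)
    simp [S.pr_of_mem c1, S.pr_of_ne (show (0 : Fin 3) ≠ 2 by decide) d1, c2, c3,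
      ne_zero_of_Q_ne_zero c2] at this
  · rw [h9, Q_add, Q_smul, Q_smul, polar_smul_left', polar_smul_right',
      S.orth' (show (0 : Fin 3) ≠ 2 by decide) c1 d1]
    refine Eq.trans ?_ h5
    field_simp; ring
  · rw [h9]
    simp [S.pr_of_ne (show (1 : Fin 3) ≠ 0 by decide) c1,
      S.pr_of_ne (show (1 : Fin 3) ≠ 2 by decide) d1]

theorem commutator_le_of_rc3 {a : V} (h : RC K a b) (ha : ∀ i, a ∉ D i) :
    commutator (O Q) ≤ K := by
  have hb := S.big3 h3 hA
  have key : ∀ i, ∃ j, i ≠ j ∧ S.pr j a ≠ 0 := fun i => by simpa [S.mem_iff, eq_comm] using ha i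
  obtain ⟨i, -, hi⟩ := key i₀
  obtain ⟨j, hij, hj⟩ := key i
  by_cases h2 : (2 : F) = 0
  · exact S.commutator_le_of_two3 h3 hA hH hb0 hb1 h2 h hij hi hj
  have hQ : ∀ a i, S.pr i a ≠ 0 → Q (S.pr i a) ≠ 0 := fun a i => mt (hA _ _ (S.pr_mem _ _))
  obtain ⟨a, h, ha⟩ : ∃ a, RC K a b ∧ ∀ i, S.pr i a ≠ 0 := by
    by_cases h4 : ∃ l, S.pr l a = 0
    · obtain ⟨l, hl⟩ := h4
      obtain ⟨a', h4, h5, h6⟩ := S.exists_grow hb S.not_exc3 hH hb0 hb1 h2 h (hQ a) hij hi hj hl
      have := fin_three hij (l := l) (by rintro rfl; exact hi hl) (by rintro rfl; exact hj hl)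
      exact ⟨a', h4, fun m => by rcases this m with rfl | rfl | rfl; exacts [h6 _ hi, h6 _ hj, h5]⟩
    · exact ⟨a, h, not_exists.1 h4⟩
  clear key hi hj hij i j
  by_contra hc
  have h1 : sqsign (-1 : F) = -1 := (Int.units_eq_one_or _).resolve_left fun h1 =>
    hc (S.commutator_le_of_full3 h3 hA hH hb0 hb1 h2 h ha (.inl h1))
  have bad : ∀ a, RC K a b → (∀ i, S.pr i a ≠ 0) → ∀ m, sqsign (Q (S.pr m a)) = sqsign (Q b) ∧
      ∃ z ∈ D m, Q z = Q (S.pr m a) ∧ polar Q (S.pr m a) z = 0 := fun a h ha m => by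
    obtain ⟨z, z1, z2, z3⟩ := (hb m).exists_perp (S.pr_mem m a) (hQ a m (ha m))
    have a1 : sqsign (Q z) = sqsign (Q b) := by_contra fun a1 =>
      hc (S.commutator_le_of_full3 h3 hA hH hb0 hb1 h2 h ha (.inr ⟨m, z, z1, z2, by
        rwa [polar_comm, ← S.polar_pr' z1], a1⟩))
    have a2 := sqsign_perp h2 (hA _) (S.pr_mem m a) z1 (hQ a m (ha m)) z2 z3
    rw [h1, neg_one_mul, neg_inj] at a2
    obtain ⟨c, -, e⟩ := exists_sq_mul_of_sqsign_eq z2 (hQ a m (ha m)) a2.symm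
    exact ⟨a2.trans a1, c • z, (D m).smul_mem c z1, by rw [Q_smul, e], by
      rw [polar_smul_right', z3, mul_zero]⟩
  have half : ∀ i j l : Fin 3, i ≠ j → i ≠ l → j ≠ l → 2 * Q (S.pr i a) = Q b :=
    fun i j l hij hil hjl => by
    obtain ⟨a1, z, z1, z2, z3⟩ := bad a h ha i
    have n0 := hQ a i (ha i)
    by_contra a2
    have a3 := sq_eq_one_of_isSquare (sqsign_eq_neg_one_iff.1 h1) (m := 1 - 2 * Q (S.pr i a) / Q b)
      (fun h0 => a2 (by field_simp at h0; linear_combination -h0)) fun x hx => by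
      by_cases x0 : x = 0
      · simp [x0]
      have b1 : ∀ x : F, Q (x • S.pr i a + z) = Q (S.pr i a) * (x ^ 2 + 1) := fun x => by
        rw [Q_add, Q_smul, polar_smul_left', z3, z2]; ring
      have b2 : ∀ x : F, x ^ 2 + 1 ≠ 0 := fun x hx =>
        sqsign_eq_neg_one_iff.1 h1 ⟨x, by linear_combination -hx⟩
      obtain ⟨s, s0, e⟩ := exists_sq_mul_of_sqsign_eq (mul_ne_zero n0 (b2 x)) hb1
        (by rw [sqsign_mul n0 (b2 x), sqsign_of_isSquare hx, a1, mul_one])
      have b3 := (D i).smul_mem s (add_mem ((D i).smul_mem x (S.pr_mem i a)) z1)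
      have b4 := (S.rc_of_mem hH b3 hb0 hb1 (by rw [Q_smul, b1, e])).refl_apply h
      have b5 : polar Q a (s • (x • S.pr i a + z)) = s * x * (2 * Q (S.pr i a)) := by
        rw [← S.polar_pr' b3, polar_smul_right', polar_add_right, polar_smul_right', z3,
          polar_self']
        ring
      have b6 : S.pr i ((refl Q a).1 (s • (x • S.pr i a + z))) =
          s • (((1 - 2 * Q (S.pr i a) / Q b) * x) • S.pr i a + z) := by
        rw [refl_apply, b5, map_sub, S.pr_of_mem b3, map_smul, h.1, div_eq_mul_inv]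
        module
      have b7 := (bad _ b4 (fun m => by
        by_cases hm : m = i
        · rw [hm, b6]
          exact ne_zero_of_Q_ne_zero (Q := Q) (by rw [Q_smul, b1]; simp [s0, n0, b2])
        · rw [refl_apply, b5, map_sub, S.pr_of_ne hm b3]
          simp [h.1, hb1, s0, x0, h2, n0, ha m]) i).1
      rw [b6, Q_smul, b1, sqsign_sq_mul s0, sqsign_mul n0 (b2 _), a1, mul_eq_left] at b7
      exact sqsign_eq_one_iff.1 b7
    have a4 : Q (S.pr i a) = Q b := by
      field_simp at a3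
      exact mul_left_cancel₀ (mul_ne_zero (mul_ne_zero h2 h2) n0) (by linear_combination a3)
    have a5 := (bad a h ha j).1
    rw [show Q (S.pr j a) = -1 * Q (S.pr l a) by
      linear_combination h.1 - S.Q_three hij hil hjl a - a4, sqsign_mul (by simp) (hQ a l (ha l)),
      (bad a h ha l).1, h1, mul_eq_right] at a5
    exact absurd a5 (by decide)
  exact hb1 (by
    linear_combination 2 * h.1 - 2 * S.Q_three (i := 0) (j := 1) (l := 2) (by decide) (by decide)
      (by decide) a - half 0 1 2 (by decide) (by decide) (by decide) -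
      half 1 0 2 (by decide) (by decide) (by decide) - half 2 0 1 (by decide) (by decide) (by decide))

omit hb0 hb1 in
/-- The stabiliser of three anisotropic planes is maximal in `Ω₆⁻(q)` for `q ≠ 3`. -/
theorem max_three_aniso : K ≤ dstab Q D ∨ commutator (O Q) ≤ K := by
  refine or_iff_not_imp_right.2 fun hc g hg => by_contra fun hg' => ?_
  have hb := S.big3 h3 hA
  have hB : ∀ g ∈ K, ∀ i j, ∀ c ∈ D i, Q c ≠ 0 → g.1 c ∈ D j → g ∈ dstab Q D :=
    fun g hg i j c hc1 h0 h1 => S.mem_dstab_of_big hb h0 fun l d hd h2 => by_contra fun h4 => hc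
      (S.commutator_le_of_rc3 h3 hA hH hc1 h0 (((S.rc_of_mem hH hd hc1 h0 h2).map hg).trans
        (S.rc_of_mem hH h1 hc1 h0 (by simp))) (not_exists.1 h4))
  obtain ⟨c, hc, h0⟩ := exists_Q_eq_mem (S.ndD 0) (S.dim 0).ge 1
  have h0 : Q c ≠ 0 := by simp [h0]
  simpa using S.card_le_two hb hH hB (by simp) hg hg' hc h0 (T := univ) fun j _ =>
    mt (hA _ _ (S.pr_mem _ _)) (S.pr_ne_zero hb hH hB hg hg' hc h0 j)

end DecStr

end Cfsg.Lib.OMax
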