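import Cfsg.Agent.Lib.OMax.ExtB

/-!
# Orthogonal groups over an extension field inside `Ω`: the local argument
-/

namespace Cfsg.Lib.OMax

open QuadraticMap Module Cfsg.Lib.Orth

set_option linter.unusedSectionVars false

variable {F V : Type*} [Field F] [AddCommGroup V] [Module F V] {Q : QuadraticForm F V}
  {K : Type*} [Field K] [Module K V] [Algebra F K] [IsScalarTower F K V]

variable (F K) in
/-- The `K`-point spanned by `u`, as an `F`-subspace. -/
def pt (u : V) : Submodule F V := (K ∙ u).restrictScalars F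

theorem mem_pt {u x : V} : x ∈ pt F K u ↔ ∃ κ : K, κ • u = x := Submodule.mem_span_singleton

theorem smul_mem_pt (κ : K) (u : V) : κ • u ∈ pt F K u := mem_pt.2 ⟨κ, rfl⟩

theorem self_mem_pt (u : V) : u ∈ pt F K u := mem_pt.2 ⟨1, one_smul _ _⟩

theorem pt_eq_of_mem {u x : V} (hx : x ∈ pt F K u) (h0 : x ≠ 0) : pt F K x = pt F K u := by
  obtain ⟨a, rfl⟩ := mem_pt.1 hx
  rw [pt, pt, Submodule.span_singleton_smul_eq (IsUnit.mk0 a (left_ne_zero_of_smul h0))]

theorem finrank_pt {u : V} (hu : u ≠ 0) : finrank F (pt F K u) = finrank F K :=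
  (((LinearEquiv.toSpanNonzeroSingleton K V u hu).restrictScalars F).finrank_eq).symm

/-- `Q` is the `τ`-trace of the quadratic form `q` over `K`. -/
structure EStr (Q : QuadraticForm F V) (q : QuadraticForm K V) (τ : K →ₗ[F] F) : Prop where
  nd : ND Q
  ndK : ND q
  prime : (finrank F K).Prime
  two : (2 : F) ≠ 0
  ne : τ ≠ 0
  Q_eq : ∀ v, Q v = τ (q v)

theorem exists_eStr (hQ : ND Q) (hr : (finrank F K).Prime) (h2 : (2 : F) ≠ 0)
    (hs : ∀ (κ : K) u v, polar Q (κ • u) v = polar Q u (κ • v)) :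
    ∃ (q : QuadraticForm K V) (τ : K →ₗ[F] F), EStr Q q τ := by
  have : Module.Finite F K := Module.finite_of_finrank_pos hr.pos
  obtain ⟨τ, -, hτ⟩ := Linear.exists_dual_of_notMem (K := F) (W := ⊥) (v := (1 : K)) one_ne_zero 1
  have hτ0 : τ ≠ 0 := fun h0 => by simp [h0] at hτ
  obtain ⟨B, hB⟩ := exists_kform hτ0 (polarBilin Q) (σ := RingHom.id K) hs
  simp only [polarBilin_apply_apply] at hB
  have hsymm : ∀ u v, B u v = B v u := fun u v => eq_of_coef hτ0 fun κ => by
    rw [hB, hB, ← hs, polar_comm]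
  have h2' : (2 : K) ≠ 0 := by rwa [← map_ofNat (algebraMap F K) 2, map_ne_zero]
  refine ⟨(2⁻¹ : K) • LinearMap.BilinMap.toQuadraticMap B, τ, hQ, (nd_iff _).2 fun x hx =>
    hQ.eq_zero fun y => ?_, hr, h2, hτ0, fun v => ?_⟩
  · have := hx y
    simp only [polar, QuadraticMap.smul_apply, LinearMap.BilinMap.toQuadraticMap_apply, map_add,
      LinearMap.add_apply, smul_eq_mul, hsymm y x] at this
    rw [← one_smul K y, ← hB, show B x y = 0 by
      field_simp at this
      exact (mul_eq_zero.1 (show 2 * B x y = 0 by linear_combination this)).resolve_left h2',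
      mul_zero, map_zero]
  · refine mul_left_cancel₀ h2 ?_
    rw [← polar_self', ← smul_eq_mul, ← map_smul, Algebra.smul_def, map_ofNat,
      QuadraticMap.smul_apply, LinearMap.BilinMap.toQuadraticMap_apply, smul_eq_mul,
      mul_inv_cancel_left₀ h2', ← one_mul (B v v), hB, one_smul]

namespace EStr

variable {q : QuadraticForm K V} {τ : K →ₗ[F] F} (h : EStr Q q τ)
include h

theorem two' : (2 : K) ≠ 0 := by
  rw [← map_ofNat (algebraMap F K) 2, map_ne_zero]; exact h.two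

theorem polar_eq (u v : V) : polar Q u v = τ (polar q u v) := by
  simp only [polar, h.Q_eq, map_sub]

theorem polar_smul (κ : K) (u v : V) : polar Q (κ • u) v = τ (κ * polar q u v) := by
  rw [h.polar_eq, polar_smul_left']

theorem polar_eq_zero {u v : V} (h0 : polar q u v = 0) (κ : K) : polar Q (κ • u) v = 0 := by
  rw [h.polar_smul, h0, mul_zero, map_zero]

theorem eq_zero_of_forall {u v : V} (h0 : ∀ κ : K, polar Q (κ • u) v = 0) : polar q u v = 0 :=
  eq_of_coef h.ne fun κ => by rw [← h.polar_smul, h0, mul_zero, map_zero]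

theorem Q_smul_eq_zero {u : V} (hu : q u = 0) (κ : K) : Q (κ • u) = 0 := by
  rw [h.Q_eq, Q_smul, hu, mul_zero, map_zero]

/-- Restriction of scalars. -/
def res : O q →* O Q where
  toFun g := ⟨g.1.restrictScalars F, fun v => by
    rw [h.Q_eq, h.Q_eq, LinearEquiv.restrictScalars_apply, O.map_Q]⟩
  map_one' := rfl
  map_mul' _ _ := rfl

@[simp] theorem res_apply (g : O q) (v : V) : (h.res g).1 v = g.1 v := rfl

variable [Finite F] [FiniteDimensional F V] [Finite K] [FiniteDimensional K V]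
  {M : Subgroup (O Q)} (hM : semiO Q K ⊓ commutator (O Q) ≤ M)
include hM

theorem res_mem {k : O q} (hk : k ∈ commutator (O q)) : h.res k ∈ M := by
  refine hM ⟨mem_semiO_of_linear fun κ x => map_smul k.1 κ x, ?_⟩
  have := Subgroup.mem_map_of_mem h.res hk
  rw [commutator_def, Subgroup.map_commutator] at this
  exact Subgroup.commutator_mono le_top le_top this

theorem eich_mem (u z : V) : h.res (eich q u z) ∈ M :=
  h.res_mem hM (eich_mem_commutator h.ndK (not_exc_of_two_ne_zero h.two') u z)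

omit h hM in
variable (M q) in
/-- The elements of `M` acting on `u ^ ⊥` like elements of the unipotent radical. -/
def uA (u : V) : AddSubgroup (V →ₗ[F] K) where
  carrier := {a | (∀ κ : K, a (κ • u) = 0) ∧ (q u = 0 →
    ∃ y ∈ M, ∀ x, polar q u x = 0 → y.1 x = x + a x • u)}
  zero_mem' := ⟨fun _ => rfl, fun _ => ⟨1, one_mem _, fun x _ => by simp⟩⟩
  add_mem' := by
    rintro a b ⟨ha, ha'⟩ ⟨hb, hb'⟩
    refine ⟨fun κ => by simp [ha, hb], fun hu => ?_⟩
    obtain ⟨y, hy, hy'⟩ := ha' hu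
    obtain ⟨z, hz, hz'⟩ := hb' hu
    refine ⟨y * z, mul_mem hy hz, fun x hx => ?_⟩
    rw [O.mul_apply, hz' x hx, map_add, hy' x hx, hy' _ (by
      rw [polar_smul_right', polar_self', hu, mul_zero, mul_zero]), ha, zero_smul, add_zero,
      LinearMap.add_apply, add_smul, add_assoc]
  neg_mem' := by
    rintro a ⟨ha, ha'⟩
    refine ⟨fun κ => by simp [ha], fun hu => ?_⟩
    obtain ⟨y, hy, hy'⟩ := ha' hu
    refine ⟨y⁻¹, inv_mem hy, fun x hx => ?_⟩
    rw [O.inv_apply_eq, map_add, hy' x hx, hy' _ (by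
      rw [polar_smul_right', polar_self', hu, mul_zero, mul_zero]), ha]
    simp

omit hM in
theorem conj_mem_uA {u : V} {g : O Q} (hg : g ∈ M) {φ : K →ₗ[F] K}
    (h1 : ∀ κ : K, g.1 (κ • u) = φ κ • u) (h2 : ∀ κ : K, ∃ κ' : K, (g⁻¹).1 (κ • u) = κ' • u)
    {a : V →ₗ[F] K} (ha : a ∈ uA q M u) : φ ∘ₗ a ∘ₗ ((g⁻¹).1 : V →ₗ[F] V) ∈ uA q M u := by
  refine ⟨fun κ => ?_, fun hu => ?_⟩
  · obtain ⟨κ', hκ⟩ := h2 κ
    simp only [LinearMap.comp_apply, LinearEquiv.coe_coe, hκ, ha.1, map_zero]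
  obtain ⟨y, hy, hy'⟩ := ha.2 hu
  refine ⟨g * y * g⁻¹, mul_mem (mul_mem hg hy) (inv_mem hg), fun x hx => ?_⟩
  rw [O.mul_apply, O.mul_apply, hy' _ (h.eq_zero_of_forall fun κ => by
    rw [← O.polar_left, h1, h.polar_eq_zero hx]), map_add, O.apply_inv_apply, h1]
  rfl

variable (hn : 3 ≤ finrank K V)
include hn

theorem smul_mem_uA {u : V} (hu0 : u ≠ 0) (hu : q u = 0) {a : V →ₗ[F] K} (ha : a ∈ uA q M u)
    (κ : K) : κ • a ∈ uA q M u := by
  refine addSubgroup_smul_of_sq _ (fun t ht => ?_) κ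
  obtain ⟨f, hf⟩ := exists_isHyp h.ndK hu hu0
  have ht2 := pow_ne_zero 2 ht
  have h1 := h.conj_mem_uA (h.res_mem hM (eichGroup_le_commutator h.ndK
    (not_exc_of_two_ne_zero h.two') (hf.hrot_sq_mem_eichGroup h.ndK hn ht)))
    (φ := LinearMap.mulLeft F (t ^ 2)) (u := u) (fun κ => by
      rw [res_apply, map_smul, hf.hrot_left ht2, smul_smul, mul_comm]; rfl)
    (fun κ => ⟨(t ^ 2)⁻¹ * κ, by
      rw [O.inv_apply_eq, res_apply, map_smul, hf.hrot_left ht2, smul_smul]
      congr 1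
      field_simp⟩) ha
  refine ⟨fun κ => by simp [ha.1], fun _ => ?_⟩
  obtain ⟨y, hy, hy'⟩ := h1.2 hu
  refine ⟨y, hy, fun x hx => ?_⟩
  obtain ⟨b, c, w, hw, rfl⟩ := hf.exists_decomp x
  rw [hf.polar_left_comb hw] at hx
  subst hx
  rw [hy' _ (hf.polar_left_comb hw _ _)]
  have h2 : ((h.res (hrot q u f (t ^ 2)))⁻¹).1 (b • u + (0 : K) • f + w) =
      ((t ^ 2)⁻¹ * b) • u + w := by
    rw [O.inv_apply_eq, res_apply, map_add, map_smul, hf.hrot_left ht2, hrot_of_hperp hw, smul_smul,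
      zero_smul, add_zero]
    congr 2
    field_simp
  rw [LinearMap.comp_apply, LinearMap.comp_apply, LinearEquiv.coe_coe, h2]
  simp only [LinearMap.smul_apply, zero_smul,
    add_zero, map_add, ha.1, zero_add, LinearMap.mulLeft_apply, smul_eq_mul, mul_zero]

/-- The key step: a unipotent element acting non-trivially on a `K`-point. -/
theorem mem_AE_of_unip {u : V} (hu0 : u ≠ 0) (hu : q u = 0) {s : O Q} (hs : s ∈ M)
    (h1 : ∀ κ : K, s.1 (κ • u) ∈ pt F K u) (h2 : s.1 u = u)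
    (h3 : ∀ κ : K, s.1 (s.1 (κ • u) - κ • u) = s.1 (κ • u) - κ • u)
    (h4 : ∃ κ : K, s.1 (κ • u) ≠ κ • u) (κ : K) {w : V} (hw : polar q u w = 0) :
    w ∈ AE M (κ • u) := by
  choose t ht using fun κ => mem_pt.1 (h1 κ)
  let φ : K →ₗ[F] K :=
    { toFun := t
      map_add' := fun a b => smul_left_injective K hu0 (by simp only [add_smul, ht, map_add])
      map_smul' := fun c a => smul_left_injective K hu0 (by
        simp only [RingHom.id_apply, smul_assoc, ht, map_smul]) }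
  have hφ : ∀ κ, s.1 (κ • u) = φ κ • u := fun κ => (ht κ).symm
  have hφ2 : ∀ κ, φ (φ κ - κ) = φ κ - κ := fun κ => smul_left_injective K hu0 (by
    simp only [← hφ, sub_smul, h3])
  let φ' : K →ₗ[F] K := LinearMap.id + LinearMap.id - φ
  have hφ0 : ∀ κ, φ' κ = κ + κ - φ κ := fun _ => rfl
  have hφ' : ∀ κ, φ (φ' κ) = κ := fun κ => by
    have := hφ2 κ
    simp only [hφ0, map_sub, map_add] at this ⊢
    linear_combination -this
  have hφ'' : ∀ κ, (s⁻¹).1 (κ • u) = φ' κ • u := fun κ => by rw [O.inv_apply_eq, hφ, hφ']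
  let R : Subring (Module.End F K) :=
    { carrier := {ψ | ∀ a ∈ uA q M u, ψ ∘ₗ a ∈ uA q M u}
      mul_mem' := fun {x y} hx hy a ha => hx _ (hy a ha)
      one_mem' := fun a ha => ha
      add_mem' := fun {x y} hx hy a ha => by
        rw [LinearMap.add_comp]; exact add_mem (hx a ha) (hy a ha)
      zero_mem' := fun a _ => zero_mem _
      neg_mem' := fun {x} hx a ha => by rw [LinearMap.neg_comp]; exact neg_mem (hx a ha) }
  have hR : ∀ κ : K, LinearMap.mulLeft F κ ∈ R := fun κ a ha => h.smul_mem_uA hM hn hu0 hu ha κ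
  have hR' : ∀ κ : K, φ * LinearMap.mulLeft F κ * φ' ∈ R := fun κ a ha => by
    have h5 := h.conj_mem_uA hs hφ (fun κ => ⟨_, hφ'' κ⟩) (hR κ _
      (h.conj_mem_uA (inv_mem hs) hφ'' (fun κ => ⟨_, by rw [inv_inv, hφ]⟩) ha))
    convert h5 using 1
    ext x
    simp
  have hφ1 : φ 1 = 1 := smul_left_injective K hu0 (by simp only [← hφ, one_smul, h2])
  obtain ⟨c, hc⟩ : ∃ c : K, ¬ ∀ y, (φ * LinearMap.mulLeft F c * φ') y =
      (φ * LinearMap.mulLeft F c * φ') 1 * y := by
    by_contra! hc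
    have h5 : φ' 1 = 1 := by rw [hφ0, hφ1, add_sub_cancel_right]
    have h6 : ∀ c y, φ (c * y) = φ c * φ y := fun c y => by
      have h7 := hc c (φ y)
      have h8 : φ' (φ y) = y := by
        have := hφ2 y
        simp only [hφ0, map_sub] at this ⊢
        linear_combination -this
      simpa only [Module.End.mul_apply, LinearMap.mulLeft_apply, h5, h8, mul_one] using h7
    obtain ⟨l, hl⟩ := h4
    have h7 := hφ2 (l * l)
    have h8 := hφ2 l
    simp only [map_sub, h6] at h7 h8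
    refine hl (by
      rw [hφ, eq_of_sub_eq_zero ((pow_eq_zero_iff two_ne_zero).1 ((mul_eq_zero.1
        (show 2 * (φ l - l) ^ 2 = 0 by
          linear_combination h7 - (φ (φ l) + 2 * φ l - l) * h8)).resolve_left h.two'))])
  have hP : TS Q (pt F K u) := fun x hx => by
    obtain ⟨κ, rfl⟩ := mem_pt.1 hx
    exact h.Q_smul_eq_zero hu κ
  have key : ∀ (κ : K) w, polar q u w = 0 →
      ∃ ζ ∈ genIn Q (pt F K u), eich Q (κ • u) w * ζ ∈ M := fun κ w hw => by
    have h5 := smulRight_mem_of_prime h.prime hR (hR' c) hc τ κ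
      ((polarBilin q w).restrictScalars F) ⟨fun κ => by
        simp [polar_comm q w u, hw], fun _ =>
        ⟨_, h.eich_mem hM u w, fun x hx => by rw [res_apply, eich_apply_of_perp hu hw hx]; rfl⟩⟩
    obtain ⟨y, hy, hy'⟩ := h5.2 hu
    refine ⟨(eich Q (κ • u) w)⁻¹ * y, ?_, by rwa [mul_inv_cancel_left]⟩
    rw [← perp_perp h.nd (pt F K u), ← fixer_eq_genIn h.nd]
    intro x hx
    have hx' : polar q u x = 0 := h.eq_zero_of_forall fun κ => hx _ (smul_mem_pt κ u)
    rw [O.mul_apply, O.inv_apply_eq, hy' x hx', eich_apply_of_perp (h.Q_smul_eq_zero hu κ)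
      (h.polar_eq_zero hw κ) (h.polar_eq_zero hx' κ), h.polar_eq, ← smul_assoc]
    rfl
  have hcomm : ∀ g : O Q, (∀ x ∈ pt F K u, g.1 x = x) → ∀ ζ ∈ genIn Q (pt F K u),
      g * ζ * g⁻¹ = ζ := fun g hg ζ hζ => by
    rw [mul_inv_eq_iff_eq_mul]
    refine Subgroup.mem_centralizer_singleton_iff.1 (genIn_le (K := Subgroup.centralizer {g})
      (fun v hv hv' => (hv' (hP v hv)).elim) (fun a ha b hb _ _ => ?_) hζ) |>.symm
    rw [Subgroup.mem_centralizer_singleton_iff, eq_comm, ← mul_inv_eq_iff_eq_mul, conj_eich,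
      hg a ha, hg b hb]
  have hG : genIn Q (pt F K u) ≤ M := by
    refine genIn_le (fun v hv hv' => (hv' (hP v hv)).elim) fun a ha b hb _ _ => ?_
    obtain ⟨a, rfl⟩ := mem_pt.1 ha
    obtain ⟨b, rfl⟩ := mem_pt.1 hb
    obtain ⟨f, hf⟩ := exists_isHyp h.ndK hu hu0
    obtain ⟨w, hw, hw0⟩ := hf.exists_nonsingular h.ndK hn
    obtain ⟨z, hz, hzw⟩ := hf.exists_polar_eq h.ndK hw (ne_zero_of_Q_ne_zero hw0) b
    rw [mem_hperp] at hw hz
    obtain ⟨ζ, hζ, hζ'⟩ := key a w hw.1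
    have hE := h.eich_mem hM u z
    have hE' : ∀ x ∈ pt F K u, (h.res (eich q u z)).1 x = x := fun x hx => by
      obtain ⟨κ, rfl⟩ := mem_pt.1 hx
      rw [res_apply, map_smul, eich_apply_self hu hz.1]
    have h5 := mul_mem (mul_mem (mul_mem hE hζ') (inv_mem hE)) (inv_mem hζ')
    rwa [← conj_mul, hcomm _ hE' ζ hζ, conj_eich, hE' _ (smul_mem_pt a u), res_apply,
      eich_apply_of_perp hu hz.1 hw.1, hzw, add_comm, eich_add (h.Q_smul_eq_zero hu a)
        (hP.polar_eq (smul_mem_pt a u) (smul_mem_pt b u)) (h.polar_eq_zero hw.1 a), mul_assoc,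
        mul_assoc, ← mul_assoc _ ζ, mul_inv_cancel, mul_one] at h5
  obtain ⟨ζ, hζ, hζ'⟩ := key κ w hw
  exact ⟨h.polar_eq_zero hw κ, (M.mul_mem_cancel_right (hG hζ)).1 hζ'⟩

end EStr

end Cfsg.Lib.OMax
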