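import Cfsg.Agent.Lib.OMax.ExtC

/-!
# Orthogonal groups over an extension field are maximal in `Ω` (dimension at least four)
-/

namespace Cfsg.Lib.OMax

open QuadraticMap Module Cfsg.Lib.Orth

set_option linter.unusedSectionVars false

variable {F V : Type*} [Field F] [AddCommGroup V] [Module F V] {Q : QuadraticForm F V}
  {K : Type*} [Field K] [Module K V] [Algebra F K] [IsScalarTower F K V]

/-- The `M`-images of the singular `K`-points. -/
def IsX (q : QuadraticForm K V) (M : Subgroup (O Q)) (X : Submodule F V) : Prop :=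
  ∃ g ∈ M, ∃ u, u ≠ 0 ∧ q u = 0 ∧ X = (pt F K u).map (g.1 : V →ₗ[F] V)

theorem isX_pt {q : QuadraticForm K V} {M : Subgroup (O Q)} {u : V} (hu0 : u ≠ 0) (hu : q u = 0) :
    IsX q M (pt F K u) := ⟨1, one_mem _, u, hu0, hu, (Submodule.map_id _).symm⟩

theorem IsX.map {q : QuadraticForm K V} {M : Subgroup (O Q)} {X : Submodule F V} (h : IsX q M X)
    {g : O Q} (hg : g ∈ M) : IsX q M (X.map (g.1 : V →ₗ[F] V)) := by
  obtain ⟨k, hk, u, hu0, hu, rfl⟩ := h
  exact ⟨g * k, mul_mem hg hk, u, hu0, hu, (Submodule.map_comp _ _ _).symm⟩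

theorem IsX.finrank_eq {q : QuadraticForm K V} {M : Subgroup (O Q)} {X : Submodule F V}
    (h : IsX q M X) : finrank F X = finrank F K := by
  obtain ⟨k, -, u, hu0, -, rfl⟩ := h
  rw [LinearEquiv.finrank_map_eq, finrank_pt hu0]

theorem map_inv_map (g : O Q) (X : Submodule F V) :
    (X.map (g.1 : V →ₗ[F] V)).map ((g⁻¹).1 : V →ₗ[F] V) = X := by
  ext x
  simp only [Submodule.mem_map, LinearEquiv.coe_coe, exists_exists_and_eq_and, O.inv_apply_apply,
    exists_eq_right]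

theorem finrank_inf_map (g : O Q) (X Y : Submodule F V) :
    finrank F ↥(X.map ((g⁻¹).1 : V →ₗ[F] V) ⊓ Y) = finrank F ↥(X ⊓ Y.map (g.1 : V →ₗ[F] V)) := by
  rw [← LinearEquiv.finrank_map_eq (g⁻¹).1 (X ⊓ _), Submodule.map_inf _ (g⁻¹).1.injective,
    map_inv_map]

namespace EStr

variable {q : QuadraticForm K V} {τ : K →ₗ[F] F} (h : EStr Q q τ)
include h

theorem ts_of_isX {M : Subgroup (O Q)} {X : Submodule F V} (hX : IsX q M X) : TS Q X := by
  obtain ⟨k, -, u, -, hu, rfl⟩ := hX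
  refine TS.map (fun x hx => ?_) k
  obtain ⟨κ, rfl⟩ := mem_pt.1 hx
  exact h.Q_smul_eq_zero hu κ

/-- An isometry permuting the singular `K`-points is semilinear. -/
theorem smul_of_hperp {g : O Q}
    (hg : ∀ u, u ≠ 0 → q u = 0 → q (g.1 u) = 0 ∧ (pt F K u).map (g.1 : V →ₗ[F] V) = pt F K (g.1 u))
    {u f w : V} (hf : IsHyp q u f) (hw : w ∈ hperp q u f) {κ β : K}
    (hβ : g.1 (κ • f) = β • g.1 f) : g.1 (κ • w) = β • g.1 w := by
  have h1 : ∀ u, u ≠ 0 → q u = 0 → ∀ x, polar q (g.1 u) (g.1 x) = 0 ↔ polar q u x = 0 :=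
    fun u hu0 hu x => ⟨fun hx => h.eq_zero_of_forall fun κ => by
      obtain ⟨c, hc⟩ := mem_pt.1 ((hg u hu0 hu).2 ▸ Submodule.mem_map_of_mem (smul_mem_pt κ u))
      rw [← O.map_polar g, show g.1 (κ • u) = c • g.1 u from hc.symm, h.polar_eq_zero hx],
    fun hx => h.eq_zero_of_forall fun κ => by
      obtain ⟨y, hy, hy'⟩ := Submodule.mem_map.1 ((hg u hu0 hu).2 ▸ smul_mem_pt κ (g.1 u))
      obtain ⟨c, rfl⟩ := mem_pt.1 hy
      rw [← hy', LinearEquiv.coe_coe, O.map_polar, h.polar_eq_zero hx]⟩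
  have h2 : ∀ u, u ≠ 0 → q u = 0 → ∀ κ : K, ∃ c : K, g.1 (κ • u) = c • g.1 u :=
    fun u hu0 hu κ => (mem_pt.1 ((hg u hu0 hu).2 ▸
      Submodule.mem_map_of_mem (smul_mem_pt κ u))).imp fun _ h => h.symm
  have hκw : κ • w ∈ hperp q u f := Submodule.smul_mem _ _ hw
  have h3 : q ((-q w) • u + (1 : K) • f + w) = 0 := by rw [hf.Q_comb' hw]; ring
  obtain ⟨γ, hγ⟩ := h2 _ (fun h0 => by
    have := hf.polar_left_comb hw (-q w) 1
    rw [h0, polar_zero_right] at this
    exact zero_ne_one this) h3 κ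
  obtain ⟨a, ha⟩ := h2 u hf.ne_zero hf.left (κ * -q w)
  obtain ⟨a', ha'⟩ := h2 u hf.ne_zero hf.left (-q w)
  simp only [smul_add, map_add, smul_smul, one_smul, ha, ha', hβ] at hγ
  have k1 : polar q (g.1 u) (g.1 f) ≠ 0 := by
    rw [Ne, h1 u hf.ne_zero hf.left, hf.polar_eq]; exact one_ne_zero
  have k2 : polar q (g.1 u) (g.1 u) = 0 := (h1 u hf.ne_zero hf.left _).2 hf.polar_left
  have k3 : polar q (g.1 f) (g.1 f) = 0 := (h1 f hf.symm.ne_zero hf.right _).2 hf.polar_right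
  rw [mem_hperp] at hw hκw
  have k4 := congrArg (polar q (g.1 u)) hγ
  have k5 := congrArg (polar q (g.1 f)) hγ
  simp only [polar_add_right, polar_smul_right', k2, k3, (h1 u hf.ne_zero hf.left _).2 hw.1,
    (h1 u hf.ne_zero hf.left _).2 hκw.1, (h1 f hf.symm.ne_zero hf.right _).2 hw.2,
    (h1 f hf.symm.ne_zero hf.right _).2 hκw.2, mul_zero, add_zero, zero_add,
    polar_comm q (g.1 f) (g.1 u), mul_left_inj' k1] at k4 k5
  rw [k4, k5, add_right_inj] at hγ
  rw [hγ, k4]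

variable [Finite F] [FiniteDimensional F V] [Finite K] [FiniteDimensional K V]

theorem mem_semiO_of_pt (hn : 3 ≤ finrank K V) {g : O Q}
    (hg : ∀ u, u ≠ 0 → q u = 0 → q (g.1 u) = 0 ∧ (pt F K u).map (g.1 : V →ₗ[F] V) = pt F K (g.1 u)) :
    g ∈ semiO Q K := by
  refine mem_semiO_of_forall fun κ => ?_
  obtain ⟨u, f, hf⟩ := exists_isHyp_of_three_le h.ndK hn
  obtain ⟨w₀, hw₀, hw₀'⟩ := hf.exists_nonsingular h.ndK hn
  have h2 : ∀ u, u ≠ 0 → q u = 0 → ∃ c : K, g.1 (κ • u) = c • g.1 u :=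
    fun u hu0 hu => (mem_pt.1 ((hg u hu0 hu).2 ▸
      Submodule.mem_map_of_mem (smul_mem_pt κ u))).imp fun _ h => h.symm
  obtain ⟨l, hl⟩ := h2 f hf.symm.ne_zero hf.right
  have h3 : ∀ u f, IsHyp q u f → w₀ ∈ hperp q u f → ∀ a : K,
      g.1 (κ • a • f) = l • g.1 (a • f) := fun u' f' hf' hw a => by
    rcases eq_or_ne a 0 with rfl | ha
    · simp
    have h4 := (hf'.symm.smul ha).symm
    obtain ⟨c, hc⟩ := h2 _ h4.symm.ne_zero h4.right
    have h5 := h.smul_of_hperp hg h4 (w := w₀) (by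
      rw [mem_hperp] at hw ⊢; simp [hw.1, hw.2]) hc
    rw [h.smul_of_hperp hg hf hw₀ hl] at h5
    rw [hc, smul_left_injective K (O.apply_ne_zero g (ne_zero_of_Q_ne_zero hw₀')) h5]
  refine ⟨l, fun x => ?_⟩
  obtain ⟨a, b, w, hw, rfl⟩ := hf.exists_decomp x
  rw [smul_add, smul_add, map_add, map_add, map_add, map_add, smul_add, smul_add,
    h3 u f hf hw₀, h3 f u hf.symm (by rwa [hperp_comm]), h.smul_of_hperp hg hf hw hl]

variable {M : Subgroup (O Q)} (hM : semiO Q K ⊓ commutator (O Q) ≤ M) (hn : 4 ≤ finrank K V)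
include hM hn

theorem exists_pair {X : Submodule F V} (hX : IsX q M X)
    (hX' : ∀ u, u ≠ 0 → q u = 0 → X ≠ pt F K u) :
    ∃ Y, IsX q M Y ∧ X ≠ Y ∧ X ⊓ Y ≠ ⊥ := by
  by_cases h1 : ∃ v ∈ X, v ≠ 0 ∧ q v = 0
  · obtain ⟨v, hv, hv0, hv'⟩ := h1
    exact ⟨_, isX_pt hv0 hv', hX' v hv0 hv', (Submodule.ne_bot_iff _).2 ⟨v, ⟨hv, self_mem_pt v⟩, hv0⟩⟩
  push Not at h1
  obtain ⟨v, hv, hv0⟩ := Submodule.exists_mem_ne_zero_of_ne_bot (p := X) fun h0 => by
    have := hX.finrank_eq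
    rw [h0, finrank_bot] at this
    exact h.prime.ne_zero this.symm
  have hv' := h1 v hv hv0
  by_contra! hc
  have h2 : ∀ u z, q u = 0 → polar q u z = 0 → polar q v u = 0 → polar q v z = 0 → ∀ x ∈ X,
      (eich q u z).1 x ∈ X := fun u z hu hz hvu hvz x hx => by
    have h3 : X = X.map ((h.res (eich q u z)).1 : V →ₗ[F] V) := by
      by_contra h0
      refine hv0 ((Submodule.eq_bot_iff _).1 (hc _ (hX.map (h.eich_mem hM u z)) h0) v
        ⟨hv, v, hv, ?_⟩)
      change (eich q u z).1 v = v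
      rw [eich_apply_of_perp hu hz (by rw [polar_comm, hvu]), polar_comm, hvz, zero_smul, add_zero]
    exact h3 ▸ Submodule.mem_map_of_mem hx
  have h3 : ¬ X ≤ pt F K v := fun h0 => by
    have h4 := Submodule.eq_of_le_of_finrank_eq h0 (by rw [hX.finrank_eq, finrank_pt hv0])
    have h5 := h.eq_zero_of_forall (u := v) (v := v) fun κ =>
      (h.ts_of_isX hX).polar_eq (h4 ▸ smul_mem_pt κ v) hv
    rw [polar_self'] at h5
    exact mul_ne_zero h.two' hv' h5
  obtain ⟨x, hx, hx'⟩ := SetLike.not_le_iff_exists.1 h3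
  have hU := nd_perp_singleton h.ndK h.two' hv'
  have hU3 : 3 ≤ finrank K (perp q (K ∙ v)) := by
    have := finrank_perp_singleton h.ndK hv0
    omega
  obtain ⟨u, huU, hu, hux⟩ : ∃ u ∈ perp q (K ∙ v), q u = 0 ∧ polar q u x ≠ 0 := by
    by_contra! h0
    obtain ⟨e, f, hf⟩ := exists_isHyp_of_three_le hU hU3
    have h4 := addSubgroup_eq_top_of_singular hf
      (LinearMap.ker ((polarBilin q x).domRestrict (perp q (K ∙ v)))).toAddSubgroup
      fun y hy => by simpa [polar_comm q x] using h0 y y.2 hy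
    refine hx' (show x ∈ K ∙ v from ?_)
    rw [← perp_perp h.ndK (K ∙ v), mem_perp']
    exact fun y hy => (h4 ▸ AddSubgroup.mem_top _ : (⟨y, hy⟩ : perp q (K ∙ v)) ∈
      (LinearMap.ker ((polarBilin q x).domRestrict (perp q (K ∙ v)))).toAddSubgroup)
  have hu0 : u ≠ 0 := by rintro rfl; simp at hux
  obtain ⟨-, f, -, z, hzU, -, hz, hz'⟩ := good_of_nd hU hU3 huU hu hu0
  rw [mem_hperp] at hz
  rw [mem_perp_singleton] at huU hzU
  have h4 := sub_mem (h2 u z hu hz.1 huU hzU x hx) hx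
  have h5 := sub_mem (h2 u z hu hz.1 huU hzU _ h4) h4
  have h6 : (eich q u z).1 x - x = (polar q z x - q z * polar q u x) • u - polar q u x • z := by
    rw [eich_apply hu hz.1]; module
  rw [h6, eich_apply_of_perp hu hz.1 (by simp [polar_self', hu, hz.1]), add_sub_cancel_left] at h5
  refine h1 _ h5 (smul_ne_zero ?_ hu0) (by rw [Q_smul, hu, mul_zero])
  rw [polar_sub_right, polar_smul_right', polar_smul_right', polar_comm q z u, hz.1, polar_self',
    mul_zero, zero_sub, neg_ne_zero]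
  exact mul_ne_zero hux (mul_ne_zero h.two' hz')

variable {d : ℕ} (hd : 0 < d)
  (hmax : ∀ X Y, IsX q M X → IsX q M Y → X ≠ Y → finrank F ↥(X ⊓ Y) ≤ d)
include hmax

omit hn in
theorem map_eich_eq {X : Submodule F V} (hX : IsX q M X) {u z x : V} (hu : q u = 0)
    (hz : polar q u z = 0) (hXd : finrank F ↥(X ⊓ pt F K u) = d) (hx : x ∈ X) (hx' : x ∉ pt F K u)
    (hxz : (eich q u z).1 x ∈ X) : X.map ((h.res (eich q u z)).1 : V →ₗ[F] V) = X := by
  by_contra h0
  have h1 := hmax _ _ (hX.map (h.eich_mem hM u z)) hX h0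
  have h2 : ∀ y ∈ pt F K u, (eich q u z).1 y = y := fun y hy => by
    obtain ⟨κ, rfl⟩ := mem_pt.1 hy
    rw [map_smul, eich_apply_self hu hz]
  have h3 : X ⊓ pt F K u < X.map ((h.res (eich q u z)).1 : V →ₗ[F] V) ⊓ X := by
    refine lt_of_le_of_ne (fun y hy => ⟨⟨y, hy.1, h2 y hy.2⟩, hy.1⟩) fun h3 => hx' ?_
    have h4 : (eich q u z).1 x ∈ X ⊓ pt F K u := h3 ▸ ⟨⟨x, hx, rfl⟩, hxz⟩
    rw [(eich q u z).1.injective (h2 _ h4.2).symm]
    exact h4.2
  have := Submodule.finrank_lt_finrank_of_lt h3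
  omega

include hd

theorem exists_big_of_perp {X : Submodule F V} (hX : IsX q M X) {u x : V} (hu0 : u ≠ 0)
    (hu : q u = 0) (hXd : finrank F ↥(X ⊓ pt F K u) = d) (hx : x ∈ X) (hx' : x ∉ pt F K u)
    (hux : polar q u x = 0) :
    ∃ e, e ≠ 0 ∧ q e = 0 ∧ ∀ (κ : K) w, polar q e w = 0 → w ∈ AE M (κ • e) := by
  have h1 : ∀ y ∈ X, polar q u y = 0 := fun y hy => by
    by_contra hy'
    obtain ⟨z, hz, hz'⟩ := SetLike.not_le_iff_exists.1 (show ¬ perp q (Submodule.span K {u, x}) ≤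
        K ∙ u from fun h0 => by
      have := Submodule.finrank_mono h0
      have := finrank_add_finrank_perp h.ndK (Submodule.span K {u, x})
      have := Linear.finrank_span_pair_le (F := K) u x
      have := finrank_span_singleton (K := K) hu0
      omega)
    rw [mem_perp_pair] at hz
    have hz0 : z ≠ 0 := by rintro rfl; exact hz' (zero_mem _)
    have h2 : pt F K z ⊔ pt F K u ≤ X ⊔ pt F K u := sup_le (fun w hw => by
      obtain ⟨κ, rfl⟩ := mem_pt.1 hw
      have h3 : polar q u ((κ / polar q u y) • z) = 0 := by simp [hz.1]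
      have h4 := h.map_eich_eq hM hmax hX hu h3 hXd hx hx' (by
        rwa [eich_apply_of_perp hu h3 hux, polar_smul_left', polar_comm q z, hz.2, mul_zero, zero_smul,
          add_zero])
      have h5 : (eich q u ((κ / polar q u y) • z)).1 y ∈ X := h4 ▸ Submodule.mem_map_of_mem hy
      rw [eich_apply hu h3, smul_smul, mul_div_cancel₀ _ hy'] at h5
      convert add_mem (Submodule.mem_sup_left (sub_mem hy h5)) (Submodule.mem_sup_right
        (smul_mem_pt (polar q ((κ / polar q u y) • z) y -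
          q ((κ / polar q u y) • z) * polar q u y) u)) using 1
      module) le_sup_right
    have h3 : pt F K z ⊓ pt F K u = ⊥ := (Submodule.eq_bot_iff _).2 fun w hw => by
      by_contra h0
      exact hz' (show z ∈ pt F K u from
        pt_eq_of_mem hw.2 h0 ▸ (pt_eq_of_mem hw.1 h0).symm ▸ self_mem_pt z)
    have := Submodule.finrank_mono h2
    have := Submodule.finrank_sup_add_finrank_inf_eq (pt F K z) (pt F K u)
    have := Submodule.finrank_sup_add_finrank_inf_eq X (pt F K u)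
    have := hX.finrank_eq
    have := finrank_pt (F := F) (K := K) hz0
    have := finrank_pt (F := F) (K := K) hu0
    rw [h3, finrank_bot] at *
    omega
  obtain ⟨d₀, ⟨hd₁, hd₂⟩, hd0⟩ := Submodule.exists_mem_ne_zero_of_ne_bot (p := X ⊓ pt F K u)
    fun h0 => by rw [h0, finrank_bot] at hXd; omega
  obtain ⟨δ, rfl⟩ := mem_pt.1 hd₂
  obtain ⟨z, hz, hz'⟩ := exists_perp_polar_eq h.ndK (W := K ∙ u) hx' δ
  rw [mem_perp_singleton] at hz
  have h2 : ∀ y ∈ X, (h.res (eich q u z)).1 y = y + polar q z y • u := fun y hy =>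
    eich_apply_of_perp hu hz (h1 y hy)
  have h3 := h.map_eich_eq hM hmax hX hu hz hXd hx hx' (by
    rw [← h.res_apply, h2 x hx, polar_comm, hz']; exact add_mem hx hd₁)
  obtain ⟨g, hg, u', hu'0, hu', rfl⟩ := hX
  obtain ⟨e, he, he'⟩ := hd₁
  have he0 : e ≠ 0 := by rintro rfl; exact hd0 (he'.symm.trans (map_zero _))
  have h4 := pt_eq_of_mem he he0
  have h5 : q e = 0 := by
    obtain ⟨c, rfl⟩ := mem_pt.1 he
    rw [Q_smul, hu', mul_zero]
  rw [← h4] at h2 h3 hx
  have h6 : ∀ κ : K, (h.res (eich q u z)).1 (κ • u) = κ • u := fun κ => by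
    rw [res_apply, map_smul, eich_apply_self hu hz]
  refine ⟨e, he0, h5, fun κ w hw => h.mem_AE_of_unip hM (by omega) he0 h5
    (s := g⁻¹ * h.res (eich q u z) * g) (mul_mem (mul_mem (inv_mem hg) (h.eich_mem hM u z)) hg)
    (fun κ => ?_) ?_ (fun κ => ?_) ?_ κ hw⟩
  · obtain ⟨y, hy, hy'⟩ := h3 ▸ Submodule.mem_map_of_mem (f := ((h.res (eich q u z)).1 : V →ₗ[F] V))
      (Submodule.mem_map_of_mem (f := (g.1 : V →ₗ[F] V)) (smul_mem_pt κ e))
    rw [O.mul_apply, O.mul_apply]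
    exact (show (g⁻¹).1 ((h.res (eich q u z)).1 (g.1 (κ • e))) = y from
      (O.inv_apply_eq g).2 hy'.symm) ▸ hy
  · rw [O.mul_apply, O.mul_apply, O.inv_apply_eq, show g.1 e = δ • u from he', h6]
  · rw [O.mul_apply, O.mul_apply, O.mul_apply, O.mul_apply, h2 (g.1 (κ • e))
      (Submodule.mem_map_of_mem (smul_mem_pt κ e)), map_add, O.inv_apply_apply, add_sub_cancel_left,
      O.apply_inv_apply, h6]
  · obtain ⟨y, hy, rfl⟩ := hx
    obtain ⟨κ, rfl⟩ := mem_pt.1 hy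
    refine ⟨κ, fun h0 => hd0 ?_⟩
    rw [O.mul_apply, O.mul_apply, O.inv_apply_eq, h2 (g.1 (κ • e)) (Submodule.mem_map_of_mem hy), polar_comm,
      show polar q (g.1 (κ • e)) z = δ from hz'] at h0
    simpa using h0

theorem exists_big {X : Submodule F V} (hX : IsX q M X) {u : V} (hu0 : u ≠ 0)
    (hu : q u = 0) (hXu : X ≠ pt F K u) (hXd : finrank F ↥(X ⊓ pt F K u) = d) :
    ∃ e, e ≠ 0 ∧ q e = 0 ∧ ∀ (κ : K) w, polar q e w = 0 → w ∈ AE M (κ • e) := by
  by_cases h1 : ∃ x ∈ X, x ∉ pt F K u ∧ polar q u x = 0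
  · obtain ⟨x, hx, hx', hux⟩ := h1
    exact h.exists_big_of_perp hM hn hd hmax hX hu0 hu hXd hx hx' hux
  push Not at h1
  obtain ⟨x, hx, hx'⟩ := SetLike.not_le_iff_exists.1 (show ¬ X ≤ pt F K u from fun h0 =>
    hXu (Submodule.eq_of_le_of_finrank_eq h0 (by rw [hX.finrank_eq, finrank_pt hu0])))
  have hβ := h1 x hx hx'
  obtain ⟨f, hf⟩ := exists_isHyp h.ndK hu hu0
  obtain ⟨C, hC⟩ := ((X ⊓ pt F K u).comap X.subtype).exists_isCompl
  let W := (hperp q u f).restrictScalars F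
  let Φ : V →ₗ[F] Dual F C := (polarBilin Q).compl₂ (X.subtype ∘ₗ C.subtype)
  let L : V →ₗ[F] V := (((polarBilin q x).smulRight u) - polar q u x • LinearMap.id).restrictScalars F
  let B : V →ₗ[F] V →ₗ[F] V := LinearMap.mk₂ F
    (fun z z' => -(2⁻¹ * polar q z z' * polar q u x) • u)
    (fun a b c => by rw [polar_add_left]; module)
    (fun c a b => by rw [← algebraMap_smul K c a, polar_smul_left', ← algebraMap_smul K c]; module)
    (fun a b c => by rw [polar_add_right]; module)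
    (fun c a b => by rw [← algebraMap_smul K c b, polar_smul_right', ← algebraMap_smul K c]; module)
  obtain ⟨⟨z, hz⟩, hz0, hz'⟩ := exists_ne_zero_of_two_mul_lt (Φ ∘ₗ L ∘ₗ W.subtype)
    ((B.compl₁₂ W.subtype W.subtype).compr₂ Φ) (by
      have k1 := Submodule.finrank_add_eq_of_isCompl hC
      rw [(Submodule.comapSubtypeEquivOfLe inf_le_left).finrank_eq, hXd, hX.finrank_eq] at k1
      have k2 := hf.finrank_hperp h.ndK
      have k3 : finrank F W = finrank F K * finrank K (hperp q u f) :=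
        (Module.finrank_mul_finrank F K (hperp q u f)).symm
      rw [Subspace.dual_finrank_eq, k3]
      nlinarith)
  have hzu : polar q u z = 0 := (mem_hperp.1 hz).1
  have h2 : (eich q u z).1 x = x + (L z + B z z) := by
    rw [eich_apply hu hzu]
    change _ = x + ((polar q x z • u - polar q u x • z) + -(2⁻¹ * polar q z z * polar q u x) • u)
    rw [polar_self', inv_mul_cancel_left₀ h.two', polar_comm q x z]
    module
  have h3 : ∀ y ∈ pt F K u, (eich q u z).1 y = y := fun y hy => by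
    obtain ⟨κ, rfl⟩ := mem_pt.1 hy
    rw [map_smul, eich_apply_self hu hzu]
  have h4 : ∀ y ∈ X, polar Q y ((eich q u z).1 x) = 0 := fun y hy => by
    obtain ⟨a, ha, b, hb, hab⟩ := Submodule.mem_sup.1
      (hC.sup_eq_top ▸ Submodule.mem_top : (⟨y, hy⟩ : X) ∈ _)
    rw [show y = a + b from (congrArg Subtype.val hab).symm, polar_add_left]
    have k1 : polar Q (L z + B z z) b = 0 := by
      rw [polar_add_left]; exact LinearMap.congr_fun hz' ⟨b, hb⟩
    rw [← h3 a ha.2, ← h.res_apply, ← h.res_apply, O.map_polar, h.res_apply, h2, polar_add_right,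
      polar_comm Q b (L z + B z z), k1, (h.ts_of_isX hX).polar_eq a.2 hx,
      (h.ts_of_isX hX).polar_eq b.2 hx, add_zero, add_zero]
  have h5 : (eich q u z).1 x ∉ X := fun h0 => by
    have k1 : (eich q u z).1 x - x ∈ pt F K u := by
      by_contra k1
      refine h1 _ (sub_mem h0 hx) k1 ?_
      have k2 := O.map_polar (eich q u z) u x
      rw [eich_apply_self hu hzu] at k2
      rw [polar_sub_right, k2, sub_self]
    obtain ⟨c, hc⟩ := mem_pt.1 k1
    have k2 : polar q u x • z = (polar q z x - q z * polar q u x - c) • u := by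
      rw [eich_apply hu hzu] at hc
      linear_combination (norm := module) hc
    have k3 := congrArg (polar q f) k2
    rw [polar_smul_right', polar_smul_right', (mem_hperp.1 hz).2, hf.polar_eq', mul_zero,
      mul_one] at k3
    rw [← k3, zero_smul, smul_eq_zero] at k2
    exact hz0 (Subtype.ext (k2.resolve_left hβ))
  have hX' := hX.map (h.eich_mem hM u z)
  have h6 : finrank F ↥(X.map ((h.res (eich q u z)).1 : V →ₗ[F] V) ⊓ X) = d :=
    le_antisymm (hmax _ _ hX' hX fun h0 => h5 (h0 ▸ Submodule.mem_map_of_mem hx))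
      (hXd ▸ Submodule.finrank_mono fun y hy => ⟨⟨y, hy.1, h3 y hy.2⟩, hy.1⟩)
  obtain ⟨g, hg, u', hu'0, hu', rfl⟩ := hX
  refine h.exists_big_of_perp hM hn hd hmax (hX'.map (inv_mem hg)) hu'0 hu' ?_
    (x := (g⁻¹).1 ((eich q u z).1 x))
    (Submodule.mem_map_of_mem (Submodule.mem_map_of_mem hx)) (fun h0 => h5 ⟨_, h0, by simp⟩)
    (h.eq_zero_of_forall fun κ => by
      rw [← O.polar_left]; exact h4 _ (Submodule.mem_map_of_mem (smul_mem_pt κ u')))
  rw [← h6, finrank_inf_map]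

omit hd hmax in
theorem commutator_le {g : O Q} (hg : g ∈ M) (hg' : g ∉ semiO Q K) : commutator (O Q) ≤ M := by
  obtain ⟨X, hX, hX'⟩ : ∃ X, IsX q M X ∧ ∀ u, u ≠ 0 → q u = 0 → X ≠ pt F K u := by
    by_contra! hc
    refine hg' (h.mem_semiO_of_pt (by omega) fun u hu0 hu => ?_)
    obtain ⟨v, -, hv, h1⟩ := hc _ ((isX_pt hu0 hu).map hg)
    have h2 : g.1 u ∈ pt F K v := h1 ▸ Submodule.mem_map_of_mem (self_mem_pt u)
    refine ⟨?_, h1.trans (pt_eq_of_mem h2 (O.apply_ne_zero g hu0)).symm⟩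
    obtain ⟨c, hc⟩ := mem_pt.1 h2
    rw [← hc, Q_smul, hv, mul_zero]
  obtain ⟨Y, hY, hXY, hXY'⟩ := h.exists_pair hM hn hX hX'
  let S : Set ℕ := {k | ∃ X Y, IsX q M X ∧ IsX q M Y ∧ X ≠ Y ∧ finrank F ↥(X ⊓ Y) = k}
  have hS : BddAbove S := ⟨finrank F V, fun _ ⟨_, _, _, _, _, h⟩ => h ▸ Submodule.finrank_le _⟩
  have hmax : ∀ X Y, IsX q M X → IsX q M Y → X ≠ Y → finrank F ↥(X ⊓ Y) ≤ sSup S :=
    fun X Y h1 h2 h3 => le_csSup hS ⟨X, Y, h1, h2, h3, rfl⟩
  have hd : 0 < sSup S := lt_of_lt_of_le (Nat.pos_of_ne_zero fun h0 =>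
    hXY' (Submodule.finrank_eq_zero.1 h0)) (hmax X Y hX hY hXY)
  obtain ⟨X, Y, hX, ⟨k, hk, u, hu0, hu, rfl⟩, h1, h2⟩ :=
    Nat.sSup_mem (s := S) ⟨_, X, Y, hX, hY, hXY, rfl⟩ hS
  obtain ⟨e, he0, he, h3⟩ := h.exists_big hM hn hd hmax (hX.map (inv_mem hk)) hu0 hu
    (fun h0 => h1 (by rw [← h0]; exact (map_inv_map k⁻¹ X).symm))
    (by rw [← h2, finrank_inf_map])
  obtain ⟨f, hf⟩ := exists_isHyp h.ndK he he0
  obtain ⟨z, hz, hz0⟩ := hf.exists_nonsingular h.ndK (by omega)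
  have h4 : ∀ (κ : K) w, polar q f w = 0 → w ∈ AE M (κ • f) := fun κ w hw => by
    have k1 := hf.swap_apply hz hz0 one_ne_zero
    set t := eich q e ((1 * q z)⁻¹ • z) * eich q f ((1 : K) • z)
    have k2 : h.res t ∈ M := by
      rw [map_mul]; exact mul_mem (h.eich_mem hM _ _) (h.eich_mem hM _ _)
    have k3 : -(1 ^ 2 * q z) ≠ 0 := by simpa
    obtain ⟨w, rfl⟩ := t.1.surjective w
    have k4 := conj_mem_AE (h.Q_smul_eq_zero he (κ / -(1 ^ 2 * q z))) k2 one_ne_zero (e' := κ • f)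
      (by rw [res_apply, map_smul, k1, smul_smul, div_mul_cancel₀ _ k3, one_smul])
      (h3 _ w (by rw [← O.map_polar t, k1, polar_smul_left', hw, mul_zero]))
    rwa [one_smul] at k4
  have h5 : ∀ e f, IsHyp q e f → z ∈ hperp q e f →
      (∀ (κ : K) w, polar q e w = 0 → w ∈ AE M (κ • e)) →
      (∀ (κ : K) w, polar q f w = 0 → w ∈ AE M (κ • f)) → ∀ κ : K, FullAt M ⊤ (κ • e) := by
    intro e f hf hz h3 h4 κ
    refine fullAt_iff.2 fun x _ _ hx => ?_
    obtain ⟨a, b, w, hw, rfl⟩ := hf.exists_decomp x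
    have k1 : polar Q (κ • e) (b • f) = 0 := by
      rw [h.polar_smul, hf.polar_left_comb hw] at hx
      rw [h.polar_smul, polar_smul_right', hf.polar_eq, mul_one, hx]
    obtain ⟨c, hc⟩ : ∃ c, τ c = 1 := LinearMap.surjective h.ne 1
    obtain ⟨y, hy, hy'⟩ := hf.exists_polar_eq h.ndK hz (ne_zero_of_Q_ne_zero hz0) c
    rw [mem_hperp] at hy hz hw
    have k2 := polar_smul_mem_AE (h.Q_smul_eq_zero hf.right b) (by rw [polar_comm, k1])
      (h3 κ z hz.1) (h4 b y hy.2) (h.polar_eq_zero hz.2 b)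
      (by rw [polar_comm, h.polar_eq_zero hy.1])
    rw [h.polar_eq, hy', hc, one_smul] at k2
    exact (add_mem (add_mem (h3 κ _ (by simp [hf.polar_left])) k2) (h3 κ w hw.1)).2
  obtain ⟨c, hc⟩ : ∃ c, τ c = 1 := LinearMap.surjective h.ne 1
  have h6 := Module.finrank_mul_finrank F K V
  refine commutator_le_of_pair h.nd (by nlinarith [h.prime.two_le]) (h.Q_smul_eq_zero he c)
    (h.Q_smul_eq_zero hf.right 1) ?_ (h5 e f hf hz h3 h4 c)
    (h5 f e hf.symm (by rwa [hperp_comm]) h4 h3 1)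
  rw [h.polar_smul, one_smul, hf.polar_eq, mul_one, hc]
  exact one_ne_zero

end EStr

open Matrix in
theorem isMaximalIn_extField {ι : Type} [Fintype ι] [DecidableEq ι] [Finite F]
    {q : (ι → F) → F} (hq : Geo.IsNondegenerateQuadraticForm q) (h2 : (2 : F) ≠ 0) {r : ℕ}
    (hr : r.Prime) (hn : 3 * r < Fintype.card ι)
    {K : Subalgebra F (Matrix ι ι F)} (hK : Geo.IsFieldSubalgebra r K)
    (hs : Geo.IsSelfAdjointFor (polar q) K) :
    Geo.IsMaximalIn (Geo.omegaGL q) (Geo.subalgebraNormalizer K ⊓ Geo.omegaGL q) := by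
  obtain ⟨Q, rfl, hQ⟩ := exists_form hq
  have := hr.two_le
  have : Nonempty ι := Fintype.card_pos_iff.1 (by omega)
  refine isMaximalIn_semiO hQ (by omega) hr.two_le hK fun M h1 _ g hg hg' => ?_
  let _ := (Asch.isField_of_isFieldSubalgebra hK).toField
  obtain ⟨q, τ, h⟩ := exists_eStr (K := K) hQ (hK.finrank_eq ▸ hr) h2 fun κ => hs κ κ.2
  have : FiniteDimensional K (ι → F) := Module.Finite.of_restrictScalars_finite F K _
  have h3 := Module.finrank_mul_finrank F K (ι → F)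
  rw [hK.finrank_eq, Module.finrank_fintype_fun_eq_card] at h3
  exact h.commutator_le h1 (by nlinarith) hg hg'

end Cfsg.Lib.OMax
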