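import Cfsg.Agent.Lib.OMax.ExtD

/-!
# `O₃(K)` inside `Ω`: algebraic preliminaries
-/

namespace Cfsg.Lib.OMax

open QuadraticMap Module Cfsg.Lib.Orth

set_option linter.unusedSectionVars false

/-- An alternating form on an odd-dimensional space has a radical. -/
theorem exists_rad_of_odd {F U : Type*} [Field F] [AddCommGroup U] [Module F U]
    [FiniteDimensional F U] (h2 : (2 : F) ≠ 0) (ho : Odd (finrank F U))
    (b : U →ₗ[F] U →ₗ[F] F) (hb : ∀ x, b x x = 0) : ∃ y, y ≠ 0 ∧ ∀ x, b x y = 0 := by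
  classical
  have hs : ∀ x y, b x y = -b y x := fun x y => by
    have := hb (x + y)
    simp only [map_add, LinearMap.add_apply, hb] at this
    linear_combination this
  by_contra! hc
  have hn : LinearMap.BilinForm.Nondegenerate b := by
    refine ⟨fun x hx => ?_, fun y hy => ?_⟩
    · by_contra h0
      obtain ⟨y, hy⟩ := hc x h0
      exact hy (by rw [hs, hx, neg_zero])
    · by_contra h0
      obtain ⟨x, hx⟩ := hc y h0
      exact hx (hy x)
  let e := finBasis F U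
  rw [LinearMap.BilinForm.nondegenerate_iff_det_ne_zero e] at hn
  have h1 : (LinearMap.BilinForm.toMatrix e b).transpose = -LinearMap.BilinForm.toMatrix e b := by
    ext i j
    simp only [Matrix.transpose_apply, Matrix.neg_apply, LinearMap.BilinForm.toMatrix_apply]
    exact hs _ _
  have h3 := congrArg Matrix.det h1
  rw [Matrix.det_transpose, Matrix.det_neg, Fintype.card_fin, ho.neg_one_pow] at h3
  exact hn ((mul_eq_zero.1 (show 2 * (LinearMap.BilinForm.toMatrix e b).det = 0 by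
    linear_combination h3)).resolve_left h2)

theorem exists_last_of_pow {F U : Type*} [Field F] [AddCommGroup U] [Module F U]
    {δ : Module.End F U} {n : ℕ} (h : δ ^ n = 0) {y : U} (hy : y ≠ 0) :
    ∃ k, (δ ^ k) y ≠ 0 ∧ δ ((δ ^ k) y) = 0 := by
  classical
  have h1 : ∃ k, (δ ^ k) y = 0 := ⟨n, by rw [h]; rfl⟩
  have h2 := Nat.find_spec h1
  have h3 : Nat.find h1 ≠ 0 := fun h0 => hy (by rwa [h0] at h2)
  obtain ⟨k, hk⟩ := Nat.exists_eq_succ_of_ne_zero h3
  refine ⟨k, Nat.find_min h1 (by omega), ?_⟩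
  rwa [hk, pow_succ', Module.End.mul_apply] at h2

theorem sub_one_pow_of_pow {F U : Type*} [Field F] [AddCommGroup U] [Module F U] {p : ℕ}
    [Fact p.Prime] [CharP F p] {ψ : Module.End F U} (h : ψ ^ p = 1) : (ψ - 1) ^ p = 0 := by
  rcases subsingleton_or_nontrivial U with hU | hU
  · exact Subsingleton.elim _ _
  have : CharP (Module.End F U) p := charP_of_injective_algebraMap (algebraMap F _).injective p
  rw [sub_pow_char_of_commute p (Commute.one_right ψ), h, one_pow, sub_self]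

section Gal

variable {F K : Type*} [Field F] [Field K] [Algebra F K] [Finite F] [Finite K]

theorem gal_mem_powers (hr : (finrank F K).Prime) {σ : K ≃ₐ[F] K} (hσ : σ ≠ 1) (ρ : K ≃ₐ[F] K) :
    ∃ j : ℕ, σ ^ j = ρ := by
  have := Fact.mk hr
  exact mem_powers_of_prime_card (IsGalois.card_aut_eq_finrank F K) hσ

theorem gal_comm (hr : (finrank F K).Prime) (σ ρ : K ≃ₐ[F] K) : σ * ρ = ρ * σ := by
  rcases eq_or_ne σ 1 with rfl | h
  · simp
  obtain ⟨j, rfl⟩ := gal_mem_powers hr h ρ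
  exact (Commute.self_pow σ j).eq

theorem gal_eq_one_of_sq (hr : (finrank F K).Prime) (ho : Odd (finrank F K)) {σ : K ≃ₐ[F] K}
    (h : σ * σ = 1) : σ = 1 := by
  obtain ⟨k, hk⟩ := ho
  have h1 : σ ^ finrank F K = 1 := by
    rw [← IsGalois.card_aut_eq_finrank F K]; exact pow_card_eq_one'
  rwa [hk, pow_succ, pow_mul, pow_two, h, one_pow, one_mul] at h1

theorem gal_fixed (hr : (finrank F K).Prime) {σ : K ≃ₐ[F] K} (hσ : σ ≠ 1) {x : K} (hx : σ x = x) :
    ∃ c : F, algebraMap F K c = x := by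
  refine Linear.mem_range_of_mul_mem hr (Δ := LinearMap.ker (σ.toLinearMap - LinearMap.id))
    (fun h0 => ?_) (fun h0 => hσ (AlgEquiv.ext fun y => ?_)) fun δ hδ => ?_
  · exact one_ne_zero ((Submodule.eq_bot_iff _).1 h0 1 (by simp))
  · have : y ∈ LinearMap.ker (σ.toLinearMap - LinearMap.id) := h0 ▸ Submodule.mem_top
    simpa [sub_eq_zero] using this
  · simp only [LinearMap.mem_ker, LinearMap.sub_apply, AlgEquiv.toLinearMap_apply,
      LinearMap.id_apply, sub_eq_zero] at hδ ⊢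
    rw [map_mul, hx, hδ]

theorem gal_fixed_of_sq (hr : (finrank F K).Prime) (ho : Odd (finrank F K)) {σ : K ≃ₐ[F] K}
    (hσ : σ ≠ 1) {x : K} (hx : σ (x ^ 2) = x ^ 2) : ∃ c : F, algebraMap F K c = x := by
  refine gal_fixed hr (σ := σ * σ) (fun h0 => hσ (gal_eq_one_of_sq hr ho h0)) ?_
  rw [map_pow, sq_eq_sq_iff_eq_or_eq_neg] at hx
  rcases hx with hx | hx
  · rw [AlgEquiv.mul_apply, hx, hx]
  · rw [AlgEquiv.mul_apply, hx, map_neg, hx, neg_neg]

theorem exists_eq_mul_sq (h2 : (2 : F) ≠ 0) (ho : Odd (finrank F K)) {x : K} (hx : x ≠ 0) :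
    ∃ (c : F) (t : K), t ≠ 0 ∧ algebraMap F K c = x * t ^ 2 := by
  have := Fintype.ofFinite F
  have hq : Odd (Nat.card F) := by
    rw [Nat.card_eq_fintype_card]
    refine Nat.odd_iff.2 (FiniteField.odd_card_of_char_ne_two fun h0 => h2 ?_)
    exact (ringChar.spec F 2).2 (h0 ▸ dvd_rfl)
  have h1 : Odd (∑ i ∈ Finset.range (finrank F K), Nat.card F ^ i) := by
    rw [Finset.odd_sum_iff_odd_card_odd, Finset.filter_true_of_mem fun i _ => hq.pow,
      Finset.card_range]
    exact ho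
  obtain ⟨k, hk⟩ := h1
  refine ⟨Algebra.norm F x, x ^ k, pow_ne_zero _ hx, ?_⟩
  rw [FiniteField.algebraMap_norm_eq_pow_sum, hk]
  ring

end Gal

variable {F V : Type*} [Field F] [AddCommGroup V] [Module F V] {Q : QuadraticForm F V}
  {K : Type*} [Field K] [Module K V] [Algebra F K] [IsScalarTower F K V]

namespace EStr

variable {q : QuadraticForm K V} {τ : K →ₗ[F] F} (h : EStr Q q τ)
include h

theorem mem_perp_pt {u x : V} : x ∈ perp Q (pt F K u) ↔ polar q u x = 0 :=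
  ⟨fun hx => h.eq_zero_of_forall fun κ => hx _ (smul_mem_pt κ u), fun hx y hy => by
    obtain ⟨κ, rfl⟩ := mem_pt.1 hy
    exact h.polar_eq_zero hx κ⟩

variable [Finite F] [FiniteDimensional F V] [Finite K] [FiniteDimensional K V]
  {M : Subgroup (O Q)} (hM : semiO Q K ⊓ commutator (O Q) ≤ M) (hn : 3 ≤ finrank K V)
include hM hn

theorem hrot_mem {u f : V} (hf : IsHyp q u f) {t : K} (ht : t ≠ 0) :
    h.res (hrot q u f (t ^ 2)) ∈ M :=
  h.res_mem hM (eichGroup_le_commutator h.ndK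
    (not_exc_of_two_ne_zero h.two') (hf.hrot_sq_mem_eichGroup h.ndK hn ht))

theorem mem_AE_of_ring {u : V} (hu0 : u ≠ 0) (hu : q u = 0) {ψ : Module.End F K}
    (hψ : ∀ a ∈ uA q M u, ψ ∘ₗ a ∈ uA q M u) (hc : ¬ ∀ y, ψ y = ψ 1 * y) (κ : K) {w : V}
    (hw : polar q u w = 0) : w ∈ AE M (κ • u) := by
  let R : Subring (Module.End F K) :=
    { carrier := {ψ | ∀ a ∈ uA q M u, ψ ∘ₗ a ∈ uA q M u}
      mul_mem' := fun {x y} hx hy a ha => hx _ (hy a ha)
      one_mem' := fun a ha => ha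
      add_mem' := fun {x y} hx hy a ha => by
        rw [LinearMap.add_comp]; exact add_mem (hx a ha) (hy a ha)
      zero_mem' := fun a _ => zero_mem _
      neg_mem' := fun {x} hx a ha => by rw [LinearMap.neg_comp]; exact neg_mem (hx a ha) }
  have hR : ∀ κ : K, LinearMap.mulLeft F κ ∈ R := fun κ a ha => h.smul_mem_uA hM hn hu0 hu ha κ
  have hP : TS Q (pt F K u) := fun x hx => by
    obtain ⟨κ, rfl⟩ := mem_pt.1 hx
    exact h.Q_smul_eq_zero hu κ
  have key : ∀ (κ : K) w, polar q u w = 0 →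
      ∃ ζ ∈ genIn Q (pt F K u), eich Q (κ • u) w * ζ ∈ M := fun κ w hw => by
    have h5 := smulRight_mem_of_prime h.prime hR (ψ := ψ) hψ hc τ κ
      ((polarBilin q w).restrictScalars F) ⟨fun κ => by
        simp [polar_comm q w u, hw], fun _ =>
        ⟨_, h.eich_mem hM u w, fun x hx => by rw [res_apply, eich_apply_of_perp hu hw hx]; rfl⟩⟩
    obtain ⟨y, hy, hy'⟩ := h5.2 hu
    refine ⟨(eich Q (κ • u) w)⁻¹ * y, ?_, by rwa [mul_inv_cancel_left]⟩
    rw [← perp_perp h.nd (pt F K u), ← fixer_eq_genIn h.nd]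
    intro x hx
    have hx' : polar q u x = 0 := h.eq_zero_of_forall fun κ => hx _ (smul_mem_pt κ u)
    rw [O.mul_apply, O.inv_apply_eq, hy' x hx', eich_apply_of_perp (h.Q_smul_eq_zero hu κ)
      (h.polar_eq_zero hw κ) (h.polar_eq_zero hx' κ), h.polar_eq, ← smul_assoc]
    rfl
  have hcomm : ∀ g : O Q, (∀ x ∈ pt F K u, g.1 x = x) → ∀ ζ ∈ genIn Q (pt F K u),
      g * ζ * g⁻¹ = ζ := fun g hg ζ hζ => by
    rw [mul_inv_eq_iff_eq_mul]
    refine Subgroup.mem_centralizer_singleton_iff.1 (genIn_le (K := Subgroup.centralizer {g})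
      (fun v hv hv' => (hv' (hP v hv)).elim) (fun a ha b hb _ _ => ?_) hζ) |>.symm
    rw [Subgroup.mem_centralizer_singleton_iff, eq_comm, ← mul_inv_eq_iff_eq_mul, conj_eich,
      hg a ha, hg b hb]
  have hG : genIn Q (pt F K u) ≤ M := by
    refine genIn_le (fun v hv hv' => (hv' (hP v hv)).elim) fun a ha b hb _ _ => ?_
    obtain ⟨a, rfl⟩ := mem_pt.1 ha
    obtain ⟨b, rfl⟩ := mem_pt.1 hb
    obtain ⟨f, hf⟩ := exists_isHyp h.ndK hu hu0
    obtain ⟨w, hw, hw0⟩ := hf.exists_nonsingular h.ndK hn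
    obtain ⟨z, hz, hzw⟩ := hf.exists_polar_eq h.ndK hw (ne_zero_of_Q_ne_zero hw0) b
    rw [mem_hperp] at hw hz
    obtain ⟨ζ, hζ, hζ'⟩ := key a w hw.1
    have hE := h.eich_mem hM u z
    have hE' : ∀ x ∈ pt F K u, (h.res (eich q u z)).1 x = x := fun x hx => by
      obtain ⟨κ, rfl⟩ := mem_pt.1 hx
      rw [res_apply, map_smul, eich_apply_self hu hz.1]
    have h5 := mul_mem (mul_mem (mul_mem hE hζ') (inv_mem hE)) (inv_mem hζ')
    rwa [← conj_mul, hcomm _ hE' ζ hζ, conj_eich, hE' _ (smul_mem_pt a u), res_apply,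
      eich_apply_of_perp hu hz.1 hw.1, hzw, add_comm, eich_add (h.Q_smul_eq_zero hu a)
        (hP.polar_eq (smul_mem_pt a u) (smul_mem_pt b u)) (h.polar_eq_zero hw.1 a), mul_assoc,
        mul_assoc, ← mul_assoc _ ζ, mul_inv_cancel, mul_one] at h5
  obtain ⟨ζ, hζ, hζ'⟩ := key κ w hw
  exact ⟨h.polar_eq_zero hw κ, (M.mul_mem_cancel_right (hG hζ)).1 hζ'⟩

theorem commutator_le_of_big {e : V} (he0 : e ≠ 0) (he : q e = 0)
    (h3 : ∀ (κ : K) w, polar q e w = 0 → w ∈ AE M (κ • e)) : commutator (O Q) ≤ M := by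
  obtain ⟨f, hf⟩ := exists_isHyp h.ndK he he0
  obtain ⟨z, hz, hz0⟩ := hf.exists_nonsingular h.ndK hn
  have h4 : ∀ (κ : K) w, polar q f w = 0 → w ∈ AE M (κ • f) := fun κ w hw => by
    have k1 := hf.swap_apply hz hz0 one_ne_zero
    set t := eich q e ((1 * q z)⁻¹ • z) * eich q f ((1 : K) • z)
    have k2 : h.res t ∈ M := by
      rw [map_mul]; exact mul_mem (h.eich_mem hM _ _) (h.eich_mem hM _ _)
    have k3 : -(1 ^ 2 * q z) ≠ 0 := by simpa
    obtain ⟨w, rfl⟩ := t.1.surjective w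
    have k4 := conj_mem_AE (h.Q_smul_eq_zero he (κ / -(1 ^ 2 * q z))) k2 one_ne_zero (e' := κ • f)
      (by rw [res_apply, map_smul, k1, smul_smul, div_mul_cancel₀ _ k3, one_smul])
      (h3 _ w (by rw [← O.map_polar t, k1, polar_smul_left', hw, mul_zero]))
    rwa [one_smul] at k4
  have h5 : ∀ e f, IsHyp q e f → z ∈ hperp q e f →
      (∀ (κ : K) w, polar q e w = 0 → w ∈ AE M (κ • e)) →
      (∀ (κ : K) w, polar q f w = 0 → w ∈ AE M (κ • f)) → ∀ κ : K, FullAt M ⊤ (κ • e) := by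
    intro e f hf hz h3 h4 κ
    refine fullAt_iff.2 fun x _ _ hx => ?_
    obtain ⟨a, b, w, hw, rfl⟩ := hf.exists_decomp x
    have k1 : polar Q (κ • e) (b • f) = 0 := by
      rw [h.polar_smul, hf.polar_left_comb hw] at hx
      rw [h.polar_smul, polar_smul_right', hf.polar_eq, mul_one, hx]
    obtain ⟨c, hc⟩ : ∃ c, τ c = 1 := LinearMap.surjective h.ne 1
    obtain ⟨y, hy, hy'⟩ := hf.exists_polar_eq h.ndK hz (ne_zero_of_Q_ne_zero hz0) c
    rw [mem_hperp] at hy hz hw
    have k2 := polar_smul_mem_AE (h.Q_smul_eq_zero hf.right b) (by rw [polar_comm, k1])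
      (h3 κ z hz.1) (h4 b y hy.2) (h.polar_eq_zero hz.2 b)
      (by rw [polar_comm, h.polar_eq_zero hy.1])
    rw [h.polar_eq, hy', hc, one_smul] at k2
    exact (add_mem (add_mem (h3 κ _ (by simp [hf.polar_left])) k2) (h3 κ w hw.1)).2
  obtain ⟨c, hc⟩ : ∃ c, τ c = 1 := LinearMap.surjective h.ne 1
  have h6 := Module.finrank_mul_finrank F K V
  refine commutator_le_of_pair h.nd (by nlinarith [h.prime.two_le]) (h.Q_smul_eq_zero he c)
    (h.Q_smul_eq_zero hf.right 1) ?_ (h5 e f hf hz h3 h4 c)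
    (h5 f e hf.symm (by rwa [hperp_comm]) h4 h3 1)
  rw [h.polar_smul, one_smul, hf.polar_eq, mul_one, hc]
  exact one_ne_zero

/-- If `M` is proper, the stabiliser of a `K`-point acts semilinearly on it. -/
theorem exists_sigma (hb : ¬ commutator (O Q) ≤ M) {u : V} (hu0 : u ≠ 0) (hu : q u = 0) {g : O Q}
    (hg : g ∈ M) (h1 : ∀ κ : K, g.1 (κ • u) ∈ pt F K u) :
    ∃ (σ : K ≃ₐ[F] K) (ν : K), ν ≠ 0 ∧ ∀ κ : K, g.1 (κ • u) = (σ κ * ν) • u := by
  choose t ht using fun κ => mem_pt.1 (h1 κ)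
  let φ : K →ₗ[F] K :=
    { toFun := t
      map_add' := fun a b => smul_left_injective K hu0 (by simp only [add_smul, ht, map_add])
      map_smul' := fun c a => smul_left_injective K hu0 (by
        simp only [RingHom.id_apply, smul_assoc, ht, map_smul]) }
  have hφ : ∀ κ, g.1 (κ • u) = φ κ • u := fun κ => (ht κ).symm
  have hi : Function.Injective φ := fun a b hab => smul_left_injective K hu0 (g.1.injective (by
    simp only [hφ, hab]))
  let φe : K ≃ₗ[F] K := LinearEquiv.ofBijective φ ⟨hi, Finite.injective_iff_surjective.1 hi⟩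
  have hφ' : ∀ κ, φ (φe.symm κ) = κ := φe.apply_symm_apply
  have hφ'' : ∀ κ, (g⁻¹).1 (κ • u) = (φe.symm : K →ₗ[F] K) κ • u := fun κ => by
    rw [O.inv_apply_eq, hφ, LinearEquiv.coe_coe, hφ']
  have hν : φ 1 ≠ 0 := fun h0 => one_ne_zero (hi (h0.trans (map_zero φ).symm))
  have hc : ∀ c y, φ (c * y) * φ 1 = φ c * φ y := fun c y => by
    by_contra h0
    refine hb (h.commutator_le_of_big hM hn hu0 hu fun κ w hw => h.mem_AE_of_ring hM hn hu0 hu
      (ψ := φ * LinearMap.mulLeft F c * (φe.symm : K →ₗ[F] K)) (fun a ha => ?_) (fun h3 => h0 ?_)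
      κ hw)
    · have h5 := h.conj_mem_uA hg hφ (fun κ => ⟨_, hφ'' κ⟩) (h.smul_mem_uA hM hn hu0 hu
        (h.conj_mem_uA (inv_mem hg) hφ'' (fun κ => ⟨_, by rw [inv_inv, hφ]⟩) ha) c)
      convert h5 using 1
      ext x
      simp
    · have k1 := h3 (φ y)
      have k2 := h3 (φ 1)
      have k3 : ∀ y, φe.symm (φ y) = y := φe.symm_apply_apply
      simp only [Module.End.mul_apply, LinearEquiv.coe_coe, k3, LinearMap.mulLeft_apply,
        mul_one] at k1 k2
      rw [k1, k2]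
      ring
  let σ₀ : K →ₐ[F] K :=
    { toFun := fun c => φ c / φ 1
      map_one' := div_self hν
      map_mul' := fun a b => by field_simp; exact hc a b
      map_zero' := by simp
      map_add' := fun a b => by rw [map_add, add_div]
      commutes' := fun c => by
        rw [Algebra.algebraMap_eq_smul_one, map_smul, smul_div_assoc, div_self hν] }
  refine ⟨AlgEquiv.ofBijective σ₀ ⟨σ₀.injective, Finite.injective_iff_surjective.1 σ₀.injective⟩,
    φ 1, hν, fun κ => ?_⟩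
  rw [hφ]
  congr 1
  exact (div_mul_cancel₀ _ hν).symm

end EStr

end Cfsg.Lib.OMax
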