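import Cfsg.Agent.Lib.OMax.ExtE

/-!
# `O₃(K)` inside `Ω`: the unipotent radical of the stabiliser of a `K`-point
-/

namespace Cfsg.Lib.OMax

open QuadraticMap Module Cfsg.Lib.Orth

set_option linter.unusedSectionVars false

variable {F V : Type*} [Field F] [AddCommGroup V] [Module F V] {Q : QuadraticForm F V}
  {K : Type*} [Field K] [Module K V] [Algebra F K] [IsScalarTower F K V]
  {q : QuadraticForm K V} {τ : K →ₗ[F] F}

/-- A standard basis of a three-dimensional space. -/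
structure Fr3 (q : QuadraticForm K V) (u f z : V) : Prop where
  hyp : IsHyp q u f
  mem : z ∈ hperp q u f
  ne : q z ≠ 0
  two : (2 : K) ≠ 0
  span : ∀ w ∈ hperp q u f, ∃ c : K, w = c • z

theorem exists_fr3 [FiniteDimensional K V] (hq : ND q) (h2 : (2 : K) ≠ 0) (h3 : finrank K V = 3)
    {u f : V} (hf : IsHyp q u f) : ∃ z, Fr3 q u f z := by
  obtain ⟨z, hz, hz0⟩ := hf.exists_nonsingular hq h3.ge
  refine ⟨z, hf, hz, hz0, h2, fun w hw => ?_⟩
  have h1 := hf.finrank_hperp hq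
  have h4 : (K ∙ z) = hperp q u f := Submodule.eq_of_le_of_finrank_eq
    ((Submodule.span_singleton_le_iff_mem _ _).2 hz) (by
      rw [finrank_span_singleton (ne_zero_of_Q_ne_zero hz0)]; omega)
  obtain ⟨c, hc⟩ := Submodule.mem_span_singleton.1 (h4 ▸ hw)
  exact ⟨c, hc.symm⟩

namespace Fr3

variable {u f z : V} (h : Fr3 q u f z)
include h

theorem symm : Fr3 q f u z :=
  ⟨h.hyp.symm, hperp_comm (Q := q) u f ▸ h.mem, h.ne, h.two, hperp_comm (Q := q) u f ▸ h.span⟩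

theorem uz : polar q u z = 0 := (mem_hperp.1 h.mem).1
theorem fz : polar q f z = 0 := (mem_hperp.1 h.mem).2
theorem zu : polar q z u = 0 := by rw [polar_comm, h.uz]
theorem zf : polar q z f = 0 := by rw [polar_comm, h.fz]
theorem zz : polar q z z ≠ 0 := by rw [polar_self']; exact mul_ne_zero h.two h.ne
theorem u0 : u ≠ 0 := h.hyp.ne_zero
theorem qu : q u = 0 := h.hyp.left
theorem uz' (l : K) : polar q u (l • z) = 0 := by rw [polar_smul_right', h.uz, mul_zero]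

theorem smul {l : K} (hl : l ≠ 0) : Fr3 q u f (l • z) :=
  ⟨h.hyp, Submodule.smul_mem _ _ h.mem, by rw [Q_smul]; simp [hl, h.ne], h.two, fun w hw => by
    obtain ⟨c, rfl⟩ := h.span w hw
    exact ⟨c / l, by rw [smul_smul, div_mul_cancel₀ _ hl]⟩⟩

theorem decomp (x : V) : ∃ a b c : K, x = a • u + b • f + c • z := by
  obtain ⟨a, b, w, hw, rfl⟩ := h.hyp.exists_decomp x
  obtain ⟨c, rfl⟩ := h.span w hw
  exact ⟨a, b, c, rfl⟩

theorem pu (a b c : K) : polar q u (a • u + b • f + c • z) = b :=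
  h.hyp.polar_left_comb (Submodule.smul_mem _ _ h.mem) a b

theorem pz (a b c : K) : polar q z (a • u + b • f + c • z) = c * polar q z z := by
  simp [polar_add_right, h.zu, h.zf]

theorem mem_pt_of {x : V} (h1 : polar q u x = 0) (h2 : polar q z x = 0) : x ∈ pt F K u := by
  obtain ⟨a, b, c, rfl⟩ := h.decomp x
  rw [h.pu] at h1
  rw [h.pz, mul_eq_zero, or_iff_left h.zz] at h2
  simpa [h1, h2] using smul_mem_pt a u

theorem mem_pt_of_sing {x : V} (h1 : polar q u x = 0) (h2 : q x = 0) : x ∈ pt F K u := by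
  obtain ⟨a, b, c, rfl⟩ := h.decomp x
  rw [h.pu] at h1
  rw [h.hyp.Q_comb' (Submodule.smul_mem _ _ h.mem), h1, Q_smul] at h2
  have : c = 0 := by simpa [h.ne] using h2
  simpa [h1, this] using smul_mem_pt a u

theorem pu_pt {x : V} (hx : x ∈ pt F K u) : polar q u x = 0 := by
  obtain ⟨κ, rfl⟩ := mem_pt.1 hx
  rw [polar_smul_right', h.hyp.polar_left, mul_zero]

theorem pz_pt {x : V} (hx : x ∈ pt F K u) : polar q z x = 0 := by
  obtain ⟨κ, rfl⟩ := mem_pt.1 hx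
  rw [polar_smul_right', h.zu, mul_zero]

theorem eich_ap (l : K) (x : V) : (eich q u (l • z)).1 x =
    x + (l * polar q z x - l ^ 2 * q z * polar q u x) • u - (l * polar q u x) • z := by
  rw [eich_apply h.qu (h.uz' l), polar_smul_left', Q_smul]
  module

theorem eich_perp (l : K) {x : V} (hx : polar q u x = 0) :
    (eich q u (l • z)).1 x = x + (l * polar q z x) • u := by
  rw [h.eich_ap, hx]; simp

theorem eich_pt (l : K) {x : V} (hx : x ∈ pt F K u) : (eich q u (l • z)).1 x = x := by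
  rw [h.eich_perp l (h.pu_pt hx), h.pz_pt hx]; simp

theorem mem_pt_of_fix {l : K} (hl : l ≠ 0) {x : V} (hx : (eich q u (l • z)).1 x = x) :
    x ∈ pt F K u := by
  have h1 := congrArg (polar q z) hx
  rw [h.eich_ap, polar_sub_right, polar_add_right, polar_smul_right', polar_smul_right', h.zu,
    mul_zero, add_zero, sub_eq_self] at h1
  have h2 : polar q u x = 0 := by simpa [hl, h.two, h.ne] using h1
  rw [h.eich_perp l h2, add_eq_left] at hx
  exact h.mem_pt_of h2 (by simpa [hl, h.u0] using hx)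

theorem eich_mul (l m : K) : eich q u ((l + m) • z) = eich q u (l • z) * eich q u (m • z) := by
  rw [add_smul, eich_add h.qu (h.uz' l) (h.uz' m)]

theorem eich_inv (l : K) : (eich q u (l • z))⁻¹ = eich q u ((-l) • z) := by
  rw [neg_smul, eich_neg h.qu (h.uz' l)]

theorem eich_pow (l : K) (n : ℕ) : eich q u (l • z) ^ n = eich q u ((n * l) • z) := by
  induction n with
  | zero => simp
  | succ n ih => rw [pow_succ, ih, ← h.eich_mul]; congr 2; push_cast; ring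

theorem eich_inj {l m : K} (h1 : (eich q u (l • z)).1 z = (eich q u (m • z)).1 z) : l = m := by
  rw [h.eich_perp l h.uz, h.eich_perp m h.uz, add_right_inj] at h1
  exact mul_right_cancel₀ h.zz (smul_left_injective K h.u0 h1)

end Fr3

theorem map_pt_eq [FiniteDimensional F V] {g : O Q} {u v : V} (hu : u ≠ 0) (hv : v ≠ 0)
    (h : ∀ κ : K, g.1 (κ • u) ∈ pt F K v) : (pt F K u).map (g.1 : V →ₗ[F] V) = pt F K v := by
  refine Submodule.eq_of_le_of_finrank_eq ?_ (by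
    rw [LinearEquiv.finrank_map_eq, finrank_pt hu, finrank_pt hv])
  rintro _ ⟨x, hx, rfl⟩
  obtain ⟨κ, rfl⟩ := mem_pt.1 hx
  exact h κ

/-- The standing hypotheses. -/
structure Ctx3 (Q : QuadraticForm F V) (q : QuadraticForm K V) (τ : K →ₗ[F] F)
    (M : Subgroup (O Q)) (d : ℕ) : Prop where
  es : EStr Q q τ
  le : semiO Q K ⊓ commutator (O Q) ≤ M
  three : finrank K V = 3
  odd : Odd (finrank F K)
  nb : ¬ commutator (O Q) ≤ M
  max : ∀ X Y, IsX q M X → IsX q M Y → X ≠ Y → finrank F ↥(X ⊓ Y) ≤ d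
  ex : ∃ X Y, IsX q M X ∧ IsX q M Y ∧ X ≠ Y ∧ finrank F ↥(X ⊓ Y) = d

namespace Ctx3

variable [Finite F] [FiniteDimensional F V] [Finite K] [FiniteDimensional K V]
  {M : Subgroup (O Q)} {d : ℕ} (c : Ctx3 Q q τ M d)
include c

theorem three_le : 3 ≤ finrank F K := by
  have := c.es.prime.two_le
  obtain ⟨k, hk⟩ := c.odd
  omega

theorem fr {u : V} (hu0 : u ≠ 0) (hu : q u = 0) : ∃ f z, Fr3 q u f z := by
  obtain ⟨f, hf⟩ := exists_isHyp c.es.ndK hu hu0
  exact ⟨f, exists_fr3 c.es.ndK c.es.two' c.three hf⟩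

theorem exists_move {u v : V} (hu0 : u ≠ 0) (hu : q u = 0) (hv0 : v ≠ 0) (hv : q v = 0) :
    ∃ k : O q, c.es.res k ∈ M ∧ ∃ a : K, a ≠ 0 ∧ k.1 u = a • v := by
  by_cases h1 : polar q u v = 0
  · obtain ⟨f, z, hf⟩ := c.fr hu0 hu
    obtain ⟨a, rfl⟩ := mem_pt.1 (hf.mem_pt_of_sing (F := F) h1 hv)
    have ha := left_ne_zero_of_smul hv0
    exact ⟨1, by rw [map_one]; exact one_mem _, a⁻¹, inv_ne_zero ha, by
      rw [inv_smul_smul₀ ha]; rfl⟩
  have h2 : IsHyp q u ((polar q u v)⁻¹ • v) :=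
    ⟨hu, by rw [Q_smul, hv, mul_zero], by rw [polar_smul_right', inv_mul_cancel₀ h1]⟩
  obtain ⟨z, hz⟩ := exists_fr3 c.es.ndK c.es.two' c.three h2
  refine ⟨_, ?_, _, ?_, (h2.swap_apply hz.mem hz.ne one_ne_zero).trans (smul_smul _ _ _)⟩
  · rw [map_mul]; exact mul_mem (c.es.eich_mem c.le _ _) (c.es.eich_mem c.le _ _)
  · simp [hz.ne, h1]

theorem exists_map {X : Submodule F V} (hX : IsX q M X) {u : V} (hu0 : u ≠ 0) (hu : q u = 0) :
    ∃ g ∈ M, X = (pt F K u).map (g.1 : V →ₗ[F] V) := by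
  obtain ⟨g, hg, v, hv0, hv, rfl⟩ := hX
  obtain ⟨k, hk, a, -, ha⟩ := c.exists_move hu0 hu hv0 hv
  refine ⟨g * c.es.res k, mul_mem hg hk, ?_⟩
  rw [← map_pt_eq (g := c.es.res k) hu0 hv0 fun κ => by
    rw [EStr.res_apply, map_smul, ha, smul_smul]; exact smul_mem_pt _ _]
  exact (Submodule.map_comp _ _ _).symm

theorem exists_sigma {X : Submodule F V} (hX : IsX q M X) {s : O Q} (hs : s ∈ M)
    (h1 : ∀ x ∈ X, s.1 x ∈ X) {x₀ : V} (hx : x₀ ∈ X) (h0 : x₀ ≠ 0) (h2 : s.1 x₀ = x₀) :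
    ∃ (ι : K →ₗ[F] V) (σ : K ≃ₐ[F] K), Function.Injective ι ∧ (∀ x ∈ X, ∃ κ, ι κ = x) ∧
      (∀ κ, ι κ ∈ X) ∧ ι 1 = x₀ ∧ ∀ κ, s.1 (ι κ) = ι (σ κ) := by
  obtain ⟨g, hg, u, hu0, hu, rfl⟩ := hX
  obtain ⟨e, he, rfl⟩ := hx
  have he0 : e ≠ 0 := by rintro rfl; exact h0 (map_zero _)
  have h4 := pt_eq_of_mem he he0
  have h5 : q e = 0 := by
    obtain ⟨c, rfl⟩ := mem_pt.1 he
    rw [Q_smul, hu, mul_zero]
  rw [← h4] at h1 ⊢
  obtain ⟨σ, ν, -, h6⟩ := c.es.exists_sigma c.le c.three.ge c.nb he0 h5 (g := g⁻¹ * s * g)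
    (mul_mem (mul_mem (inv_mem hg) hs) hg) fun κ => by
      obtain ⟨y, hy, hy'⟩ := h1 _ (Submodule.mem_map_of_mem (smul_mem_pt κ e))
      rw [O.mul_apply, O.mul_apply]
      exact (show (g⁻¹).1 (s.1 (g.1 (κ • e))) = y from (O.inv_apply_eq g).2 hy'.symm) ▸ hy
  simp only [O.mul_apply, O.inv_apply_eq] at h6
  have h7 : ν = 1 := by
    have := h6 1
    rw [one_smul, map_one, one_mul, show s.1 (g.1 e) = g.1 e from h2, g.1.injective.eq_iff] at this
    exact smul_left_injective K he0 (this.symm.trans (one_smul K e).symm)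
  refine ⟨(g.1 : V →ₗ[F] V) ∘ₗ (LinearMap.toSpanSingleton K V e).restrictScalars F, σ,
    fun a b hab => smul_left_injective K he0 (g.1.injective hab), ?_,
    fun κ => Submodule.mem_map_of_mem (smul_mem_pt κ e), by simp, fun κ => by simpa [h7] using h6 κ⟩
  rintro _ ⟨y, hy, rfl⟩
  obtain ⟨κ, rfl⟩ := mem_pt.1 hy
  exact ⟨κ, rfl⟩

theorem map_eq {X D : Submodule F V} (hX : IsX q M X) {s : O Q} (hs : s ∈ M) (hD : D ≤ X)
    (hd : finrank F D = d) (h1 : ∀ y ∈ D, s.1 y = y) {x : V} (hx : x ∈ X) (hx' : s.1 x ∈ X)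
    (hx'' : s.1 x ∉ D) : X.map (s.1 : V →ₗ[F] V) = X := by
  by_contra h0
  have h2 := c.max _ _ (hX.map hs) hX h0
  have h3 : D < X.map (s.1 : V →ₗ[F] V) ⊓ X :=
    lt_of_le_of_ne (fun y hy => ⟨⟨y, hD hy, h1 y hy⟩, hD hy⟩) fun h3 =>
      hx'' (h3 ▸ ⟨⟨x, hx, rfl⟩, hx'⟩)
  have := Submodule.finrank_lt_finrank_of_lt h3
  omega

variable {u f z : V} (hf : Fr3 q u f z)
include hf

theorem bad_pt {X : Submodule F V} (hX : IsX q M X) (hXd : finrank F ↥(X ⊓ pt F K u) = d)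
    (hd : 0 < d) {x : V} (hx : x ∈ X) (hx' : x ∉ pt F K u) (hux : polar q u x = 0) :
    d = 1 ∧ ∃ l : K, l ≠ 0 ∧ X.map ((c.es.res (eich q u (l • z))).1 : V →ₗ[F] V) = X := by
  obtain ⟨d₀, ⟨hd₁, hd₂⟩, hd0⟩ := Submodule.exists_mem_ne_zero_of_ne_bot (p := X ⊓ pt F K u)
    fun h0 => by rw [h0, finrank_bot] at hXd; omega
  obtain ⟨δ, rfl⟩ := mem_pt.1 hd₂
  have hβ : polar q z x ≠ 0 := fun h0 => hx' (hf.mem_pt_of hux h0)
  have h1 : (eich q u ((δ / polar q z x) • z)).1 x = x + δ • u := by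
    rw [hf.eich_perp _ hux, div_mul_cancel₀ _ hβ]
  have h2 := c.es.map_eich_eq c.le c.max hX hf.qu (hf.uz' _) hXd hx hx' (h1 ▸ add_mem hx hd₁)
  refine ⟨?_, _, div_ne_zero (left_ne_zero_of_smul hd0) hβ, h2⟩
  obtain ⟨ι, σ, hι, k1, k2, k3, k4⟩ := c.exists_sigma hX (c.es.eich_mem c.le _ _)
    (fun y hy => h2 ▸ Submodule.mem_map_of_mem hy) hd₁ hd0 (hf.eich_pt _ hd₂)
  have hσ : σ ≠ 1 := by
    rintro rfl
    obtain ⟨κ, rfl⟩ := k1 x hx
    have := k4 κ
    rw [EStr.res_apply, h1] at this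
    exact hd0 (by simpa using this)
  rw [← hXd, ← finrank_span_singleton (K := F) hd0]
  suffices X ⊓ pt F K u = F ∙ δ • u by rw [this]
  refine le_antisymm (fun y hy => ?_) ((Submodule.span_singleton_le_iff_mem _ _).2 ⟨hd₁, hd₂⟩)
  obtain ⟨κ, rfl⟩ := k1 y hy.1
  have := k4 κ
  rw [EStr.res_apply, hf.eich_pt _ hy.2, hι.eq_iff] at this
  obtain ⟨a, rfl⟩ := gal_fixed c.es.prime hσ this.symm
  rw [Algebra.algebraMap_eq_smul_one, map_smul, k3]
  exact Submodule.smul_mem _ _ (Submodule.mem_span_singleton_self _)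

theorem bad {X Y : Submodule F V} (hX : IsX q M X) (hY : IsX q M Y) (hXd : finrank F ↥(X ⊓ Y) = d)
    (hd : 0 < d) {x : V} (hx : x ∈ X) (hx' : x ∉ Y) (hux : ∀ y ∈ Y, polar Q y x = 0) :
    d = 1 ∧ ∃ X, IsX q M X ∧ X ≠ pt F K u ∧ ∃ l : K, l ≠ 0 ∧
      X.map ((c.es.res (eich q u (l • z))).1 : V →ₗ[F] V) = X := by
  obtain ⟨g, hg, rfl⟩ := c.exists_map hY hf.u0 hf.qu
  have h1 : (g⁻¹).1 x ∉ pt F K u := fun h0 => hx' ⟨_, h0, by simp⟩
  have h2 : (g⁻¹).1 x ∈ X.map ((g⁻¹).1 : V →ₗ[F] V) := Submodule.mem_map_of_mem hx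
  obtain ⟨h3, h4⟩ := c.bad_pt hf (hX.map (inv_mem hg)) (by rw [finrank_inf_map, hXd]) hd h2 h1
    (c.es.eq_zero_of_forall fun κ => by
      rw [← O.polar_left]; exact hux _ (Submodule.mem_map_of_mem (smul_mem_pt κ u)))
  exact ⟨h3, _, hX.map (inv_mem hg), fun h0 => h1 (h0 ▸ h2), h4⟩

section Z

variable {s : O Q} (hs : s ∈ M) (h1 : ∀ x, polar q u x = 0 → s.1 x = x)
include h1

theorem sub_mem_pt (y : V) : s.1 y - y ∈ pt F K u := by
  rw [← perp_perp c.es.nd (pt F K u)]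
  refine mem_perp.2 fun w hw => ?_
  rw [polar_sub_right, ← h1 w (c.es.mem_perp_pt.1 hw), O.map_polar, h1 w (c.es.mem_perp_pt.1 hw),
    sub_self]

theorem fix_iff (y : V) : s.1 y = y ↔ s.1 (polar q u y • f) = polar q u y • f := by
  have h2 := h1 (y - polar q u y • f) (by
    rw [polar_sub_right, polar_smul_right', hf.hyp.polar_eq, mul_one, sub_self])
  rw [map_sub] at h2
  constructor <;> intro h3 <;> rw [h3] at h2
  · exact sub_right_injective h2
  · exact sub_left_injective h2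

theorem exists_fix : ∃ κ : K, κ ≠ 0 ∧ s.1 (κ • f) = κ • f := by
  let j : K →ₗ[F] V := (LinearMap.toSpanSingleton K V f).restrictScalars F
  obtain ⟨κ, h0, h2⟩ := exists_rad_of_odd c.es.two c.odd
    ((polarBilin Q).compl₁₂ j (((s.1 : V →ₗ[F] V) - LinearMap.id) ∘ₗ j)) fun κ => by
      obtain ⟨a, ha⟩ := mem_pt.1 (c.sub_mem_pt hf h1 (κ • f))
      have k1 := O.map_Q s (κ • f)
      rw [← sub_add_cancel (s.1 (κ • f)) (κ • f), ← ha, Q_add,
        c.es.Q_smul_eq_zero hf.qu] at k1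
      change polar Q (κ • f) (s.1 (κ • f) - κ • f) = 0
      rw [← ha, polar_comm]
      linear_combination k1
  refine ⟨κ, h0, ?_⟩
  obtain ⟨a, ha⟩ := mem_pt.1 (c.sub_mem_pt hf h1 (κ • f))
  have k1 := c.es.eq_zero_of_forall (u := f) (v := a • u) fun l => ha ▸ h2 l
  rw [polar_smul_right', hf.hyp.polar_eq', mul_one] at k1
  rw [← sub_eq_zero, ← ha, k1, zero_smul]

include hs

theorem fix_of_fix {X : Submodule F V} (hX : IsX q M X) (hXd : finrank F ↥(X ⊓ pt F K u) = d)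
    {x : V} (hx : x ∈ X) (hx' : x ∉ pt F K u) (h2 : s.1 x = x) : ∀ y ∈ X, s.1 y = y := by
  have h3 := c.map_eq hX hs inf_le_left hXd (fun y hy => h1 y (hf.pu_pt hy.2)) hx (h2.symm ▸ hx)
    (fun h0 => hx' (h2 ▸ h0.2))
  obtain ⟨ι, σ, hι, k1, k2, k3, k4⟩ := c.exists_sigma hX hs
    (fun y hy => h3 ▸ Submodule.mem_map_of_mem hy) hx (by rintro rfl; exact hx' (zero_mem _)) h2
  have h4 : ∀ κ, σ (σ κ - κ) = σ κ - κ := fun κ => hι (by
    rw [← k4, map_sub, ← k4]; exact h1 _ (hf.pu_pt (c.sub_mem_pt hf h1 _)))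
  intro y hy
  obtain ⟨l, rfl⟩ := k1 y hy
  have h7 := h4 (l * l)
  have h8 := h4 l
  simp only [map_sub, map_mul] at h7 h8
  rw [k4, eq_of_sub_eq_zero ((pow_eq_zero_iff two_ne_zero).1 ((mul_eq_zero.1
    (show 2 * (σ l - l) ^ 2 = 0 by
      linear_combination h7 - (σ (σ l) + 2 * σ l - l) * h8)).resolve_left c.es.two'))]

theorem rank_one (hs1 : s ≠ 1) {X : Submodule F V} (hX : IsX q M X)
    (hXd : finrank F ↥(X ⊓ pt F K u) = d) (hg : ∀ x ∈ X, polar q u x = 0 → x ∈ pt F K u)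
    {x : V} (hx : x ∈ X) (hx' : x ∉ pt F K u) {y : V} (hy : y ∈ X) :
    ∃ a : F, y - a • x ∈ pt F K u := by
  let j : K →ₗ[F] V := (LinearMap.toSpanSingleton K V f).restrictScalars F
  let Φ := LinearMap.ker (((s.1 : V →ₗ[F] V) - LinearMap.id) ∘ₗ j)
  have hΦ : ∀ κ, κ ∈ Φ ↔ s.1 (κ • f) = κ • f := fun κ => sub_eq_zero
  have hβ : polar q u x ≠ 0 := fun h0 => hx' (hg x hx h0)
  obtain ⟨a, ha⟩ := Linear.mem_range_of_mul_mem c.es.prime (Δ := Φ) (fun h0 => by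
    obtain ⟨κ, k1, k2⟩ := c.exists_fix hf h1
    exact k1 ((Submodule.eq_bot_iff _).1 h0 κ ((hΦ κ).2 k2))) (fun h0 => hs1 (O.ext fun w =>
      (c.fix_iff hf h1 w).2 ((hΦ _).1 (h0 ▸ Submodule.mem_top)))) (l := polar q u y / polar q u x)
    fun κ hκ => by
      rcases eq_or_ne κ 0 with rfl | h0
      · simp
      obtain ⟨b, t, ht, hb⟩ := exists_eq_mul_sq c.es.two c.odd (div_ne_zero h0 hβ)
      have hb0 : b ≠ 0 := by
        rintro rfl
        simp [h0, hβ, ht] at hb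
      have ht2 := pow_ne_zero 2 ht
      set T := c.es.res (hrot q u f (t ^ 2))
      have k1 : ∀ w, polar q u (T.1 w) = polar q u w / t ^ 2 := fun w => by
        rw [eq_div_iff ht2, ← O.map_polar (hrot q u f (t ^ 2)) u w, hf.hyp.hrot_left ht2,
          polar_smul_left', mul_comm]
        rfl
      have k2 : (pt F K u).map (T.1 : V →ₗ[F] V) = pt F K u := map_pt_eq hf.u0 hf.u0 fun κ => by
        rw [EStr.res_apply, map_smul, hf.hyp.hrot_left ht2, smul_smul]; exact smul_mem_pt _ _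
      have k3 := c.fix_of_fix hf hs h1 (hX.map (c.es.hrot_mem c.le c.three.ge hf.hyp ht))
        (by
          have k3 := Submodule.map_inf (p := X) (q := pt F K u) (T.1 : V →ₗ[F] V) T.1.injective
          rw [k2] at k3
          rw [← k3, LinearEquiv.finrank_map_eq, hXd])
        (Submodule.mem_map_of_mem hx) (fun h0 => hβ (by
          have := hf.pu_pt h0
          rw [LinearEquiv.coe_coe, k1] at this
          simpa [ht2] using this)) (by
          rw [c.fix_iff hf h1, LinearEquiv.coe_coe, k1, ← hΦ]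
          convert Φ.smul_mem b⁻¹ hκ using 1
          rw [Algebra.smul_def, map_inv₀, hb]
          field_simp) _ (Submodule.mem_map_of_mem hy)
      rw [c.fix_iff hf h1, LinearEquiv.coe_coe, k1, ← hΦ] at k3
      convert Φ.smul_mem b k3 using 1
      rw [Algebra.smul_def, hb]
      field_simp
  refine ⟨a, hg _ (sub_mem hy (X.smul_mem a hx)) ?_⟩
  rw [polar_sub_right, ← algebraMap_smul K, polar_smul_right', ha, div_mul_cancel₀ _ hβ, sub_self]

end Z

end Ctx3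

end Cfsg.Lib.OMax
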