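import Cfsg.Agent.Lib.OMax.ExtF

/-!
# `O₃(K)` inside `Ω`: the stabiliser of a `K`-point
-/

namespace Cfsg.Lib.OMax

open QuadraticMap Module Cfsg.Lib.Orth

set_option linter.unusedSectionVars false

variable {F V : Type*} [Field F] [AddCommGroup V] [Module F V] {Q : QuadraticForm F V}
  {K : Type*} [Field K] [Module K V] [Algebra F K] [IsScalarTower F K V]
  {q : QuadraticForm K V} {τ : K →ₗ[F] F}

namespace Ctx3

variable [Finite F] [FiniteDimensional F V] [Finite K] [FiniteDimensional K V]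
  {M : Subgroup (O Q)} {d : ℕ} (c : Ctx3 Q q τ M d) {u f z : V} (hf : Fr3 q u f z)
include c hf

theorem exists_pair_at : ∃ X, IsX q M X ∧ X ≠ pt F K u ∧ finrank F ↥(X ⊓ pt F K u) = d := by
  obtain ⟨X, Y, hX, hY, h1, h2⟩ := c.ex
  obtain ⟨g, hg, rfl⟩ := c.exists_map hY hf.u0 hf.qu
  exact ⟨_, hX.map (inv_mem hg), fun h0 => h1 (by rw [← h0]; exact (map_inv_map g⁻¹ X).symm),
    by rw [finrank_inf_map, h2]⟩

theorem exists_not_mem {X : Submodule F V} (hX : IsX q M X) (h : X ≠ pt F K u) :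
    ∃ x ∈ X, x ∉ pt F K u :=
  SetLike.not_le_iff_exists.1 fun h0 =>
    h (Submodule.eq_of_le_of_finrank_eq h0 (by rw [hX.finrank_eq, finrank_pt hf.u0]))

omit hf in
theorem exists_sing {a : K} : ∃ l : K, l ≠ 0 ∧ τ (l * l * a) = 0 := by
  have := c.three_le
  have : Module.Finite F K := Module.finite_of_finrank_pos (by omega)
  obtain ⟨l, h1, h2⟩ := exists_ne_zero_of_two_mul_lt (F := F) (W := K) (Y := F) 0
    ((LinearMap.mul F K).compr₂ (τ ∘ₗ LinearMap.mulRight F a)) (by rw [finrank_self]; omega)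
  exact ⟨l, h1, by simpa using h2⟩

theorem z_eq_one {s : O Q} (hs : s ∈ M) (h1 : ∀ x, polar q u x = 0 → s.1 x = x) : s = 1 := by
  by_contra hs1
  rcases le_or_gt d 1 with hd | hd
  · obtain ⟨k, hk, a, -, ha⟩ := c.exists_move hf.u0 hf.qu hf.symm.u0 hf.symm.qu
    have h2 : ∀ κ : K, polar q f (s.1 (κ • f)) = 0 → s.1 (κ • f) = κ • f := fun κ h0 => by
      obtain ⟨b, hb⟩ := mem_pt.1 (c.sub_mem_pt hf h1 (κ • f))
      have := congrArg (polar q f) hb
      rw [polar_smul_right', polar_sub_right, h0, polar_smul_right', hf.hyp.polar_right,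
        hf.hyp.polar_eq', mul_one, mul_zero, sub_zero] at this
      rw [← sub_eq_zero, ← hb, this, zero_smul]
    have hX := (isX_pt (M := M) hf.symm.u0 hf.symm.qu).map hs
    have hX' : (pt F K f).map (s.1 : V →ₗ[F] V) ≠ pt F K f := fun h0 =>
      hs1 (O.ext fun w => (c.fix_iff hf h1 w).2 (h2 _ (hf.symm.pu_pt (F := F)
        (h0 ▸ Submodule.mem_map_of_mem (smul_mem_pt _ f)))))
    obtain ⟨κ, hκ0, hκ⟩ := c.exists_fix hf h1
    have h3 := c.max _ _ hX (isX_pt hf.symm.u0 hf.symm.qu) hX'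
    have h4 : 0 < finrank F ↥((pt F K f).map (s.1 : V →ₗ[F] V) ⊓ pt F K f) :=
      Nat.pos_of_ne_zero fun h0 => smul_ne_zero hκ0 hf.symm.u0 ((Submodule.eq_bot_iff _).1
        (Submodule.finrank_eq_zero.1 h0) _ ⟨⟨_, smul_mem_pt κ f, hκ⟩, smul_mem_pt κ f⟩)
    obtain ⟨x, hx, hx'⟩ := c.exists_not_mem hf.symm hX hX'
    have h5 : (pt F K f).map (s.1 : V →ₗ[F] V) ≤
        ((pt F K f).map (s.1 : V →ₗ[F] V) ⊓ pt F K f) ⊔ F ∙ x := fun y hy => by
      obtain ⟨b, hb⟩ := c.rank_one hf.symm (s := c.es.res k * s * (c.es.res k)⁻¹)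
        (mul_mem (mul_mem hk hs) (inv_mem hk)) (fun w hw => by
          rw [O.mul_apply, O.mul_apply, h1, O.apply_inv_apply]
          rw [← map_inv, EStr.res_apply, ← O.polar_left, ha, polar_smul_left', hw, mul_zero])
        (by simpa [mul_inv_eq_iff_eq_mul]) hX (by omega) (by
          rintro _ ⟨w, hw, rfl⟩ h0
          obtain ⟨l, rfl⟩ := mem_pt.1 hw
          exact (h2 l h0).symm ▸ hw) hx hx' hy
      rw [← sub_add_cancel y (b • x)]
      exact Submodule.add_mem_sup ⟨sub_mem hy (Submodule.smul_mem _ _ hx), hb⟩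
        (Submodule.smul_mem _ _ (Submodule.mem_span_singleton_self x))
    have k1 := Submodule.finrank_mono h5
    have k2 := Submodule.finrank_add_le_finrank_add_finrank
      ((pt F K f).map (s.1 : V →ₗ[F] V) ⊓ pt F K f) (F ∙ x)
    have k3 := finrank_span_singleton (K := F) (v := x) (by rintro rfl; exact hx' (zero_mem _))
    have := hX.finrank_eq
    have := c.three_le
    omega
  obtain ⟨X, hX, hX', hXd⟩ := c.exists_pair_at hf
  have hg : ∀ x ∈ X, polar q u x = 0 → x ∈ pt F K u := fun x hx h0 => by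
    by_contra h2
    have := (c.bad_pt hf hX hXd (by omega) hx h2 h0).1
    omega
  obtain ⟨x, hx, hx'⟩ := c.exists_not_mem hf hX hX'
  have hβ : polar q u x ≠ 0 := fun h0 => hx' (hg x hx h0)
  obtain ⟨l, hl0, hl⟩ := c.exists_sing (a := polar q u x ^ 2 * q z)
  set a := c.es.res (eich q u (l • z))
  have ha : a ∈ M := c.es.eich_mem c.le _ _
  have h2 : a.1 x - x = (l * polar q z x - l ^ 2 * q z * polar q u x) • u -
      (l * polar q u x) • z := by
    rw [EStr.res_apply, hf.eich_ap]; abel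
  have h3 : a.1 x ∉ X := fun h0 => by
    have := hf.pz_pt (hg _ (sub_mem h0 hx) (by simp [h2, polar_sub_right, hf.uz, hf.qu]))
    simp [h2, polar_sub_right, hf.zu, hl0, hβ, hf.two, hf.ne] at this
  have h4 : polar Q x (a.1 x) = 0 := by
    have k1 : Q (a.1 x - x) = 0 := by
      rw [h2, c.es.Q_eq, sub_eq_add_neg, add_comm, Q_add_smul_of_singular hf.qu (by simp [hf.uz]),
        QuadraticMap.map_neg, Q_smul, ← hl]
      congr 1
      ring
    have k2 := Q_add Q (a.1 x - x) x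
    rw [sub_add_cancel, O.map_Q, k1, polar_sub_left, polar_self', c.es.ts_of_isX hX x hx] at k2
    rw [polar_comm]
    linear_combination -k2
  have h5 : ∀ y ∈ pt F K u, a.1 y = y := fun y hy => hf.eich_pt l hy
  have h6 : finrank F ↥(X.map (a.1 : V →ₗ[F] V) ⊓ X) = d :=
    le_antisymm (c.max _ _ (hX.map ha) hX fun h0 => h3 (h0 ▸ Submodule.mem_map_of_mem hx))
      (hXd ▸ Submodule.finrank_mono fun y hy => ⟨⟨y, hy.1, h5 y hy.2⟩, hy.1⟩)
  have := (c.bad hf (hX.map ha) hX h6 (by omega) (Submodule.mem_map_of_mem hx) h3 fun y hy => by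
    obtain ⟨b, hb⟩ := c.rank_one hf hs h1 hs1 hX hXd hg hx hx' hy
    rw [← sub_add_cancel y (b • x), polar_add_left, polar_smul_left', LinearEquiv.coe_coe, h4,
      ← h5 _ hb, O.map_polar,
      (c.es.ts_of_isX hX).polar_eq (sub_mem hy (Submodule.smul_mem _ _ hx)) hx]
    simp).1
  omega

theorem eq_eich {y : O Q} (hy : y ∈ M) (h1 : ∀ x ∈ pt F K u, y.1 x = x)
    (h2 : ∀ x, polar q u x = 0 → y.1 x - x ∈ pt F K u) :
    ∃ l : K, y = c.es.res (eich q u (l • z)) := by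
  have h3 : ∀ x, polar q u x = 0 → polar q u (y.1 x) = 0 ∧ polar q z (y.1 x) = polar q z x :=
    fun x hx => ⟨by have := hf.pu_pt (h2 x hx); rwa [polar_sub_right, hx, sub_zero] at this,
      by have := hf.pz_pt (h2 x hx); rwa [polar_sub_right, sub_eq_zero] at this⟩
  have h4 : ∀ l : K, y * c.es.res (eich q u (l • z)) = c.es.res (eich q u (l • z)) * y := fun l => by
    have ha := c.es.eich_mem c.le u (l • z)
    rw [← mul_inv_eq_one, mul_inv_rev, ← mul_assoc]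
    refine c.z_eq_one hf (mul_mem (mul_mem (mul_mem hy ha) (inv_mem hy)) (inv_mem ha)) fun x hx => ?_
    rw [mul_assoc, ← mul_inv_rev]
    obtain ⟨w, rfl⟩ := (c.es.res (eich q u (l • z)) * y).1.surjective x
    have hw : polar q u w = 0 := c.es.eq_zero_of_forall fun κ => by
      rw [← O.map_polar (c.es.res (eich q u (l • z)) * y), O.mul_apply, h1 _ (smul_mem_pt κ u),
        EStr.res_apply, hf.eich_pt l (smul_mem_pt (F := F) κ u), c.es.polar_eq_zero hx]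
    rw [O.mul_apply, O.inv_apply_apply, O.mul_apply, O.mul_apply, EStr.res_apply, EStr.res_apply,
      hf.eich_perp l hw, hf.eich_perp l (h3 w hw).1, map_add, h1 _ (smul_mem_pt _ u), (h3 w hw).2]
  have h5 : polar q u (y.1 f) = 1 := eq_of_coef c.es.ne fun κ => by
    rw [← c.es.polar_smul, ← h1 _ (smul_mem_pt κ u), O.map_polar, c.es.polar_smul, hf.hyp.polar_eq]
  have h6 : ∀ κ : K, y.1 (κ • z) = κ • z - (κ * polar q z (y.1 f)) • u := fun κ => by
    have k1 := congrArg (fun g : O Q => g.1 f) (h4 κ)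
    simp only [O.mul_apply, EStr.res_apply, hf.eich_ap, h5, hf.zf, hf.hyp.polar_eq, map_sub,
      map_add, h1 _ (smul_mem_pt _ u), mul_one] at k1
    linear_combination (norm := module) -k1
  refine ⟨-polar q z (y.1 f) / polar q z z, ?_⟩
  rw [← mul_inv_eq_one]
  refine c.z_eq_one hf (mul_mem hy (inv_mem (c.es.eich_mem c.le _ _))) fun x hx => ?_
  rw [← map_inv, hf.eich_inv, O.mul_apply, EStr.res_apply, hf.eich_perp _ hx]
  obtain ⟨a, b, e, rfl⟩ := hf.decomp x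
  rw [hf.pu] at hx
  have := hf.zz
  rw [hf.pz, hx, zero_smul, add_zero, map_add, map_add, h1 _ (smul_mem_pt _ u),
    h1 _ (smul_mem_pt _ u), h6, show -(-polar q z (y.1 f) / polar q z z) * (e * polar q z z) =
      e * polar q z (y.1 f) by field_simp]
  abel

omit hf in
theorem perp_map {g : O Q} (hu : u ≠ 0) (h1 : ∀ κ : K, g.1 (κ • u) ∈ pt F K u) (x : V) :
    polar q u (g.1 x) = 0 ↔ polar q u x = 0 := by
  have h2 := map_pt_eq hu hu h1
  refine ⟨fun hx => c.es.eq_zero_of_forall fun κ => ?_, fun hx => c.es.eq_zero_of_forall fun κ => ?_⟩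
  · obtain ⟨a, ha⟩ := mem_pt.1 (h1 κ)
    rw [← O.map_polar g, ← ha, c.es.polar_eq_zero hx]
  · obtain ⟨y, hy, hy'⟩ := Submodule.mem_map.1 (h2 ▸ smul_mem_pt κ u)
    obtain ⟨a, rfl⟩ := mem_pt.1 hy
    rw [← hy', LinearEquiv.coe_coe, O.map_polar, c.es.polar_eq_zero hx]

theorem exists_conj {g : O Q} (hg : g ∈ M) (h1 : ∀ κ : K, g.1 (κ • u) ∈ pt F K u) :
    ∃ (σ : K ≃ₐ[F] K) (ν μ : K), ν ≠ 0 ∧ μ ≠ 0 ∧ (∀ κ : K, g.1 (κ • u) = (σ κ * ν) • u) ∧
      (∀ x, polar q u x = 0 → μ * polar q z (g.1 x) = σ (polar q z x) * ν) ∧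
      ∀ l : K, g * c.es.res (eich q u (l • z)) = c.es.res (eich q u ((σ l * μ) • z)) * g := by
  obtain ⟨σ, ν, hν, h2⟩ := c.es.exists_sigma c.le c.three.ge c.nb hf.u0 hf.qu hg h1
  have h3 := c.perp_map hf.u0 h1
  have h4 : ∀ l : K, ∃ m : K, g * c.es.res (eich q u (l • z)) =
      c.es.res (eich q u (m • z)) * g := fun l => by
    obtain ⟨m, hm⟩ := c.eq_eich hf (mul_mem (mul_mem hg (c.es.eich_mem c.le u (l • z))) (inv_mem hg))
      (fun x hx => by
        rw [← map_pt_eq hf.u0 hf.u0 h1] at hx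
        obtain ⟨w, hw, rfl⟩ := hx
        rw [O.mul_apply, LinearEquiv.coe_coe, O.inv_apply_apply, O.mul_apply, EStr.res_apply,
          hf.eich_pt l hw]) fun x hx => by
        obtain ⟨w, rfl⟩ := g.1.surjective x
        rw [O.mul_apply, O.inv_apply_apply, O.mul_apply, EStr.res_apply,
          hf.eich_perp l ((h3 w).1 hx), map_add, add_sub_cancel_left]
        exact h1 _
    exact ⟨m, mul_inv_eq_iff_eq_mul.1 hm⟩
  have h5 : ∀ l m : K, g * c.es.res (eich q u (l • z)) = c.es.res (eich q u (m • z)) * g →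
      ∀ x, polar q u x = 0 → m * polar q z (g.1 x) = σ l * σ (polar q z x) * ν :=
    fun l m hm x hx => by
      have k1 := congrArg (fun g : O Q => g.1 x) hm
      simp only [O.mul_apply, EStr.res_apply, hf.eich_perp l hx, hf.eich_perp m ((h3 x).2 hx),
        map_add, h2, map_mul, add_right_inj] at k1
      exact (smul_left_injective K hf.u0 k1).symm
  obtain ⟨μ, hμ⟩ := h4 1
  have h6 := h5 1 μ hμ
  simp only [map_one, one_mul] at h6
  have h7 : μ * polar q z (g.1 z) ≠ 0 := by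
    rw [h6 z hf.uz]; exact mul_ne_zero ((map_ne_zero σ).2 hf.zz) hν
  refine ⟨σ, ν, μ, hν, left_ne_zero_of_mul h7, h2, h6, fun l => ?_⟩
  obtain ⟨m, hm⟩ := h4 l
  rw [hm, show m = σ l * μ from mul_right_cancel₀ (right_ne_zero_of_mul h7) (by
    rw [h5 l m hm z hf.uz, mul_assoc, mul_assoc, h6 z hf.uz])]

end Ctx3

theorem shear_inv {G : Type*} [Group G] {a a₀ b e : G} (hc : a * a₀ = a₀ * a)
    (hb1 : b * a₀ * b⁻¹ = a₀) (hb2 : b * a * b⁻¹ = a₀ * a) (he1 : e * a * e⁻¹ = a)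
    (he2 : e * a₀ * e⁻¹ = a * a₀) :
    b * e⁻¹ * b * (b * e⁻¹ * b) * a₀ = a₀⁻¹ * (b * e⁻¹ * b * (b * e⁻¹ * b)) ∧
      a * (b * e⁻¹ * b * (b * e⁻¹ * b)) * a = b * e⁻¹ * b * (b * e⁻¹ * b) := by
  have e1 : e⁻¹ * a * e = a := by nth_rw 1 [← he1]; group
  have e2 : e⁻¹ * a₀ * e = a⁻¹ * a₀ := by
    calc _ = (e⁻¹ * a * e)⁻¹ * (e⁻¹ * (a * a₀) * e) := by group
      _ = _ := by rw [e1, ← he2]; group
  set w := b * e⁻¹ * b
  have w1 : w * a * w⁻¹ = a₀ := by
    calc _ = b * (e⁻¹ * (b * a * b⁻¹) * e) * b⁻¹ := by simp only [w]; group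
      _ = b * ((e⁻¹ * a₀ * e) * (e⁻¹ * a * e)) * b⁻¹ := by rw [hb2]; group
      _ = a₀ := by rw [e1, e2, mul_assoc a⁻¹, ← hc, inv_mul_cancel_left, hb1]
  have w2 : w * a₀ * w⁻¹ = a⁻¹ := by
    calc _ = b * (e⁻¹ * (b * a₀ * b⁻¹) * e) * b⁻¹ := by simp only [w]; group
      _ = (b * a * b⁻¹)⁻¹ * (b * a₀ * b⁻¹) := by nth_rw 1 [hb1]; rw [e2]; group
      _ = a⁻¹ := by rw [hb1, hb2]; group
  constructor
  · rw [← mul_inv_eq_iff_eq_mul]
    calc _ = w * (w * a₀ * w⁻¹) * w⁻¹ := by group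
      _ = (w * a * w⁻¹)⁻¹ := by rw [w2]; group
      _ = _ := by rw [w1]
  · have : w * w * a * (w * w)⁻¹ = a⁻¹ := by rw [← w2, ← w1]; group
    rw [mul_assoc, mul_inv_eq_iff_eq_mul.1 this, mul_inv_cancel_left]

/-- The conjugates of the unipotent elements of `O₃(K)`. -/
def IsA3 (h : EStr Q q τ) (M : Subgroup (O Q)) (a : O Q) : Prop :=
  ∃ g ∈ M, ∃ u f z, Fr3 q u f z ∧ a = g * h.res (eich q u ((1 : K) • z)) * g⁻¹

namespace Ctx3

variable [Finite F] [FiniteDimensional F V] [Finite K] [FiniteDimensional K V]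
  {M : Subgroup (O Q)} {d : ℕ} (c : Ctx3 Q q τ M d) {u f z : V}
include c

omit c in
theorem exists_char : ∃ p : ℕ, p.Prime ∧ CharP F p ∧ CharP K p := by
  obtain ⟨p, hp⟩ := CharP.exists F
  exact ⟨p, CharP.char_is_prime F p, hp, charP_of_injective_algebraMap (algebraMap F K).injective p⟩

theorem eich_pow_char (hf : Fr3 q u f z) (p : ℕ) [CharP K p] (l : K) :
    c.es.res (eich q u (l • z)) ^ p = 1 := by
  rw [← map_pow, hf.eich_pow, CharP.cast_eq_zero, zero_mul, zero_smul, eich_zero, map_one]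

theorem conj_inj (hf : Fr3 q u f z) {g : O Q} {l m : K}
    (h : c.es.res (eich q u (l • z)) * g = c.es.res (eich q u (m • z)) * g) : l = m :=
  hf.eich_inj (congrArg (fun g : O Q => g.1 z) (mul_right_cancel h))

/-- The nilpotent operator attached to a `p`-element normalising a `K`-point. -/
theorem nilp (hf : Fr3 q u f z) {p : ℕ} [Fact p.Prime] [CharP F p] {g : O Q} (hp : g ^ p = 1)
    {σ : K ≃ₐ[F] K} {μ : K}
    (h : ∀ l : K, g * c.es.res (eich q u (l • z)) = c.es.res (eich q u ((σ l * μ) • z)) * g) :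
    (LinearMap.mulRight F μ * σ.toLinearMap - 1) ^ p = 0 := by
  refine sub_one_pow_of_pow (LinearMap.ext fun l => ?_)
  have h1 : ∀ n : ℕ, g ^ n * c.es.res (eich q u (l • z)) =
      c.es.res (eich q u (((LinearMap.mulRight F μ * σ.toLinearMap) ^ n) l • z)) * g ^ n := fun n => by
    induction n with
    | zero => simp
    | succ n ih => rw [pow_succ', mul_assoc, ih, ← mul_assoc, h, mul_assoc, pow_succ']; rfl
  have h2 := h1 p
  rw [hp, one_mul, ← mul_one (c.es.res _)] at h2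
  exact (c.conj_inj hf h2).symm

theorem mem_pt_of_comm (hf : Fr3 q u f z) {g : O Q} {l : K} (hl : l ≠ 0)
    (h : g * c.es.res (eich q u ((1 : K) • z)) = c.es.res (eich q u (l • z)) * g) (κ : K) :
    g.1 (κ • u) ∈ pt F K u := by
  refine hf.mem_pt_of_fix hl ?_
  have k1 := congrArg (fun g : O Q => g.1 (κ • u)) h
  simpa only [O.mul_apply, EStr.res_apply, hf.eich_pt 1 (smul_mem_pt (F := F) κ u), eq_comm]
    using k1

theorem sigma_ne_one (hf : Fr3 q u f z) {p : ℕ} [Fact p.Prime] [CharP K p] {g : O Q}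
    (hp : g ^ p = 1) {σ : K ≃ₐ[F] K} {ν : K} (h : ∀ κ : K, g.1 (κ • u) = (σ κ * ν) • u)
    (h1 : ∃ v ∈ pt F K u, g.1 v ≠ v) : σ ≠ 1 := by
  rintro rfl
  have h2 : ∀ n : ℕ, (g ^ n).1 ((1 : K) • u) = ν ^ n • u := fun n => by
    induction n with
    | zero => simp [O.one_apply]
    | succ n ih => rw [pow_succ', O.mul_apply, ih, h, pow_succ]; rfl
  have h3 := h2 p
  rw [hp, O.one_apply] at h3
  have h4 : (ν - 1) ^ p = 0 := by
    rw [sub_pow_char, ← smul_left_injective K hf.u0 h3, one_pow, sub_self]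
  obtain ⟨v, hv, hv'⟩ := h1
  obtain ⟨κ, rfl⟩ := mem_pt.1 hv
  exact hv' (by rw [h, sub_eq_zero.1 (pow_eq_zero_iff (Fact.out : p.Prime).ne_zero |>.1 h4)]; simp)

theorem exists_shear {p : ℕ} [Fact p.Prime] [CharP F p] [CharP K p] {a₀ a : O Q}
    (h0 : IsA3 c.es M a₀) (ha : a ∈ M) (hp : a ^ p = 1) (hc : a * a₀ = a₀ * a)
    (h1 : ∃ v, a₀.1 v = v ∧ a.1 v ≠ v) : ∃ b ∈ M, b * a₀ * b⁻¹ = a₀ ∧ b * a * b⁻¹ = a₀ * a := by
  obtain ⟨g, hg, u, f, z, hf, rfl⟩ := h0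
  obtain ⟨a, rfl⟩ : ∃ a', a = g * a' * g⁻¹ := ⟨g⁻¹ * a * g, by group⟩
  rw [conj_pow, mul_inv_eq_one, mul_eq_left] at hp
  rw [conj_mul, conj_mul, mul_left_inj, mul_right_inj] at hc
  have ha' : a ∈ M := by simpa [mul_assoc] using mul_mem (mul_mem (inv_mem hg) ha) hg
  obtain ⟨σ, ν, μ, -, -, h2, -, h3⟩ := c.exists_conj hf ha' (c.mem_pt_of_comm hf one_ne_zero hc)
  have hμ : μ = 1 := by simpa using c.conj_inj hf ((h3 1).symm.trans hc)
  have hσ := c.sigma_ne_one hf hp h2 (by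
    obtain ⟨v, k1, k2⟩ := h1
    obtain ⟨v, rfl⟩ := g.1.surjective v
    simp only [O.mul_apply, O.inv_apply_apply, ne_eq, g.1.injective.eq_iff] at k1 k2
    exact ⟨v, hf.mem_pt_of_fix one_ne_zero k1, k2⟩)
  have h4 := c.nilp hf hp h3
  obtain ⟨y₀, hy₀⟩ : ∃ y, σ y ≠ y := by
    by_contra! h0
    exact hσ (AlgEquiv.ext h0)
  set δ := LinearMap.mulRight F μ * σ.toLinearMap - 1
  have hδ : ∀ y, δ y = σ y - y := fun y => by simp [δ, hμ]
  obtain ⟨k, k1, k2⟩ := exists_last_of_pow h4 (y := δ y₀) (by rwa [hδ, sub_ne_zero])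
  obtain ⟨e, he⟩ := gal_fixed c.es.prime hσ (sub_eq_zero.1 ((hδ _).symm.trans k2))
  have he0 : e ≠ 0 := by rintro rfl; exact k1 (by rw [← he, map_zero])
  have h5 : σ (e⁻¹ • (δ ^ k) y₀) = e⁻¹ • (δ ^ k) y₀ + 1 := by
    rw [← sub_eq_iff_eq_add', ← hδ, map_smul, ← Module.End.mul_apply, ← pow_succ', pow_succ,
      Module.End.mul_apply, ← he, Algebra.smul_def, ← map_mul, inv_mul_cancel₀ he0, map_one]
  set y := e⁻¹ • (δ ^ k) y₀
  have h6 := h3 y
  rw [h5, hμ, mul_one, hf.eich_mul, map_mul] at h6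
  refine ⟨g * (c.es.res (eich q u (y • z)))⁻¹ * g⁻¹,
    mul_mem (mul_mem hg (inv_mem (c.es.eich_mem c.le _ _))) (inv_mem hg), ?_, ?_⟩
  · rw [conj_mul, conj_inv, conj_mul, inv_inv, mul_assoc _⁻¹, ← map_mul, ← hf.eich_mul, add_comm,
      hf.eich_mul, map_mul, inv_mul_cancel_left]
  · rw [conj_mul, conj_inv, conj_mul, inv_inv, mul_assoc _⁻¹, h6, conj_mul, mul_assoc (c.es.res _),
      inv_mul_cancel_left]

theorem map_ne (hf : Fr3 q u f z) {X : Submodule F V} (hX : IsX q M X) (hX' : X ≠ pt F K u) {l : K}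
    (hl : l ≠ 0) : X.map ((c.es.res (eich q u (l • z))).1 : V →ₗ[F] V) ≠ X := by
  intro h0
  obtain ⟨p, hp, _, _⟩ := exists_char (F := F) (K := K)
  have := Fact.mk hp
  obtain ⟨g, hg, rfl⟩ := c.exists_map hX hf.u0 hf.qu
  set a := g⁻¹ * c.es.res (eich q u (l • z)) * g⁻¹⁻¹ with ha
  have haM : a ∈ M := mul_mem (mul_mem (inv_mem hg) (c.es.eich_mem c.le _ _)) (inv_mem (inv_mem hg))
  have hap : a ^ p = 1 := by rw [ha, conj_pow, c.eich_pow_char hf, mul_one, mul_inv_cancel]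
  have ha1 : ∀ v, a.1 v = v ↔ g.1 v ∈ pt F K u := fun v => by
    rw [ha, O.mul_apply, O.mul_apply, O.inv_apply_eq, inv_inv]
    exact ⟨hf.mem_pt_of_fix hl, hf.eich_pt l⟩
  have ha2 : ∀ κ : K, a.1 (κ • u) ∈ pt F K u := fun κ => by
    obtain ⟨y, hy, hy'⟩ := h0 ▸ Submodule.mem_map_of_mem
      (f := ((c.es.res (eich q u (l • z))).1 : V →ₗ[F] V))
      (Submodule.mem_map_of_mem (f := (g.1 : V →ₗ[F] V)) (smul_mem_pt κ u))
    rw [ha, O.mul_apply, O.mul_apply, inv_inv]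
    exact ((O.inv_apply_eq g).2 hy'.symm).symm ▸ hy
  obtain ⟨σ, ν, μ, -, -, h2, -, h3⟩ := c.exists_conj hf haM ha2
  obtain ⟨k, k1, k2⟩ := exists_last_of_pow (c.nilp hf hap h3) one_ne_zero
  set m := ((LinearMap.mulRight F μ * σ.toLinearMap - 1) ^ k) 1
  have hm : σ m * μ = m := by simpa [sub_eq_zero] using k2
  set a₀ := c.es.res (eich q u (m • z)) with ha₀
  have hc : a * a₀ = a₀ * a := by rw [ha₀, h3, hm]
  have h4 : ∃ v ∈ pt F K u, a.1 v ≠ v := by
    by_contra! h4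
    exact hX' (map_pt_eq hf.u0 hf.u0 fun κ => (ha1 _).1 (h4 _ (smul_mem_pt κ u)))
  obtain ⟨b, hb, hb1, hb2⟩ := c.exists_shear (a₀ := a₀) ⟨1, one_mem _, u, f, _, hf.smul k1, by
    simp [ha₀]⟩ haM hap hc (h4.imp fun v hv => ⟨hf.eich_pt m hv.1, hv.2⟩)
  obtain ⟨e, he, he1, he2⟩ := c.exists_shear (a₀ := a) ⟨g⁻¹, inv_mem hg, u, f, _, hf.smul hl, by
    rw [one_smul]⟩ (c.es.eich_mem c.le _ _) (c.eich_pow_char hf p m) hc.symm (by
      obtain ⟨x, hx, hx'⟩ := c.exists_not_mem hf ((isX_pt hf.u0 hf.qu).map (inv_mem hg)) fun h0 =>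
        hX' (by rw [← h0]; exact (map_inv_map g⁻¹ _).trans h0.symm)
      obtain ⟨y, hy, rfl⟩ := hx
      exact ⟨_, (ha1 _).2 (by simpa using hy), fun h0 => hx' (hf.mem_pt_of_fix k1 h0)⟩)
  rw [← ha₀] at he2
  obtain ⟨w3, w4⟩ := shear_inv hc hb1 hb2 he1 he2
  set w := b * e⁻¹ * b
  have hw : w * w ∈ M := mul_mem (mul_mem (mul_mem hb (inv_mem he)) hb)
    (mul_mem (mul_mem hb (inv_mem he)) hb)
  obtain ⟨ρ, ν', μ', -, hμ', -, -, h5⟩ := c.exists_conj hf hw ((c.mem_pt_of_comm (hf.smul k1)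
    (l := -1) (by simp)) (by rw [one_smul, w3, ha₀, ← map_inv, hf.eich_inv, smul_smul, neg_one_mul]))
  have h6 : ∀ y, σ (ρ (σ y * μ) * μ') * μ = ρ y * μ' := fun y => c.conj_inj hf (g := w * w) (by
    clear_value a
    rw [← h5, ← w4, ← mul_assoc, ← mul_assoc, ← h3, mul_assoc a, ← h5, mul_assoc, mul_assoc,
      ← h3]
    simp only [mul_assoc, w])
  refine c.sigma_ne_one hf hap h2 h4 (gal_eq_one_of_sq c.es.prime c.odd ?_)
  rw [← mul_left_inj ρ, mul_assoc, gal_comm c.es.prime σ ρ, one_mul]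
  ext y
  have k3 := h6 y
  have k4 := h6 1
  simp only [map_mul, map_one, one_mul] at k3 k4
  exact mul_right_cancel₀ hμ' (by
    simp only [AlgEquiv.mul_apply]; linear_combination k3 - σ (ρ (σ y)) * k4)

theorem good {X Y : Submodule F V} (hX : IsX q M X) (hY : IsX q M Y) (hXd : finrank F ↥(X ⊓ Y) = d)
    (hd : 0 < d) {x : V} (hx : x ∈ X) (hux : ∀ y ∈ Y, polar Q y x = 0) : x ∈ Y := by
  by_contra hx'
  obtain ⟨u, f, hf⟩ := exists_isHyp_of_three_le c.es.ndK c.three.ge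
  obtain ⟨z, hz⟩ := exists_fr3 c.es.ndK c.es.two' c.three hf
  obtain ⟨-, X, h1, h2, l, hl, h3⟩ := c.bad hz hX hY hXd hd hx hx' hux
  exact c.map_ne hz h1 h2 hl h3

end Ctx3

end Cfsg.Lib.OMax
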