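import Cfsg.Agent.Lib.OMax.ExtG

/-!
# `O₃(K)` is maximal in `Ω`
-/

namespace Cfsg.Lib.OMax

open QuadraticMap Module Cfsg.Lib.Orth

set_option linter.unusedSectionVars false

variable {F V : Type*} [Field F] [AddCommGroup V] [Module F V] {Q : QuadraticForm F V}
  {K : Type*} [Field K] [Module K V] [Algebra F K] [IsScalarTower F K V]
  {q : QuadraticForm K V} {τ : K →ₗ[F] F}

namespace Ctx3

variable [Finite F] [FiniteDimensional F V] [Finite K] [FiniteDimensional K V]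
  {M : Subgroup (O Q)} {d : ℕ} (c : Ctx3 Q q τ M d) {u f z : V} (hf : Fr3 q u f z)
include c hf

section Pos

variable (hd : 0 < d) {X : Submodule F V} (hX : IsX q M X) (hXd : finrank F ↥(X ⊓ pt F K u) = d)
include hd hX hXd

theorem exists_lift (κ : K) :
    ∃ e, polar q u e = 0 ∧ (∀ x ∈ X, polar Q x e = 0) ∧ polar q z e = κ := by
  have : Module.Finite F K := Module.finite_of_finrank_pos c.es.prime.pos
  let E := perp Q (X ⊔ pt F K u)
  let φ : E →ₗ[F] K := (polarBilin q z).restrictScalars F ∘ₗ E.subtype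
  have h1 : ∀ e ∈ E, polar q u e = 0 ∧ ∀ x ∈ X, polar Q x e = 0 := fun e he =>
    ⟨c.es.mem_perp_pt.1 fun y hy => he y (Submodule.mem_sup_right hy),
      fun y hy => he y (Submodule.mem_sup_left hy)⟩
  have h2 : (LinearMap.ker φ).map E.subtype ≤ X ⊓ pt F K u := by
    rintro _ ⟨e, he, rfl⟩
    have h3 := hf.mem_pt_of (F := F) (h1 e e.2).1 he
    exact ⟨c.good (isX_pt hf.u0 hf.qu) hX (by rw [inf_comm, hXd]) hd h3 (h1 e e.2).2, h3⟩
  have h3 : LinearMap.range φ = ⊤ := Submodule.eq_top_of_finrank_eq (by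
    have k1 := Submodule.finrank_mono h2
    rw [Submodule.finrank_map_subtype_eq] at k1
    have k2 := φ.finrank_range_add_finrank_ker
    have k3 := finrank_add_finrank_perp c.es.nd (X ⊔ pt F K u)
    have k4 := Submodule.finrank_sup_add_finrank_inf_eq X (pt F K u)
    have k5 := Module.finrank_mul_finrank F K V
    have k6 := (LinearMap.range φ).finrank_le
    rw [hX.finrank_eq, finrank_pt hf.u0] at k4
    rw [c.three] at k5
    change _ + finrank F E = _ at k3
    omega)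
  obtain ⟨e, he⟩ := LinearMap.range_eq_top.1 h3 κ
  exact ⟨e, (h1 e e.2).1, (h1 e e.2).2, he⟩

theorem exists_fixer (hX' : X ≠ pt F K u) {e : V} (hue : polar q u e = 0)
    (hXe : ∀ x ∈ X, polar Q x e = 0) (hβ : polar q z e ≠ 0) (he : Q e = 0) :
    ∃ g ∈ M, g ≠ 1 ∧ (∀ y ∈ X ⊓ pt F K u, g.1 y = y) ∧ g.1 e = e ∧
      ∀ κ : K, g.1 (κ • u) ∈ pt F K u := by
  classical
  by_contra! hc
  obtain ⟨p, hp, _, _⟩ := exists_char (F := F) (K := K)
  have := Fact.mk hp
  have : Finite V := Module.finite_of_finite F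
  let Z : Subgroup (O Q) := M ⊓ fixer Q (X ⊓ pt F K u) ⊓ MulAction.stabilizer (O Q) e
  have hZ : ∀ g, g ∈ Z ↔ (g ∈ M ∧ ∀ y ∈ X ⊓ pt F K u, g.1 y = y) ∧ g.1 e = e := fun g => Iff.rfl
  have := Fintype.ofFinite Z
  obtain ⟨d₀, ⟨hd₁, hd₂⟩, hd0⟩ := Submodule.exists_mem_ne_zero_of_ne_bot (p := X ⊓ pt F K u)
    fun h0 => by rw [h0, finrank_bot] at hXd; omega
  obtain ⟨δ, rfl⟩ := mem_pt.1 hd₂
  let A : K → O Q := fun m => c.es.res (eich q u (m • z))
  have hA : ∀ m, (A m)⁻¹ = A (-m) := fun m => by simp only [A, ← map_inv, hf.eich_inv]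
  have h1 : ∀ κ : K, κ • u ∈ X → ∀ g ∈ Z, A (κ / polar q z e) * g * (A (κ / polar q z e))⁻¹ ∈ Z :=
    fun κ hκ g hg => by
      obtain ⟨⟨k1, k2⟩, k3⟩ := (hZ g).1 hg
      refine (hZ _).2 ⟨⟨mul_mem (mul_mem (c.es.eich_mem c.le _ _) k1)
        (inv_mem (c.es.eich_mem c.le _ _)), fun y hy => ?_⟩, ?_⟩
      · simp only [hA, O.mul_apply, A, EStr.res_apply, hf.eich_pt _ hy.2, k2 y hy]
      · simp only [hA, O.mul_apply, A, EStr.res_apply, hf.eich_perp _ hue]
        simp only [neg_mul, hf.eich_perp _ hue,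
          div_mul_cancel₀ _ hβ, neg_smul, map_add, map_neg, k3, k2 _ ⟨hκ, smul_mem_pt κ u⟩,
          hf.eich_pt _ (smul_mem_pt (F := F) κ u), add_neg_cancel_right]
  have hl : δ / polar q z e ≠ 0 := div_ne_zero (left_ne_zero_of_smul hd0) hβ
  set l := δ / polar q z e with hl'
  have hcard : (Fintype.card Z : F) = 1 := by
    let φ : Function.End Z := fun g => ⟨_, h1 δ hd₁ g g.2⟩
    have k1 : ∀ (n : ℕ) (g : Z), ((φ ^ n) g : O Q) = A l ^ n * g * (A l ^ n)⁻¹ := fun n g => by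
      induction n with
      | zero => simp [Function.End.one_def]
      | succ n ih =>
        rw [pow_succ', pow_succ']
        change A l * ((φ ^ n) g : O Q) * (A l)⁻¹ = _
        rw [ih]; group
    have k2 := Equiv.Perm.card_fixedPoints_modEq (f := φ) (p := p) (n := 1) (funext fun g =>
      Subtype.ext (by rw [pow_one, k1, c.eich_pow_char hf p]; simp [Function.End.one_def]))
    rw [show Fintype.card φ.fixedPoints = 1 from Fintype.card_eq_one_iff.2
      ⟨⟨1, Subtype.ext (by simp [φ])⟩, fun g => Subtype.ext (Subtype.ext ?_)⟩] at k2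
    · rw [(CharP.natCast_eq_natCast F p).2 k2, Nat.cast_one]
    by_contra h0
    obtain ⟨⟨k3, k4⟩, k5⟩ := (hZ _).1 g.1.2
    obtain ⟨κ, hκ⟩ := hc _ k3 h0 k4 k5
    exact hκ (c.mem_pt_of_comm (hf.smul hl) one_ne_zero (by
      rw [one_smul]; exact (mul_inv_eq_iff_eq_mul.1 (congrArg Subtype.val g.2)).symm) κ)
  let W : Submodule F V := ⨅ g ∈ Z, O.fix g
  have hW : ∀ w, w ∈ W ↔ ∀ g ∈ Z, g.1 w = w := fun w => by simp [W, O.mem_fix]
  let π : V → V := fun v => ∑ g : Z, g.1.1 v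
  have h2 : ∀ v, π v ∈ W := fun v => (hW _).2 fun g hg => by
    simp only [π, map_sum, ← O.mul_apply]
    exact Fintype.sum_equiv (Equiv.mulLeft ⟨g, hg⟩) _ _ fun _ => rfl
  have h3 : ∀ w ∈ W, ∀ v, polar Q w (π v) = polar Q w v := fun w hw v => by
    rw [← polarBilin_apply_apply, map_sum]
    simp only [polarBilin_apply_apply, O.polar_right]
    rw [Finset.sum_congr rfl fun g _ => by rw [(hW w).1 hw _ (inv_mem g.2)], Finset.sum_const,
      Finset.card_univ, nsmul_eq_mul, hcard, one_mul]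
  have h4 : ∀ κ : K, κ • u ∈ X → ∀ w ∈ W, (A (κ / polar q z e)).1 w ∈ W := fun κ hκ w hw =>
    (hW _).2 fun g hg => by
      have := (hW w).1 hw _ (h1 (-κ) (by rw [neg_smul]; exact neg_mem hκ) g hg)
      rwa [neg_div, ← hA, inv_inv, O.mul_apply, O.mul_apply, O.inv_apply_eq] at this
  have h5 : ∀ w ∈ W, w ∈ pt F K u → w ∈ X := fun w hw hw' => by
    obtain ⟨g, hg, rfl⟩ := c.exists_map hX hf.u0 hf.qu
    obtain ⟨e, rfl⟩ := g.1.surjective e
    obtain ⟨y, hy, hy'⟩ := hd₁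
    obtain ⟨δ', rfl⟩ := mem_pt.1 hy
    have k1 : polar q u e = 0 := c.es.eq_zero_of_forall fun κ => by
      rw [← O.map_polar g]; exact hXe _ (Submodule.mem_map_of_mem (smul_mem_pt κ u))
    have k2 : polar q z e ≠ 0 := fun h0 => hβ (hf.pz_pt (c.good hX (isX_pt hf.u0 hf.qu) hXd hd
      (Submodule.mem_map_of_mem (hf.mem_pt_of k1 h0)) (c.es.mem_perp_pt.2 hue)))
    have k3 : δ' / polar q z e ≠ 0 := div_ne_zero (by
      rintro rfl; exact hd0 (by simpa using hy'.symm)) k2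
    have k4 := (hW w).1 hw (g * (A (δ' / polar q z e))⁻¹ * g⁻¹ * A l) ((hZ _).2 ⟨⟨mul_mem (mul_mem
      (mul_mem hg (inv_mem (c.es.eich_mem c.le _ _))) (inv_mem hg)) (c.es.eich_mem c.le _ _), ?_⟩, ?_⟩)
    · obtain ⟨w, rfl⟩ := g.1.surjective w
      simp only [hA, O.mul_apply, A, EStr.res_apply, hf.eich_pt _ hw', O.inv_apply_apply,
        g.1.injective.eq_iff] at k4
      exact Submodule.mem_map_of_mem (hf.mem_pt_of_fix (neg_ne_zero.2 k3) k4)
    · rintro _ ⟨⟨y, k4, rfl⟩, k5⟩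
      simp only [hA, O.mul_apply, A, EStr.res_apply, LinearEquiv.coe_coe] at k5 ⊢
      rw [hf.eich_pt _ k5, O.inv_apply_apply, hf.eich_pt _ k4]
    · simp only [hA, O.mul_apply, A, EStr.res_apply]
      rw [hf.eich_perp _ hue, hl', div_mul_cancel₀ _ hβ, ← hy', LinearEquiv.coe_coe, ← map_add,
        O.inv_apply_apply, map_add, hf.eich_perp _ k1, hf.eich_pt _ hy, neg_mul,
        div_mul_cancel₀ _ k2, neg_smul, neg_add_cancel_right]
  have h6 : ∀ x ∈ W, polar q u x = 0 → polar Q e x = 0 := fun x hx hx' => by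
    obtain ⟨a, ha⟩ := Linear.mem_range_of_mul_mem c.es.prime
      (Δ := X.comap ((LinearMap.toSpanSingleton K V u).restrictScalars F))
      (fun h0 => left_ne_zero_of_smul hd0 ((Submodule.eq_bot_iff _).1 h0 δ hd₁))
      (fun h0 => hX' (Submodule.eq_of_le_of_finrank_eq (fun y hy => by
        obtain ⟨κ, rfl⟩ := mem_pt.1 hy
        exact (h0 ▸ Submodule.mem_top : κ ∈ X.comap _))
        (by rw [hX.finrank_eq, finrank_pt hf.u0])).symm) (l := polar q z x / polar q z e)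
      fun κ hκ => by
        have k1 := sub_mem (h4 κ hκ x hx) hx
        simp only [A, EStr.res_apply, hf.eich_perp _ hx', add_sub_cancel_left] at k1
        have := h5 _ k1 (smul_mem_pt _ u)
        rwa [show κ / polar q z e * polar q z x = polar q z x / polar q z e * κ by ring] at this
    obtain ⟨b, hb⟩ := mem_pt.1 (hf.mem_pt_of (F := F) (x := x - a • e)
      (by rw [polar_sub_right, ← algebraMap_smul K, polar_smul_right', hx', hue]; simp)
      (by rw [polar_sub_right, ← algebraMap_smul K, polar_smul_right', ha, div_mul_cancel₀ _ hβ,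
        sub_self]))
    rw [← sub_add_cancel x (a • e), ← hb, polar_add_right, polar_comm, c.es.polar_eq_zero hue,
      polar_smul_right', polar_self', he]
    simp
  have h7 : ∀ w, (A l).1 w + ((A l)⁻¹).1 w - (2 : F) • w =
      -(2 * l ^ 2 * q z * polar q u w) • u := fun w => by
    simp only [hA, A, EStr.res_apply, hf.eich_ap, two_smul]
    module
  have h8 : ∀ w ∈ W, (A l).1 w + ((A l)⁻¹).1 w - (2 : F) • w ∈ W := fun w hw =>
    sub_mem (add_mem (h4 δ hd₁ w hw) (by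
      rw [hA, hl', ← neg_div]; exact h4 _ (by rw [neg_smul]; exact neg_mem hd₁) w hw))
      (W.smul_mem _ hw)
  have h9 : e ∈ X ⊓ pt F K u := by
    rw [← perp_perp c.es.nd (X ⊓ pt F K u), mem_perp']
    intro v hv
    rw [← h3 e ((hW e).2 fun g hg => hg.2)]
    refine h6 _ (h2 v) ?_
    have k1 := c.es.nd.eq_zero (x := (A l).1 (π v) + ((A l)⁻¹).1 (π v) - (2 : F) • π v) fun y => by
      have k2 := h8 _ (h2 y)
      have k3 : (A l).1 (π y) + ((A l)⁻¹).1 (π y) - (2 : F) • π y ∈ pt F K u :=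
        h7 _ ▸ smul_mem_pt _ u
      have k4 := (h3 _ k2 v).trans (hv _ ⟨h5 _ k2 k3, k3⟩)
      rw [← h3 _ (h8 _ (h2 v)), ← k4, polar_comm]
      simp only [polar_sub_left, polar_add_left, polar_sub_right, polar_add_right,
        polar_smul_left', polar_smul_right', O.polar_left, inv_inv]
      ring
    rw [h7] at k1
    simpa [hf.u0, hf.two, hl, hf.ne] using k1
  exact hβ (hf.pz_pt h9.2)

omit hX in
theorem inv_of_fixer {e : V} (hue : polar q u e = 0) (hβ : polar q z e ≠ 0) {g : O Q} (hg : g ∈ M)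
    (h1 : g ≠ 1) (h2 : ∀ y ∈ X ⊓ pt F K u, g.1 y = y) (h3 : g.1 e = e)
    (h4 : ∀ κ : K, g.1 (κ • u) ∈ pt F K u) : (∃ σ : K ≃ₐ[F] K, σ ≠ 1) ∧ ∀ (ρ : K ≃ₐ[F] K) y,
      τ (ρ y * (polar q z e ^ 2 / polar q z z)) = τ (y * (polar q z e ^ 2 / polar q z z)) := by
  obtain ⟨σ, ν, μ, hν, hμ, k1, k2, -⟩ := c.exists_conj hf hg h4
  have k3 := k2 e hue
  rw [h3] at k3
  have hσ : σ ≠ 1 := by
    rintro rfl
    obtain ⟨d₀, hd₁, hd0⟩ := Submodule.exists_mem_ne_zero_of_ne_bot (p := X ⊓ pt F K u)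
      fun h0 => by rw [h0, finrank_bot] at hXd; omega
    obtain ⟨δ, rfl⟩ := mem_pt.1 hd₁.2
    have k4 : ν = 1 := by
      have := smul_left_injective K hf.u0 ((k1 δ).symm.trans (h2 _ hd₁))
      simpa [left_ne_zero_of_smul hd0] using this
    have k5 : μ = 1 := by simpa [k4, hβ] using k3
    obtain ⟨l, rfl⟩ := c.eq_eich hf hg (fun x hx => by
      obtain ⟨κ, rfl⟩ := mem_pt.1 hx
      simp [k1, k4]) fun x hx => hf.mem_pt_of
        (by rw [polar_sub_right, (c.perp_map hf.u0 h4 x).2 hx, hx, sub_zero])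
        (by simpa [k4, k5, polar_sub_right, sub_eq_zero] using k2 x hx)
    rw [EStr.res_apply, hf.eich_perp l hue] at h3
    exact h1 (by rw [show l = 0 by simpa [hf.u0, hβ] using h3]; simp)
  have h5 : ∀ x y, polar q u x = 0 → polar q u y = 0 →
      polar Q x y = τ (polar q z x * polar q z y / polar q z z) := fun x y hx hy => by
    obtain ⟨a, b, e, rfl⟩ := hf.decomp x
    rw [hf.pu] at hx
    have := hf.zz
    rw [c.es.polar_eq, hf.pz, hx, zero_smul, add_zero, polar_add_left, polar_smul_left',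
      polar_smul_left', hy]
    congr 1
    field_simp
    simp
  have h6 : ∀ y, τ (σ y * (polar q z e ^ 2 / polar q z z)) =
      τ (y * (polar q z e ^ 2 / polar q z z)) := fun y => by
    have := hf.zz
    have k4 := hf.uz' (y * polar q z e / polar q z z)
    have k5 := k2 _ k4
    have k6 := O.map_polar g ((y * polar q z e / polar q z z) • z) e
    rw [h3, h5 _ _ ((c.perp_map hf.u0 h4 _).2 k4) hue, h5 _ _ k4 hue] at k6
    rw [polar_smul_right', div_mul_cancel₀ _ this, map_mul, mul_assoc, ← k3, mul_left_comm,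
      mul_right_inj' hμ] at k5
    rw [k5, polar_smul_right', div_mul_cancel₀ _ this] at k6
    convert k6 using 2 <;> ring
  refine ⟨⟨σ, hσ⟩, fun ρ y => ?_⟩
  obtain ⟨j, rfl⟩ := gal_mem_powers c.es.prime hσ ρ
  induction j with
  | zero => rfl
  | succ j ih => rw [pow_succ', AlgEquiv.mul_apply, h6, ih]

end Pos

theorem d_eq_zero : d = 0 := by
  by_contra hd
  replace hd := Nat.pos_of_ne_zero hd
  obtain ⟨X, hX, hX', hXd⟩ := c.exists_pair_at hf
  have : Module.Finite F K := Module.finite_of_finrank_pos c.es.prime.pos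
  have hzz := hf.zz
  let R : QuadraticForm F K := LinearMap.BilinMap.toQuadraticMap
    ((LinearMap.mul F K).compr₂ (τ ∘ₗ LinearMap.mulRight F (q z / polar q z z ^ 2)))
  have hR : ∀ y, R y = τ (y * y * (q z / polar q z z ^ 2)) := fun y => rfl
  have hR' : ∀ x y, polar R x y = τ (y * (2 * x * (q z / polar q z z ^ 2))) := fun x y => by
    simp only [polar, hR, ← map_sub]
    congr 1
    ring
  obtain ⟨y₁, y₂, hy⟩ := exists_isHyp_of_three_le (Q := R) ((nd_iff _).2 fun x hx => by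
    have := eq_of_coef c.es.ne (a := 2 * x * (q z / polar q z z ^ 2)) (b := 0) fun y => by
      rw [← hR', hx, mul_zero, map_zero]
    simpa [hf.two, hf.ne] using this) c.three_le
  have key : ∀ y, y ≠ 0 → R y = 0 → (∃ σ : K ≃ₐ[F] K, σ ≠ 1) ∧ ∀ (ρ : K ≃ₐ[F] K) w,
      τ (ρ w * (y ^ 2 / polar q z z)) = τ (w * (y ^ 2 / polar q z z)) := fun y h0 h1 => by
    obtain ⟨e, k1, k2, rfl⟩ := c.exists_lift hf hd hX hXd y
    obtain ⟨g, hg, k3, k4, k5, k6⟩ := c.exists_fixer hf hd hX hXd hX' k1 k2 h0 (by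
      obtain ⟨a, b, e, rfl⟩ := hf.decomp e
      rw [hf.pu] at k1
      rw [c.es.Q_eq, hf.hyp.Q_comb' (Submodule.smul_mem _ _ hf.mem), k1, Q_smul, ← h1, hR, hf.pz]
      congr 1
      field_simp
      simp)
    exact c.inv_of_fixer hf hd hXd k1 h0 hg k3 k4 k5 k6
  obtain ⟨⟨σ, hσ⟩, h1⟩ := key y₁ hy.ne_zero hy.left
  obtain ⟨-, h2⟩ := key y₂ hy.symm.ne_zero hy.right
  have h0 := hy.ne_zero
  obtain ⟨a, ha⟩ := gal_fixed_of_sq c.es.prime c.odd hσ (x := y₂ / y₁) (mul_right_cancel₀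
    (div_ne_zero (pow_ne_zero 2 h0) hzz) (eq_of_coef c.es.ne fun w => by
      obtain ⟨w, rfl⟩ := σ.surjective w
      rw [← mul_assoc, ← map_mul, h1, show (y₂ / y₁) ^ 2 * (y₁ ^ 2 / polar q z z) =
        y₂ ^ 2 / polar q z z by field_simp, h2]
      congr 1
      field_simp))
  have h3 := hy.polar_eq
  rw [show y₂ = a • y₁ by rw [Algebra.smul_def, ha, div_mul_cancel₀ _ h0], polar_smul_right',
    hy.polar_left, mul_zero] at h3
  exact zero_ne_one h3

omit hf in
theorem eq_of_mem {X Y : Submodule F V} (hX : IsX q M X) (hY : IsX q M Y) {v : V} (h0 : v ≠ 0)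
    (h1 : v ∈ X) (h2 : v ∈ Y) : X = Y := by
  by_contra h3
  obtain ⟨u, f, hf⟩ := exists_isHyp_of_three_le c.es.ndK c.three.ge
  obtain ⟨z, hz⟩ := exists_fr3 c.es.ndK c.es.two' c.three hf
  have h4 := c.max X Y hX hY h3
  rw [c.d_eq_zero hz, Nat.le_zero, Submodule.finrank_eq_zero, Submodule.eq_bot_iff] at h4
  exact h0 (h4 v ⟨h1, h2⟩)

theorem q_map_right {g : O Q} (hg : g ∈ M) (h1 : ∀ κ : K, g.1 (κ • u) ∈ pt F K u) :
    q (g.1 f) = 0 := by
  have : Module.Finite F K := Module.finite_of_finrank_pos c.es.prime.pos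
  have hzz := hf.zz
  wlog h2 : polar q z (g.1 f) = 0 generalizing g
  · have hα : polar q u (g.1 f) ≠ 0 := by
      rw [Ne, c.perp_map hf.u0 h1, hf.hyp.polar_eq]; exact one_ne_zero
    have := this (mul_mem (c.es.eich_mem c.le u
      ((polar q z (g.1 f) / (polar q u (g.1 f) * polar q z z)) • z)) hg) (fun κ => by
        rw [O.mul_apply, EStr.res_apply, hf.eich_pt _ (h1 κ)]; exact h1 κ) (by
        rw [O.mul_apply, EStr.res_apply, hf.eich_ap, polar_sub_right, polar_add_right,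
          polar_smul_right', polar_smul_right', hf.zu]
        field_simp
        simp)
    rwa [O.mul_apply, EStr.res_apply, O.map_Q] at this
  have hα : polar q u (g.1 f) ≠ 0 := by
    rw [Ne, c.perp_map hf.u0 h1, hf.hyp.polar_eq]; exact one_ne_zero
  obtain ⟨σ, ν, μ, -, hμ, -, -, h3⟩ := c.exists_conj hf hg h1
  have h4 : ∀ κ : K, g.1 (κ • z) = (σ κ * μ * polar q u (g.1 f)) • z := fun κ => by
    have k1 := congrArg (fun g : O Q => g.1 f) (h3 κ)
    have k2 := congrArg (fun g : O Q => g.1 f) (h3 (-κ))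
    simp only [O.mul_apply, EStr.res_apply, hf.eich_ap] at k1 k2
    simp only [h2, hf.zf, hf.hyp.polar_eq, map_sub,
      map_add, mul_one, neg_smul, map_neg, neg_sq, mul_zero, neg_mul] at k1 k2
    refine smul_right_injective V hf.two ?_
    linear_combination (norm := module) k2 - k1
  have h5 : ∀ κ : K, polar q z (g.1 (κ • f)) = 0 := fun κ => c.es.eq_zero_of_forall fun m => by
    have := h4 (σ.symm (m / (μ * polar q u (g.1 f))))
    rw [AlgEquiv.apply_symm_apply, mul_assoc, div_mul_cancel₀ _ (mul_ne_zero hμ hα)] at this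
    rw [← this, O.map_polar, c.es.polar_eq_zero (by rw [polar_smul_right', hf.zf, mul_zero])]
  let j : K →ₗ[F] V := (g.1 : V →ₗ[F] V) ∘ₗ (LinearMap.toSpanSingleton K V f).restrictScalars F
  let A : K →ₗ[F] K := (polarBilin q f).restrictScalars F ∘ₗ j
  let B : K →ₗ[F] K := (polarBilin q u).restrictScalars F ∘ₗ j
  have h6 : ∀ κ : K, g.1 (κ • f) = A κ • u + B κ • f := fun κ => by
    change _ = polar q f (g.1 (κ • f)) • u + polar q u (g.1 (κ • f)) • f
    have := h5 κ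
    obtain ⟨a, b, e, he⟩ := hf.decomp (g.1 (κ • f))
    rw [he, hf.pz, mul_eq_zero, or_iff_left hzz] at this
    rw [he, hf.pu, add_comm (a • u), hf.symm.pu, this, zero_smul, add_zero, add_comm]
  obtain ⟨κ, h0, h7⟩ := exists_rad_of_odd c.es.two c.odd
    (((LinearMap.mul F K).compr₂ τ).compl₁₂ B A) fun κ => by
      have := O.map_Q g (κ • f)
      rw [c.es.Q_smul_eq_zero hf.hyp.right, h6, c.es.Q_eq, hf.hyp.Q_comb, mul_comm] at this
      exact this
  have h8 : Function.Surjective B := Finite.injective_iff_surjective.1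
    ((injective_iff_map_eq_zero B).2 fun a ha => by
      simpa [hf.hyp.polar_eq] using (c.perp_map hf.u0 h1 (a • f)).1 ha)
  have h9 : A κ = 0 := eq_of_coef c.es.ne fun m => by
    obtain ⟨m, rfl⟩ := h8 m
    rw [mul_zero, map_zero]
    exact h7 m
  have h10 := c.eq_of_mem ((isX_pt hf.symm.u0 hf.symm.qu).map hg) (isX_pt hf.symm.u0 hf.symm.qu)
    (O.apply_ne_zero g (smul_ne_zero h0 hf.symm.u0)) (Submodule.mem_map_of_mem (smul_mem_pt κ f))
    (by rw [h6, h9, zero_smul, zero_add]; exact smul_mem_pt _ f)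
  obtain ⟨a, ha⟩ := mem_pt.1 (h10 ▸ Submodule.mem_map_of_mem (self_mem_pt f))
  rw [show g.1 f = a • f from ha.symm, Q_smul, hf.hyp.right, mul_zero]

omit hf in
theorem q_map {g : O Q} (hg : g ∈ M) (hu0 : u ≠ 0) (hu : q u = 0) (h1 : q (g.1 u) = 0) {v : V}
    (hv : q v = 0) : q (g.1 v) = 0 := by
  have h2 := c.eq_of_mem ((isX_pt hu0 hu).map hg) (isX_pt (O.apply_ne_zero g hu0) h1)
    (O.apply_ne_zero g hu0) (Submodule.mem_map_of_mem (self_mem_pt u)) (self_mem_pt _)
  obtain ⟨k, hk, a, -, ha⟩ := c.exists_move (O.apply_ne_zero g hu0) h1 hu0 hu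
  have h3 : ∀ κ : K, (c.es.res k * g).1 (κ • u) ∈ pt F K u := fun κ => by
    obtain ⟨b, hb⟩ := mem_pt.1 (h2 ▸ Submodule.mem_map_of_mem (smul_mem_pt κ u))
    rw [O.mul_apply, EStr.res_apply, show g.1 (κ • u) = _ from hb.symm, map_smul, ha, smul_smul]
    exact smul_mem_pt _ _
  rw [← O.map_Q k]
  change q ((c.es.res k * g).1 v) = 0
  by_cases h4 : polar q u v = 0
  · obtain ⟨f, z, hf⟩ := c.fr hu0 hu
    obtain ⟨b, rfl⟩ := mem_pt.1 (hf.mem_pt_of_sing (F := F) h4 hv)
    obtain ⟨e, he⟩ := mem_pt.1 (h3 b)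
    rw [← he, Q_smul, hu, mul_zero]
  have h5 : IsHyp q ((polar q u v)⁻¹ • u) v :=
    ⟨by rw [Q_smul, hu, mul_zero], hv, by rw [polar_smul_left', inv_mul_cancel₀ h4]⟩
  obtain ⟨z, hz⟩ := exists_fr3 c.es.ndK c.es.two' c.three h5
  exact c.q_map_right hz (mul_mem hk hg) fun κ => by
    rw [smul_smul, pt_eq_of_mem (smul_mem_pt _ u) hz.u0]; exact h3 _

omit hf in
theorem mem_semiO {g : O Q} (hg : g ∈ M) (hu0 : u ≠ 0) (hu : q u = 0) (h1 : q (g.1 u) = 0) :
    g ∈ semiO Q K :=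
  c.es.mem_semiO_of_pt c.three.ge fun v hv0 hv => ⟨c.q_map hg hu0 hu h1 hv, c.eq_of_mem
    ((isX_pt hv0 hv).map hg) (isX_pt (O.apply_ne_zero g hv0) (c.q_map hg hu0 hu h1 hv))
    (O.apply_ne_zero g hv0) (Submodule.mem_map_of_mem (self_mem_pt v)) (self_mem_pt _)⟩

theorem le_semiO : M ≤ semiO Q K := by
  classical
  intro g hg
  by_contra hg'
  obtain ⟨p, hp, _, _⟩ := exists_char (F := F) (K := K)
  have := Fact.mk hp
  have : Finite V := Module.finite_of_finite F
  let C := {v : V // q v = 0 ∧ v ≠ 0}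
  have := Fintype.ofFinite C
  have := Fintype.ofFinite K
  have hC : Nat.card C + 1 = Nat.card K ^ 2 := by
    rw [← cnt_odd_zero c.es.ndK (m := 1) c.three, cnt, ← Finite.card_option]
    exact Nat.card_congr (((Equiv.subtypeSubtypeEquivSubtypeInter _ (· ≠ 0)).symm.trans
      (Equiv.subtypeEquivRight fun _ => by simp [Subtype.ext_iff])).optionCongr.trans
      (Equiv.optionSubtypeNe (⟨0, by simp⟩ : {v // q v = 0})))
  have h1 : ∀ v : C, q (g.1 v) ≠ 0 := fun v h0 => hg' (c.mem_semiO hg v.2.2 v.2.1 h0)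
  have h2 : ∀ l : K, l ≠ 0 → ∀ v w : C, (eich q u (l • z)).1 (g.1 v) ≠ g.1 w := fun l hl v w h0 => by
    set k := g⁻¹ * c.es.res (eich q u (l • z)) * g⁻¹⁻¹ with hk
    have k1 : k ∈ M := mul_mem (mul_mem (inv_mem hg) (c.es.eich_mem c.le _ _)) (inv_mem (inv_mem hg))
    have k2 : q (k.1 v) = 0 := by
      rw [hk, O.mul_apply, O.mul_apply, inv_inv, EStr.res_apply, h0, O.inv_apply_apply, w.2.1]
    let φ : Function.End C := fun x => ⟨k.1 x, c.q_map k1 v.2.2 v.2.1 k2 x.2.1,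
      O.apply_ne_zero k x.2.2⟩
    have k3 : ∀ (n : ℕ) (x : C), ((φ ^ n) x : V) = (k ^ n).1 x := fun n x => by
      induction n with
      | zero => rfl
      | succ n ih => rw [pow_succ', pow_succ', O.mul_apply, ← ih]; rfl
    have k4 := Equiv.Perm.card_fixedPoints_modEq (f := φ) (p := p) (n := 1) (funext fun x =>
      Subtype.ext (by rw [pow_one, k3, hk, conj_pow, c.eich_pow_char hf p, mul_one, mul_inv_cancel]; rfl))
    rw [show Fintype.card φ.fixedPoints = 0 from Fintype.card_eq_zero_iff.2 ⟨fun x => ?_⟩] at k4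
    · have k5 := congrArg (Nat.cast : ℕ → K) hC
      rw [Nat.card_eq_fintype_card, Nat.card_eq_fintype_card] at k5
      push_cast at k5
      rw [(CharP.natCast_eq_natCast K p).2 k4, FiniteField.cast_card_eq_zero] at k5
      simp at k5
    have k5 : k.1 x.1 = x.1 := congrArg Subtype.val x.2
    rw [hk, O.mul_apply, O.mul_apply, O.inv_apply_eq, inv_inv] at k5
    obtain ⟨a, ha⟩ := mem_pt.1 (hf.mem_pt_of_fix (F := F) hl k5)
    exact h1 x.1 (by rw [← ha, Q_smul, hf.qu, mul_zero])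
  let Ψ : Option K × C → V := fun x => x.1.elim x.2.1 fun l => (eich q u (l • z)).1 (g.1 x.2)
  have h3 : Function.Injective Ψ := by
    rintro ⟨_ | l, v⟩ ⟨_ | m, w⟩ h0 <;> simp only [Ψ, Option.elim] at h0
    · rw [Subtype.ext h0]
    · exact (h1 w (by rw [← O.map_Q (eich q u (m • z)), ← h0, v.2.1])).elim
    · exact (h1 v (by rw [← O.map_Q (eich q u (l • z)), h0, w.2.1])).elim
    · rcases eq_or_ne l m with rfl | h4
      · rw [Subtype.ext (g.1.injective ((eich q u (l • z)).1.injective h0))]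
      · refine (h2 (-m + l) (by rwa [neg_add_eq_sub, sub_ne_zero]) v w ?_).elim
        rw [hf.eich_mul, ← hf.eich_inv, O.mul_apply, O.inv_apply_eq, h0]
  have h4 := Nat.card_le_card_of_injective Ψ h3
  rw [Nat.card_prod, Finite.card_option, Module.natCard_eq_pow_finrank (K := K) (V := V),
    c.three] at h4
  have h5 : 1 < Nat.card K := Finite.one_lt_card
  nlinarith

end Ctx3

theorem EStr.commutator_le_three [Finite F] [FiniteDimensional F V] [Finite K]
    [FiniteDimensional K V] (h : EStr Q q τ) {M : Subgroup (O Q)}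
    (hM : semiO Q K ⊓ commutator (O Q) ≤ M) (h3 : finrank K V = 3) (ho : Odd (finrank F K))
    {g : O Q} (hg : g ∈ M) (hg' : g ∉ semiO Q K) : commutator (O Q) ≤ M := by
  by_contra hb
  obtain ⟨u, f, hf⟩ := exists_isHyp_of_three_le h.ndK h3.ge
  obtain ⟨z, hz⟩ := exists_fr3 h.ndK h.two' h3 hf
  let S : Set ℕ := {k | ∃ X Y, IsX q M X ∧ IsX q M Y ∧ X ≠ Y ∧ finrank F ↥(X ⊓ Y) = k}
  have hS : BddAbove S := ⟨finrank F V, fun _ ⟨_, _, _, _, _, h⟩ => h ▸ Submodule.finrank_le _⟩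
  exact hg' (Ctx3.le_semiO (d := sSup S) ⟨h, hM, h3, ho, hb,
    fun X Y h1 h2 h3 => le_csSup hS ⟨X, Y, h1, h2, h3, rfl⟩,
    Nat.sSup_mem (s := S) ⟨_, _, _, isX_pt hz.u0 hz.qu, isX_pt hz.symm.u0 hz.symm.qu, fun h0 =>
      one_ne_zero (hf.polar_eq.symm.trans (hz.pu_pt (F := F) (h0 ▸ self_mem_pt f))), rfl⟩ hS⟩ hz hg)

open Matrix in
theorem isMaximalIn_extField_three {ι : Type} [Fintype ι] [DecidableEq ι] [Finite F]
    {q : (ι → F) → F} (hq : Geo.IsNondegenerateQuadraticForm q) (h2 : (2 : F) ≠ 0) {r : ℕ}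
    (hr : r.Prime) (ho : Odd r) (hn : 3 * r = Fintype.card ι)
    {K : Subalgebra F (Matrix ι ι F)} (hK : Geo.IsFieldSubalgebra r K)
    (hs : Geo.IsSelfAdjointFor (polar q) K) :
    Geo.IsMaximalIn (Geo.omegaGL q) (Geo.subalgebraNormalizer K ⊓ Geo.omegaGL q) := by
  obtain ⟨Q, rfl, hQ⟩ := exists_form hq
  have := hr.two_le
  have : Nonempty ι := Fintype.card_pos_iff.1 (by omega)
  refine isMaximalIn_semiO hQ (by omega) hr.two_le hK fun M h1 _ g hg hg' => ?_
  let _ := (Asch.isField_of_isFieldSubalgebra hK).toField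
  obtain ⟨q, τ, h⟩ := exists_eStr (K := K) hQ (hK.finrank_eq ▸ hr) h2 fun κ => hs κ κ.2
  have : FiniteDimensional K (ι → F) := Module.Finite.of_restrictScalars_finite F K _
  have h3 := Module.finrank_mul_finrank F K (ι → F)
  rw [hK.finrank_eq, Module.finrank_fintype_fun_eq_card] at h3
  exact h.commutator_le_three h1 (by nlinarith) (hK.finrank_eq ▸ ho) hg hg'

end Cfsg.Lib.OMax
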