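import Cfsg.Agent.Lib.OMax.ExtH

/-!
# Extension-field subgroups of odd-dimensional orthogonal groups
-/

namespace Cfsg.Lib.OMax

open QuadraticMap Module Cfsg.Lib.Orth

variable {F : Type*} [Field F] {ι : Type} [Fintype ι] [DecidableEq ι]

theorem isQuad_of_nd {Q : QuadraticForm F (ι → F)} (hQ : ND Q) :
    Geo.IsNondegenerateQuadraticForm ⇑Q := by
  refine ⟨fun c v => by rw [Q_smul]; try ring, ⟨fun x y v => polar_add_left _ _ _ _,
    fun c x v => polar_smul_left' _ _ _ _, fun v x y => polar_add_right _ _ _ _,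
    fun c v x => polar_smul_right' _ _ _ _⟩, fun v hv => ?_⟩
  by_contra h0
  refine hv (hQ.eq_zero fun y => ?_)
  by_contra h1
  exact h0 ⟨⟨y, by rwa [polar_comm]⟩, y, h1⟩

theorem isMaximalIn_extField_odd [Finite F] {Q : QuadraticForm F (ι → F)} (hQ : ND Q)
    (h2 : (2 : F) ≠ 0) (ho : Odd (Fintype.card ι)) {r : ℕ} (hr : r.Prime)
    (hn : Fintype.card ι ≠ r) {K : Subalgebra F (Matrix ι ι F)} (hK : Geo.IsFieldSubalgebra r K)
    (hs : Geo.IsSelfAdjointFor (polar Q) K) :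
    Geo.IsMaximalIn (Geo.omegaGL Q) (Geo.subalgebraNormalizer K ⊓ Geo.omegaGL Q) := by
  have : Nonempty ι := Fintype.card_pos_iff.1 ho.pos
  obtain ⟨k, hk⟩ : r ∣ Fintype.card ι := by
    let _ := (Asch.isField_of_isFieldSubalgebra hK).toField
    have h3 := Module.finrank_mul_finrank F K (ι → F)
    rw [hK.finrank_eq, Module.finrank_fintype_fun_eq_card] at h3
    exact ⟨_, h3.symm⟩
  obtain ⟨h1, j, hj⟩ := Nat.odd_mul.1 (hk ▸ ho)
  have h4 : j ≠ 0 := by
    rintro rfl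
    exact hn (by simp [hk, hj])
  rcases eq_or_ne j 1 with rfl | h5
  · exact isMaximalIn_extField_three (isQuad_of_nd hQ) h2 hr h1 (by rw [hk, hj]; ring) hK hs
  · refine isMaximalIn_extField (isQuad_of_nd hQ) h2 hr ?_ hK hs
    rw [hk, mul_comm]
    exact Nat.mul_lt_mul_of_pos_left (by omega) hr.pos

end Cfsg.Lib.OMax
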