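import Cfsg.Agent.Lib.OMax.ExtA
import Cfsg.Agent.Lib.Unitary.MaxGeo

/-!
# The normaliser of a unitary overfield is maximal in `Ω`
-/

namespace Cfsg.Lib.OMax

open QuadraticMap Module Cfsg.Lib.Orth

set_option linter.unusedSectionVars false

variable {F V : Type*} [Field F] [AddCommGroup V] [Module F V] {Q : QuadraticForm F V}
  {K : Type*} [Field K] [Module K V] [Algebra F K] [IsScalarTower F K V]

/-- `Q` is the norm form of the hermitian form `B` over the quadratic extension `K`. -/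
structure UStr (Q : QuadraticForm F V) (σ : K →+* K) (B : V →ₛₗ[σ] V →ₗ[K] K) : Prop where
  nd : ND Q
  rank : finrank F K = 2
  herm : Unitary.IsHerm σ B
  fix : ∀ x, σ x = x ↔ ∃ c : F, algebraMap F K c = x
  Q_eq : ∀ v, algebraMap F K (Q v) = B v v
  polar_eq : ∀ u v, algebraMap F K (polar Q u v) = B u v + σ (B u v)

theorem exists_uStr [Nontrivial V] (hQ : ND Q) (hr : finrank F K = 2)
    (ha : ∀ κ : K, ∃ κ' : K, ∀ u v, polar Q (κ • u) v = polar Q u (κ' • v))
    (hs : ¬ ∀ (κ : K) u v, polar Q (κ • u) v = polar Q u (κ • v))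
    (hc : ∀ κ : K, ∃ c : F, ∀ v, Q (κ • v) = c * Q v) :
    ∃ (σ : K →+* K) (B : V →ₛₗ[σ] V →ₗ[K] K), UStr Q σ B := by
  have : Module.Finite F K := Module.finite_of_finrank_pos (by omega)
  choose s hs' using ha
  obtain ⟨v₀, hv₀⟩ := exists_ne (0 : V)
  have huniq : ∀ a b : K, (∀ u, polar Q u (a • v₀) = polar Q u (b • v₀)) → a = b := fun a b h =>
    smul_left_injective K hv₀ (hQ.ext fun y => by rw [polar_comm, h, polar_comm])
  let σ : K →+* K :=
    { toFun := s
      map_one' := huniq _ _ fun u => by rw [← hs', one_smul, one_smul]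
      map_mul' := fun a b => huniq _ _ fun u => by
        rw [← hs', mul_smul, hs', hs', smul_smul, mul_comm]
      map_zero' := huniq _ _ fun u => by rw [← hs']; simp
      map_add' := fun a b => huniq _ _ fun u => by
        rw [← hs', add_smul, add_smul, polar_add_left, polar_add_right, hs', hs'] }
  have hσ : ∀ (κ : K) u v, polar Q (κ • u) v = polar Q u (σ κ • v) := hs'
  have hinv : ∀ a, σ (σ a) = a := fun a => huniq _ _ fun u => by
    rw [← hσ, polar_comm, ← hσ, polar_comm]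
  have hF : ∀ c : F, σ (algebraMap F K c) = algebraMap F K c := fun c => huniq _ _ fun u => by
    rw [← hσ, algebraMap_smul, algebraMap_smul, polar_smul_left', polar_smul_right']
  have hne : σ ≠ RingHom.id K := fun h0 => hs fun κ u v => by rw [hσ, h0, RingHom.id_apply]
  have hfix : ∀ x, σ x = x ↔ ∃ c : F, algebraMap F K c = x := fun x => by
    refine ⟨fun hx => ?_, fun ⟨c, hc⟩ => hc ▸ hF c⟩
    let Δ : Submodule F K :=
      { carrier := {y | σ y = y}
        add_mem' := fun {a b} (ha : σ a = a) (hb : σ b = b) => show σ _ = _ by rw [map_add, ha, hb]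
        zero_mem' := map_zero σ
        smul_mem' := fun c a (ha : σ a = a) => show σ _ = _ by
          rw [Algebra.smul_def, map_mul, hF, ha] }
    refine Linear.mem_range_of_mul_mem (Δ := Δ) (hr ▸ Nat.prime_two) (fun h0 => ?_) (fun h0 => ?_)
      fun δ (hδ : σ δ = δ) => show σ _ = _ by rw [map_mul, hx, hδ]
    · exact one_ne_zero ((Submodule.eq_bot_iff _).1 h0 1 (map_one σ))
    · exact hne (RingHom.ext fun y => (h0 ▸ Submodule.mem_top : y ∈ Δ))
  choose t ht using fun x : K => (hfix (x + σ x)).1 (by rw [map_add, hinv, add_comm])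
  let τ : K →ₗ[F] F :=
    { toFun := t
      map_add' := fun a b => (algebraMap F K).injective (by rw [map_add, ht, ht, ht, map_add]; ring)
      map_smul' := fun c a => (algebraMap F K).injective (by
        rw [RingHom.id_apply, smul_eq_mul, map_mul, ht, ht, Algebra.smul_def, map_mul, hF]; ring) }
  have hτ : ∀ x, algebraMap F K (τ x) = x + σ x := ht
  have hτ0 : τ ≠ 0 := fun h0 => hne (RingHom.ext fun y => by
    have h1 := hτ y
    have h2 := hτ 1
    rw [h0, LinearMap.zero_apply, map_zero] at h1 h2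
    rw [map_one] at h2
    rw [RingHom.id_apply]
    linear_combination -h1 + y * h2)
  have hτσ : ∀ x, τ (σ x) = τ x := fun x => (algebraMap F K).injective (by
    rw [hτ, hτ, hinv, add_comm])
  obtain ⟨B, hB⟩ := exists_kform hτ0 (polarBilin Q) hσ
  simp only [polarBilin_apply_apply] at hB
  have hsymm : ∀ u v, σ (B u v) = B v u := fun u v => eq_of_coef hτ0 fun κ => by
    rw [← hτσ, map_mul, hinv, hB, hB, ← hσ, polar_comm]
  have hN : ∀ (κ : K) v, algebraMap F K (Q (κ • v)) = κ * σ κ * algebraMap F K (Q v) := by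
    intro κ v
    obtain ⟨c, hc⟩ := hc κ
    rw [hc, map_mul, huniq (algebraMap F K c) (κ * σ κ) fun u => ?_]
    rw [algebraMap_smul, polar_smul_right', mul_comm κ, mul_smul, ← hσ]
    simp only [polar, ← smul_add, hc]
    ring
  refine ⟨σ, B, hQ, hr, ⟨hne, hinv, hsymm, fun a ha => hQ.eq_zero fun y => ?_⟩, hfix,
    fun v => ?_, fun u v => ?_⟩
  · rw [← one_smul K y, ← hB, ha, mul_zero, map_zero]
  · obtain ⟨κ, hκ⟩ : ∃ κ, τ κ ≠ 0 := by
      by_contra! h0
      exact hτ0 (LinearMap.ext h0)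
    have h1 := congrArg (algebraMap F K) (hB κ v v)
    have h2 := hN (1 + κ) v
    rw [add_smul, one_smul, Q_add, map_add, map_add, hN, ← h1, hτ, map_mul, hsymm, map_add,
      map_one] at h2
    refine mul_left_cancel₀ ((map_ne_zero (algebraMap F K)).2 hκ) ?_
    rw [hτ]
    linear_combination -h2
  · rw [← one_smul K v, ← hB, hτ, one_mul, one_smul]

namespace UStr

variable {σ : K →+* K} {B : V →ₛₗ[σ] V →ₗ[K] K} (h : UStr Q σ B)
include h

theorem Q_eq_zero {v : V} : Q v = 0 ↔ B v v = 0 := by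
  rw [← h.Q_eq, map_eq_zero (algebraMap F K)]

theorem polar_eq_zero {u v : V} (h0 : B u v = 0) : polar Q u v = 0 := by
  rw [← map_eq_zero (algebraMap F K), h.polar_eq, h0, map_zero, add_zero]

theorem Q_smul_eq_zero {v : V} (hv : Q v = 0) (κ : K) : Q (κ • v) = 0 := by
  rw [h.Q_eq_zero] at hv ⊢
  simp [hv]

theorem exists_omega : ∃ ω : K, σ ω ≠ ω := by
  by_contra! h0
  exact h.herm.ne_id (RingHom.ext h0)

theorem eq_zero_of_polar {ω : K} (hω : σ ω ≠ ω) {u v : V} (h1 : polar Q u v = 0)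
    (h2 : polar Q (ω • u) v = 0) : B u v = 0 := by
  have h3 := h.polar_eq u v
  have h4 := h.polar_eq (ω • u) v
  simp only [h1, h2, map_zero, LinearMap.map_smulₛₗ, LinearMap.smul_apply, smul_eq_mul, map_mul,
    h.herm.invol] at h3 h4
  exact (mul_eq_zero.1 (show (σ ω - ω) * B u v = 0 by
    linear_combination ω * h3 - h4)).resolve_left (sub_ne_zero.2 hω)

theorem eich_apply_smul {u : V} (hu : Q u = 0) (κ : K) (x : V) :
    (eich Q u (κ • u)).1 x = x + ((σ κ - κ) * B u x) • u := by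
  have h1 : B u u = 0 := h.Q_eq_zero.1 hu
  rw [eich_apply hu (h.polar_eq_zero (by simp [h1])), h.Q_smul_eq_zero hu, zero_mul, zero_smul,
    sub_zero, ← algebraMap_smul K (polar Q (κ • u) x), ← algebraMap_smul K (polar Q u x),
    h.polar_eq, h.polar_eq]
  simp only [LinearMap.map_smulₛₗ, LinearMap.smul_apply, smul_eq_mul, map_mul, h.herm.invol]
  module

variable [Finite F] [FiniteDimensional F V] {M : Subgroup (O Q)}
  (hn : 9 ≤ finrank F V) (hM : semiO Q K ⊓ commutator (O Q) ≤ M)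
include hn

theorem finite : Finite K := by
  have : Module.Finite F K := Module.finite_of_finrank_pos (by rw [h.rank]; omega)
  exact Module.finite_of_finite F

theorem finDim : FiniteDimensional K V := Module.Finite.of_restrictScalars_finite F K V

theorem five_le : 5 ≤ finrank K V := by
  have := h.finDim hn
  have := Module.finrank_mul_finrank F K V
  rw [h.rank] at this
  omega

include hM

theorem smul_mem_AE {u : V} (hu : Q u = 0) (κ : K) : κ • u ∈ AE M u :=
  ⟨h.polar_eq_zero (by simp [h.Q_eq_zero.1 hu]), hM ⟨mem_semiO_of_linear fun a x => by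
    rw [h.eich_apply_smul hu, h.eich_apply_smul hu, map_smul, smul_eq_mul]; module,
    eich_mem_commutator h.nd (not_exc_of_five_le (by omega)) _ _⟩⟩

theorem exists_mem_of_SUG {s : V ≃ₗ[K] V} (hs : s ∈ Unitary.SUG B) :
    ∃ t ∈ M, ∀ x, t.1 x = s x := by
  have := h.finite hn
  have := h.finDim hn
  obtain ⟨q, hq⟩ := h.herm.exists_isBar
  rw [← h.herm.TG_eq_SUG hq (by have := h.five_le hn; omega)] at hs
  let N : Subgroup (V ≃ₗ[K] V) :=
    { carrier := {s | ∃ t ∈ M, ∀ x, t.1 x = s x}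
      one_mem' := ⟨1, one_mem _, fun _ => rfl⟩
      mul_mem' := fun ⟨a, ha, ha'⟩ ⟨b, hb, hb'⟩ => ⟨a * b, mul_mem ha hb, fun x => by
        rw [O.mul_apply, hb', ha', LinearEquiv.mul_apply]⟩
      inv_mem' := fun ⟨a, ha, ha'⟩ => ⟨a⁻¹, inv_mem ha, fun x => by
        rw [O.inv_apply_eq, ha']; simp⟩ }
  refine Unitary.TG_le (N := N) (fun u c hu hc => ?_) hs
  obtain ⟨ω, hω⟩ := h.exists_omega
  have hω' := sub_ne_zero.2 hω
  obtain ⟨a, ha⟩ := (h.fix (c / (σ ω - ω))).1 (by
    rw [map_div₀, map_sub, h.herm.invol, div_eq_div_iff (sub_ne_zero.2 hω.symm) hω']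
    linear_combination (σ ω - ω) * hc)
  refine ⟨_, (h.smul_mem_AE hn hM (h.Q_eq_zero.2 hu) (algebraMap F K a * ω)).2, fun x => ?_⟩
  rw [h.eich_apply_smul (h.Q_eq_zero.2 hu), Unitary.transv_apply, map_mul,
    (h.fix _).2 ⟨a, rfl⟩, ← mul_sub, ha, div_mul_cancel₀ _ hω']

theorem apply_mem_AE_of_SUG {s : V ≃ₗ[K] V} (hs : s ∈ Unitary.SUG B) {e e' w : V} (he : Q e = 0)
    (hse : s e = e') (hw : w ∈ AE M e) : s w ∈ AE M e' := by
  obtain ⟨t, ht, ht'⟩ := h.exists_mem_of_SUG hn hM hs
  have := conj_mem_AE he ht one_ne_zero (by rw [ht', hse, one_smul]) hw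
  rwa [one_smul, ht'] at this

theorem exists_mem_AE {g : O Q} (hg : g ∈ M) (hg' : g ∉ semiO Q K) :
    ∃ e, e ≠ 0 ∧ Q e = 0 ∧ ∃ w ∈ AE M e, ∀ κ : K, κ • e ≠ w := by
  classical
  have := h.finite hn
  by_contra! hc
  obtain ⟨ω, hω⟩ := h.exists_omega
  have h1 : ∀ u, u ≠ 0 → Q u = 0 → ∃ l : K, g.1 (ω • (g⁻¹).1 u) = l • u := fun u hu0 hu => by
    have hu' : Q ((g⁻¹).1 u) = 0 := by rw [O.map_Q, hu]
    have := conj_mem_AE hu' hg one_ne_zero (e' := u) (by simp) (h.smul_mem_AE hn hM hu' ω)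
    rw [one_smul] at this
    exact (hc u hu0 hu _ this).imp fun _ h => h.symm
  have h2 : ∀ u v (a b : K), u ≠ 0 → Q u = 0 → Q v = 0 → polar Q u v = 0 → (∀ κ : K, κ • u ≠ v) →
      g.1 (ω • (g⁻¹).1 u) = a • u → g.1 (ω • (g⁻¹).1 v) = b • v → a = b := by
    intro u v a b hu0 hu hv huv hi ha hb
    obtain ⟨l, hl⟩ := h1 (u + v) (fun h0 => hi (-1) (by
      rw [neg_smul, one_smul]; exact neg_eq_of_add_eq_zero_right h0))
      (by rw [Q_add, hu, hv, huv, add_zero, add_zero])
    rw [map_add, smul_add, map_add, ha, hb] at hl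
    have h3 : l = b := by
      by_contra h0
      refine hi ((l - b)⁻¹ * (a - l)) ?_
      rw [mul_smul, inv_smul_eq_iff₀ (sub_ne_zero.2 h0), sub_smul, sub_smul]
      linear_combination (norm := module) hl
    subst h3
    rw [smul_add, add_left_inj] at hl
    exact smul_left_injective K hu0 hl
  obtain ⟨e, he0, he⟩ := exists_singular Q (by omega)
  obtain ⟨f, hf⟩ := exists_isHyp h.nd he he0
  obtain ⟨l, hl⟩ := h1 e he0 he
  have h3 : ∀ x, g.1 (ω • (g⁻¹).1 x) = l • x := by
    let S : AddSubgroup V :=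
      { carrier := {x | g.1 (ω • (g⁻¹).1 x) = l • x}
        add_mem' := fun {a b} (ha : _ = _) (hb : _ = _) => show _ = _ by
          rw [map_add, smul_add, map_add, ha, hb, smul_add]
        zero_mem' := show _ = _ by simp
        neg_mem' := fun {a} (ha : _ = _) => show _ = _ by
          rw [map_neg, smul_neg, map_neg, ha, smul_neg] }
    have h4 := addSubgroup_eq_top_of_singular hf S fun v hv => by
      rcases eq_or_ne v 0 with rfl | hv0
      · exact zero_mem _
      obtain ⟨a, ha⟩ := h.herm.exists_ne_zero he0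
      obtain ⟨b, hb⟩ := h.herm.exists_ne_zero hv0
      have h5 := finrank_span_le_card' (F := F) (s := {e, v, a, ω • a, b, ω • b})
      have h6 := finrank_add_finrank_perp h.nd (Submodule.span F
        (({e, v, a, ω • a, b, ω • b} : Finset V) : Set V))
      have h7 : ({e, v, a, ω • a, b, ω • b} : Finset V).card ≤ 6 := Finset.card_le_six
      obtain ⟨w, hw, hw0, hw'⟩ := exists_singular_mem Q (perp Q (Submodule.span F
        (({e, v, a, ω • a, b, ω • b} : Finset V) : Set V))) (by omega)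
      simp only [mem_perp_span, Finset.coe_insert, Finset.coe_singleton, Set.mem_insert_iff,
        Set.mem_singleton_iff, forall_eq_or_imp, forall_eq] at hw
      obtain ⟨k1, k2, k3, k4, k5, k6⟩ := hw
      have k7 : ∀ {u c : V}, B u c ≠ 0 → polar Q c w = 0 → polar Q (ω • c) w = 0 →
          ∀ κ : K, κ • u ≠ w := fun {u c} h1 h2 h3 κ h4 => by
        have h5 := h.eq_zero_of_polar hω h2 h3
        rw [← h4, map_smul, smul_eq_mul, mul_eq_zero, h.herm.eq_zero_comm] at h5
        exact hw0 (by rw [← h4, h5.resolve_right h1, zero_smul])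
      obtain ⟨m, hm⟩ := h1 w hw0 hw'
      obtain ⟨m', hm'⟩ := h1 v hv0 hv
      change _ = _
      rw [h2 e w l m he0 he hw' k1 (k7 ha k3 k4) hl hm,
        ← h2 v w m' m hv0 hv hw' k2 (k7 hb k5 k6) hm' hm, hm']
    exact fun x => (h4 ▸ AddSubgroup.mem_top x : x ∈ S)
  refine hg' (mem_semiO_of_forall fun κ => ?_)
  obtain ⟨a, b, rfl⟩ := Linear.exists_add_smul_of_finrank_two h.rank
    (fun c hc => hω ((h.fix ω).2 ⟨c, hc⟩)) κ
  refine ⟨algebraMap F K a + b • l, fun x => ?_⟩
  have h4 := h3 (g.1 x)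
  rw [O.inv_apply_apply] at h4
  rw [add_smul, add_smul, algebraMap_smul, algebraMap_smul, smul_assoc, smul_assoc, map_add,
    map_smul, map_smul, h4]

theorem perp_mem_AE {e w : V} (he0 : e ≠ 0) (he : Q e = 0) (hw : w ∈ AE M e)
    (hw' : ∀ κ : K, κ • e ≠ w) {z : V} (hz : B e z = 0) : z ∈ AE M e := by
  have := h.finite hn
  have := h.finDim hn
  have he' := h.Q_eq_zero.1 he
  by_cases h1 : B e w = 0
  · obtain ⟨q, hq⟩ := h.herm.exists_isBar
    obtain ⟨f, hf, hef⟩ := h.herm.exists_hyperbolic he0 he'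
    have hg : B e e * B f f - B e f * B f e ≠ 0 := by
      simp [he', hef, ← h.herm.symm e f]
    have hY := h.herm.disjoint_perp_perp (Unitary.disjoint_perp_pair_of_gram hg)
    have hd : 3 ≤ finrank K (Unitary.perp B (Submodule.span K {e, f})) := by
      have := h.herm.finrank_add_finrank_perp (Submodule.span K {e, f})
      have := Unitary.finrank_span_pair_le (F := K) e f
      have := h.five_le hn
      omega
    have h2 : ∀ x, B e x = 0 → x - B f x • e ∈ Unitary.perp B (Submodule.span K {e, f}) :=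
      fun x hx => Unitary.mem_perp_span.2 <| by simp [hx, he', ← h.herm.symm e f, hef]
    have h3 := h.herm.mem_of_UG_invariant hY hq (X := AE M e) (fun g hg hg' x hx hxY => ?_)
      (sub_mem hw (h.smul_mem_AE hn hM he _)) (h2 w h1) (sub_ne_zero.2 (hw' _).symm) (h2 z hz)
    · simpa using add_mem h3 (h.smul_mem_AE hn hM he (B f z))
    rcases eq_or_ne x 0 with rfl | hx0
    · simp
    obtain ⟨s, hs, hs'⟩ := h.herm.exists_SUG_vec_mem hY hd hxY
      (h.herm.apply_mem_of_fixStab hg hg' hxY) hx0 (by simpa) (hg x x).symm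
    rw [← hs']
    exact h.apply_mem_AE_of_SUG hn hM hs.1 he
      (hs.2 e (h.herm.le_perp_perp _ (Submodule.subset_span (by simp)))) hx
  · have h2 : B e ((B e w)⁻¹ • z) = 0 := by simp [hz]
    obtain ⟨γ, hγ⟩ := h.herm.exists_eichler_param ((B e w)⁻¹ • z)
    have h3 := h.herm.eichler_mem_QE (he := he') (hew := h2) (hwe := h.herm.eq_zero_comm.1 h2) hγ
    have h4 := h.apply_mem_AE_of_SUG hn hM (h.herm.QE_le_SUG he0 he' h3) he h3.2.1 hw
    rw [Unitary.eichler_apply, smul_inv_smul₀ h1] at h4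
    convert add_mem (sub_mem (sub_mem h4 hw) (h.smul_mem_AE hn hM he (γ * B e w)))
      (h.smul_mem_AE hn hM he (B ((B e w)⁻¹ • z) w)) using 1
    abel

theorem commutator_le {g : O Q} (hg : g ∈ M) (hg' : g ∉ semiO Q K) : commutator (O Q) ≤ M := by
  classical
  have := h.finite hn
  have := h.finDim hn
  obtain ⟨e, he0, he, w, hw, hw'⟩ := h.exists_mem_AE hn hM hg hg'
  have h1 : ∀ u z, Q u = 0 → B u z = 0 → z ∈ AE M u := fun u z hu hz => by
    rcases eq_or_ne u 0 with rfl | hu0
    · simp [mem_AE]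
    obtain ⟨s, hs, rfl⟩ := h.herm.exists_SUG_vec (by have := h.five_le hn; omega) he0 hu0
      (by rw [h.Q_eq_zero.1 he, h.Q_eq_zero.1 hu])
    obtain ⟨z, rfl⟩ := s.surjective z
    exact h.apply_mem_AE_of_SUG hn hM hs he rfl
      (h.perp_mem_AE hn hM he0 he hw hw' ((hs.1 e z).symm.trans hz))
  refine Full.commutator_le h.nd (by omega) fun u _ z _ =>
    eich_mem_of_singular h.nd (by omega) (fun z hu hz huz => ?_) z
  obtain ⟨ω, hω⟩ := h.exists_omega
  have h5 := finrank_span_le_card' (F := F) (s := {u, ω • u, z, ω • z})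
  have h7 : ({u, ω • u, z, ω • z} : Finset V).card ≤ 4 := Finset.card_le_four
  obtain ⟨x, hx, y, hy, hxy⟩ := exists_polar_eq_one h.nd (W := Submodule.span F
    (({u, ω • u, z, ω • z} : Finset V) : Set V)) (by omega)
  simp only [mem_perp_span, Finset.coe_insert, Finset.coe_singleton, Set.mem_insert_iff,
    Set.mem_singleton_iff, forall_eq_or_imp, forall_eq] at hx hy
  have := polar_smul_mem_AE hz (by rw [polar_comm, huz])
    (h1 u y hu (h.eq_zero_of_polar hω hy.1 hy.2.1))
    (h1 z x hz (h.eq_zero_of_polar hω hx.2.2.1 hx.2.2.2)) hy.2.2.1 (by rw [polar_comm, hx.1])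
  rw [hxy, one_smul] at this
  exact this.2

end UStr

open Matrix in
theorem isMaximalIn_unitary {ι : Type} [Fintype ι] [DecidableEq ι] [Finite F]
    {q : (ι → F) → F} (hq : Geo.IsNondegenerateQuadraticForm q) (hn : 9 ≤ Fintype.card ι)
    {K : Subalgebra F (Matrix ι ι F)} (hK : Geo.IsFieldSubalgebra 2 K)
    (ha : Geo.IsAdjointClosedFor (polar q) K) (hs : ¬ Geo.IsSelfAdjointFor (polar q) K)
    (hc : ∀ k ∈ K, ∃ c : F, ∀ v, q (k *ᵥ v) = c * q v) :
    Geo.IsMaximalIn (Geo.omegaGL q) (Geo.subalgebraNormalizer K ⊓ Geo.omegaGL q) := by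
  obtain ⟨Q, rfl, hQ⟩ := exists_form hq
  have : Nonempty ι := Fintype.card_pos_iff.1 (by omega)
  refine isMaximalIn_semiO hQ (by omega) le_rfl hK fun M h1 _ g hg hg' => ?_
  let _ := (Asch.isField_of_isFieldSubalgebra hK).toField
  obtain ⟨σ, B, h⟩ := exists_uStr (K := K) hQ hK.finrank_eq
    (fun κ => (ha κ κ.2).elim fun k hk => ⟨⟨k, hk.1⟩, hk.2⟩) (fun h0 => hs fun k hk => h0 ⟨k, hk⟩)
    fun κ => hc κ κ.2
  exact h.commutator_le (by simpa) h1 hg hg'

end Cfsg.Lib.OMax
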