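import Cfsg.Agent.Lib.OMax.Frame5

/-!
# Orthogonal frames in dimension six: new reflections in the class of the roots
-/

set_option autoImplicit false

namespace Cfsg.Lib.OMax

open QuadraticMap Module Cfsg.Lib.Orth Finset

variable {F V : Type*} [Field F] [AddCommGroup V] [Module F V] {Q : QuadraticForm F V}
  {K : Subgroup (O Q)}

namespace Fr

variable {κ : Type*} [DecidableEq κ] {e : κ → V} (S : Fr Q e) [Fintype κ] [FiniteDimensional F V]
  (hH : mon Q e ⊓ commutator (O Q) ≤ K)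
  (h0 : ∀ i j, i ≠ j → ∀ ε : F, ε * ε = 1 → refl Q (e i + ε • e j) ∈ K)
  [Finite F] (hn : Fintype.card κ = 6)
include S h0 hH hn

theorem core_rt_of_three' (h3 : (3 : F) = 0) {a : V} (ha : Q a = 1) (ha' : refl Q a ∈ K)
    (ha'' : refl Q a ∉ mon Q e) : commutator (O Q) ≤ K := by
  classical
  have h2 := S.two
  have R := S.rg_rt h0 (by omega)
  have h1 := S.polar_self_of_three h3 a
  rw [ha] at h1
  generalize hI : (univ.filter fun i => polar Q (e i) a ≠ 0) = I at h1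
  have hI' : ∀ i, i ∈ I ↔ polar Q (e i) a ≠ 0 := by simp [← hI]
  have hs : ∀ T ⊆ I, ∑ i ∈ T, polar Q (e i) a * polar Q (e i) a = T.card := fun T hT => by
    rw [sum_congr rfl (g := fun _ => (1 : F)) fun i hi => by
      rw [← pow_two, S.prime.sq_eq_one h3 ((hI' i).1 (hT hi))]]
    simp
  have h4 : I.card = 5 := by
    obtain ⟨i, j, hij, hi, hj⟩ := S.exists_two ha''
    obtain ⟨k, b1, b2, hk⟩ : ∃ k, k ≠ i ∧ k ≠ j ∧ polar Q (e k) a ≠ 0 := by
      by_contra! h
      exact ha'' (S.mem_of_supp_two hij h (by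
        rw [S.prime.sq_eq_one h3 hi, S.prime.sq_eq_one h3 hj]))
    have : 2 < I.card := two_lt_card_iff.2 ⟨i, j, k, (hI' _).2 hi, (hI' _).2 hj, (hI' _).2 hk, hij,
      b1.symm, b2.symm⟩
    have h5 : I.card ≤ 6 := hn ▸ card_le_univ I
    generalize I.card = k at *
    interval_cases k
    · exact absurd (by linear_combination h3 - h1) h2
    · exact absurd (by linear_combination h1) h2
    · rfl
    · exact absurd (by linear_combination 2 * h3 - h1) h2
  obtain ⟨o, -, ho⟩ := exists_mem_notMem_of_card_lt_card (s := I) (t := univ)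
    (by rw [card_univ]; omega)
  obtain ⟨T, hT, hT'⟩ := exists_subset_card_eq (show 3 ≤ I.card by omega)
  have h5 : o ∉ T := fun h => ho (hT h)
  have ho' : polar Q (e o) a = 0 := not_not.1 (mt (hI' o).2 ho)
  obtain ⟨t, ht⟩ := card_pos.1 (show 0 < T.card by omega)
  obtain ⟨σ, h7, h8, h9⟩ := S.exists_flip hH (T := insert o T)
    (Or.inl (by rw [card_insert_of_notMem h5, hT']; decide))
  have h10 : Q (a - σ.1 a) = 0 := by
    rw [Q_sub, O.map_Q, h9, polar_self', sum_insert h5, hs T hT, hT', ho']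
    linear_combination 2 * h3
  have h11 : ∀ k ∉ T, polar Q (e k) (a - σ.1 a) = 0 := fun k hk => by
    rw [polar_sub_right, h8]
    by_cases h : k = o <;> simp [h, hk, ho']
  have h12 := mem_AE_of_sub ha' (refl_map_mem h7 ha') (ha ▸ R.ne) (O.map_Q _ _).symm h10
  have h0' : a - σ.1 a ≠ 0 := fun h => by
    have := congrArg (polar Q (e t)) h
    rw [polar_sub_right, h8, if_pos (mem_insert_of_mem ht), polar_zero_right] at this
    exact (hI' t).1 (hT ht) (mul_left_cancel₀ h2 (by linear_combination this))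
  generalize a - σ.1 a = s at *
  rw [ha, inv_one, one_smul] at h12
  have h13 : ∀ m ∈ I \ T, e m ∈ AE K s ∧ e o ∈ AE K s := fun m hm => by
    rw [mem_sdiff] at hm
    have b1 : m ≠ o := ne_of_mem_of_not_mem hm.1 ho
    have b2 : ∀ ε : F, ε * ε = 1 → e m + ε • e o ∈ AE K s := fun ε hε =>
      R.mem_AE (S.Q_rt b1 hε) (h0 _ _ b1 _ hε)
        (by rw [polar_comm]; simp [polar_add_left, h11, hm.2, h5]) h12
        (by simpa [polar_add_left, ho'] using (hI' m).1 hm.1)
    have b3 := b2 1 (by simp)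
    have b4 := b2 (-1) (by simp)
    constructor
    · convert R.prime.smul_mem (add_mem b3 b4) 2⁻¹ using 1
      match_scalars <;> field_simp <;> ring
    · convert R.prime.smul_mem (sub_mem b3 b4) 2⁻¹ using 1
      match_scalars <;> field_simp <;> ring
  obtain ⟨k, hk, l, hl, hkl⟩ := one_lt_card.1 (show 1 < (I \ T).card by
    rw [card_sdiff_of_subset hT]; omega)
  have b1 : k ≠ o := ne_of_mem_of_not_mem (mem_sdiff.1 hk).1 ho
  have b2 : l ≠ o := ne_of_mem_of_not_mem (mem_sdiff.1 hl).1 ho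
  refine R.commutator_le_of_hyp h0' h10
    (add_mem (add_mem (h13 k hk).1 (h13 l hl).1) (h13 k hk).2) ?_ (h13 k hk).1 ?_
  · simp only [Q_add, polar_add_left, S.pol, S.Q_e, b1, b2, hkl, if_false]
    linear_combination 2⁻¹ * h3
  · simp [polar_add_left, S.pol, hkl.symm, b1.symm]

theorem core_rt_of_ne' (h3 : (3 : F) ≠ 0) {a : V} (ha : Q a = 1) (ha' : refl Q a ∈ K)
    (ha'' : refl Q a ∉ mon Q e) : commutator (O Q) ≤ K := by
  classical
  by_contra hc
  have h2 := S.two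
  have R := S.rg_rt h0 (by omega)
  have A : ∀ u v, Q u = 1 → refl Q u ∈ K → Q v = 1 → refl Q v ∈ K → ∀ k l,
      polar Q (e k) u ≠ polar Q (e k) v → polar Q (e l) u ≠ -polar Q (e l) v →
      Ang (polar Q u v ^ 2) := fun u v h1 h4 h5 h6 k l h7 h8 => by
    simpa using R.ang h3 hc (by rw [S.card_eq]; omega) h1 h4 h5 h6 (fun h => h7 (h ▸ rfl))
      fun h => h8 (by rw [h, polar_neg_right])
  have B : ∀ w, Q w = 1 → refl Q w ∈ K → refl Q w ∉ mon Q e → ∀ i j, i ≠ j → ∀ ε : F, ε * ε = 1 →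
      Ang ((polar Q (e i) w + ε * polar Q (e j) w) ^ 2) := fun w h1 h4 h5 i j hij ε hε => by
    simpa [polar_add_left, polar_smul_left'] using R.ang h3 hc (by rw [S.card_eq]; omega)
      (S.Q_rt hij hε) (h0 i j hij ε hε) h1 h4 (fun h => h5 (h ▸ S.refl_rt_mem hij hε))
      fun h => h5 (refl_neg (Q := Q) w ▸ h ▸ S.refl_rt_mem hij hε)
  have n2 : ∀ x : F, x ≠ 0 → x ≠ -x := fun x h h' => h (mul_left_cancel₀ h2
    (by linear_combination h'))
  have C : ∀ w, Q w = 1 → refl Q w ∈ K → ∀ T : Finset κ, Even T.card → ∀ t ∈ T, ∀ m ∉ T,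
      polar Q (e t) w ≠ 0 → polar Q (e m) w ≠ 0 →
      Ang ((2 - 2 * ∑ i ∈ T, polar Q (e i) w ^ 2) ^ 2) := fun w h1 h4 T h5 t ht m hm h6 h7 => by
    obtain ⟨σ, a1, a2, a3⟩ := S.exists_flip hH (T := T) (Or.inl h5)
    simpa [a3, polar_self', h1, ← pow_two] using A w _ h1 h4 ((O.map_Q _ _).trans h1)
      (refl_map_mem a1 h4) t m (by simpa [a2, ht] using n2 _ h6) (by simpa [a2, hm] using n2 _ h7)
  have Z : ∀ w, Q w = 1 → refl Q w ∈ K → refl Q w ∉ mon Q e → ∀ o, polar Q (e o) w ≠ 0 :=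
    fun w h1 h4 h5 o ho => by
    have a0 : ∀ i, polar Q (e i) w ≠ 0 → i ≠ o := by rintro i hi rfl; exact hi ho
    have a1 : ∀ i, polar Q (e i) w ≠ 0 → Ang (polar Q (e i) w ^ 2) := fun i hi => by
      simpa [ho] using B w h1 h4 h5 i o (a0 i hi) 1 (one_mul 1)
    have a2 : ∀ i j, i ≠ j → polar Q (e i) w ≠ 0 → polar Q (e j) w ≠ 0 →
        Ang ((2 - 2 * polar Q (e i) w ^ 2) ^ 2) ∧
        Ang ((2 - polar Q (e i) w ^ 2 - 2 * polar Q (e j) w ^ 2) ^ 2) := fun i j hij hi hj => by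
      refine ⟨by simpa [sum_pair (a0 i hi), ho] using C w h1 h4 {i, o} (by
        simp [card_pair (a0 i hi)]) i (by simp) j (by simp [hij.symm, a0 j hj]) hi hj, ?_⟩
      obtain ⟨σ, b1, b2, b3⟩ := S.exists_flip hH (T := {i, j}) (Or.inl (by simp [card_pair hij]))
      have b4 := h0 i o (a0 i hi) (-1) (by simp)
      rw [neg_one_smul, ← sub_eq_add_neg] at b4
      have b5 : polar Q (e o) (σ.1 ((refl Q (e i - e o)).1 w)) = polar Q (e i) w := by
        simp [b2, S.pol_swap (a0 i hi), (a0 i hi).symm, (a0 j hj).symm]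
      convert A w _ h1 h4 (by simpa) (refl_map_mem b1 (refl_map_mem b4 h4)) o o
        (by rw [b5, ho]; exact hi.symm) (by rw [b5, ho]; exact (neg_ne_zero.2 hi).symm) using 2
      rw [b3, sum_pair hij, S.pol_swap (a0 i hi), S.pol_swap (a0 i hi), if_pos rfl, if_neg hij.symm,
        if_neg (a0 j hj), refl_apply, S.Q_sub' (a0 i hi), polar_sub_right, polar_self', h1,
        polar_smul_right', polar_comm Q w, polar_sub_left, ho]
      ring
    have a3 : ∀ i j, i ≠ j → polar Q (e i) w ≠ 0 → polar Q (e j) w ≠ 0 → polar Q (e i) w ^ 2 = 1 :=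
      fun i j hij hi hj => (a1 i hi).zeroR h2 h3 (a1 j hj) (pow_ne_zero _ hi) (pow_ne_zero _ hj)
        (a2 i j hij hi hj).1 (a2 j i hij.symm hj hi).1 (a2 i j hij hi hj).2
        (a2 j i hij.symm hj hi).2
    obtain ⟨i, j, hij, hi, hj⟩ := S.exists_two h5
    refine h5 (S.mem_of_supp_two hij (fun k b1 b2 => by_contra fun hk => ?_)
      (by rw [a3 i j hij hi hj, a3 j i hij.symm hj hi]))
    refine (C w h1 h4 {i, j} (by simp [card_pair hij]) i (by simp) k (by simp [b1, b2]) hi hk).1 ?_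
    rw [sum_pair hij, a3 i j hij hi hj, a3 j i hij.symm hj hi]; norm_num
  have E : ∀ w, Q w = 1 → refl Q w ∈ K → refl Q w ∉ mon Q e → ∀ i j, i ≠ j →
      polar Q (e i) w ^ 2 = polar Q (e j) w ^ 2 → Ang (4 * polar Q (e i) w ^ 2) :=
    fun w h1 h4 h5 i j hij h => by
    rcases sq_eq_sq_iff_eq_or_eq_neg.1 h with h | h
    · convert B w h1 h4 h5 i j hij 1 (one_mul 1) using 1; rw [← h]; ring
    · convert B w h1 h4 h5 i j hij (-1) (by simp) using 1; rw [h]; ring
  have Z' := Z a ha ha' ha''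
  have C' : ∀ T : Finset κ, Even T.card → T.card ≤ 5 → ∀ t ∈ T,
      Ang ((2 - 2 * ∑ i ∈ T, polar Q (e i) a ^ 2) ^ 2) := fun T h4 h5 t ht => by
    obtain ⟨m, -, hm⟩ := exists_mem_notMem_of_card_lt_card (s := T) (t := univ)
      (by rw [card_univ]; omega)
    exact C a ha ha' T h4 t ht m hm (Z' _) (Z' _)
  have G : ∀ i j, i ≠ j → ∀ c, 2 * (polar Q (e i) a ^ 2 + polar Q (e j) a ^ 2) = c → c ≠ 1 →
      ∃ w, Q w = 1 ∧ refl Q w ∈ K ∧ refl Q w ∉ mon Q e ∧ polar Q (e i) w = (3 - c) * polar Q (e i) a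
        ∧ ∀ k, k ≠ i → k ≠ j → polar Q (e k) w = (c - 1) * polar Q (e k) a := fun i j hij c h h' => by
    obtain ⟨σ, b1, b2, b3⟩ := S.exists_flip hH (T := {i, j}) (Or.inl (by simp [card_pair hij]))
    have b4 : ∀ k, polar Q (e k) ((refl Q (σ.1 a)).1 a) = polar Q (e k) a - (2 - c) *
        polar Q (e k) (σ.1 a) := fun k => by
      rw [refl_apply, O.map_Q, ha, polar_sub_right, polar_smul_right', polar_comm Q (σ.1 a) a,
        b3 a a, polar_self', ha, sum_pair hij, ← h]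
      ring
    have b5 : ∀ k, k ≠ i → k ≠ j → polar Q (e k) ((refl Q (σ.1 a)).1 a) =
        (c - 1) * polar Q (e k) a := fun k c1 c2 => by
      rw [b4, b2, if_neg (by simp [c1, c2])]; ring
    refine ⟨_, by simpa, refl_map_mem (refl_map_mem b1 ha') ha', ?_, by
      rw [b4, b2, if_pos (by simp)]; ring, b5⟩
    obtain ⟨k, l, m, c1, c2, c3, c4, c5, c6⟩ := two_lt_card_iff.1
      (show 2 < ({i, j} : Finset κ)ᶜ.card by rw [card_compl, card_pair hij]; omega)
    simp only [mem_compl, mem_insert, mem_singleton, not_or] at c1 c2 c3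
    have b6 : ∀ k, k ≠ i → k ≠ j → polar Q (e k) ((refl Q (σ.1 a)).1 a) ≠ 0 := fun k c1 c2 =>
      b5 k c1 c2 ▸ mul_ne_zero (sub_ne_zero.2 h') (Z' k)
    exact S.notMem_of_three (by simp [ha]) c4 c5 c6 (b6 _ c1.1 c1.2) (b6 _ c2.1 c2.2)
      (b6 _ c3.1 c3.2)
  have D : ∀ i j, polar Q (e i) a ^ 2 ≠ polar Q (e j) a ^ 2 → ∃ p : F, p ≠ 4 ∧
      p ^ 2 - 3 * p + 1 = 0 ∧ 2 * (polar Q (e i) a ^ 2 + polar Q (e j) a ^ 2) = 1 + p ∧
      16 * (polar Q (e i) a ^ 2 * polar Q (e j) a ^ 2) = p := fun i j h => by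
    have hij : i ≠ j := fun h' => h (h' ▸ rfl)
    refine (Ang.fullR h2 h3 (Z' i) (Z' j) (by simpa using B a ha ha' ha'' i j hij 1 (one_mul 1))
      (by simpa [sub_eq_add_neg] using B a ha ha' ha'' i j hij (-1) (by simp))
      (by simpa [sum_pair hij] using C' {i, j} (by simp [card_pair hij]) (card_le_two.trans
        (by omega)) i (by simp)) fun h4 => ?_).resolve_left h
    obtain ⟨w, b1, b2, b3, b4, -⟩ := G i j hij 3 h4 fun h => h2 (by linear_combination h)
    exact Z w b1 b2 b3 i (by simpa using b4)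
  have hs : ∑ i, polar Q (e i) a ^ 2 = 2 := by
    have := S.polar_sum a a
    rw [polar_self', ha, mul_one] at this
    simp only [pow_two, ← this]
  obtain ⟨I, hI, y, hy⟩ : ∃ I : Finset κ, 4 ≤ I.card ∧ ∃ y, ∀ i ∈ I, polar Q (e i) a ^ 2 = y := by
    obtain ⟨i⟩ : Nonempty κ := Fintype.card_pos_iff.1 (by omega)
    by_cases h : 4 ≤ (univ.filter fun k => polar Q (e k) a ^ 2 = polar Q (e i) a ^ 2).card
    · exact ⟨_, h, _, fun k hk => (mem_filter.1 hk).2⟩
    generalize hJ : (univ.filter fun k => polar Q (e k) a ^ 2 = polar Q (e i) a ^ 2) = J at h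
    have hJ' : ∀ k, k ∈ J ↔ polar Q (e k) a ^ 2 = polar Q (e i) a ^ 2 := by simp [← hJ]
    have h4 := card_compl J
    obtain ⟨j, hj⟩ := card_pos.1 (show 0 < Jᶜ.card by omega)
    have h6 : ∀ k ∈ Jᶜ, polar Q (e k) a ^ 2 = polar Q (e j) a ^ 2 := fun k hk => by_contra fun h5 => by
      simp only [mem_compl, hJ'] at hj hk
      obtain ⟨p, -, p1, p2, -⟩ := D j i hj
      obtain ⟨q, -, q1, q2, -⟩ := D k i hk
      obtain ⟨r, -, r1, r2, -⟩ := D k j h5
      rcases Ang.roots h2 h3 p1 q1 with rfl | ⟨c1, -⟩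
      · exact h5 (mul_left_cancel₀ h2 (by linear_combination q2 - p2))
      rcases Ang.roots h2 h3 p1 r1 with rfl | ⟨c2, -⟩
      · exact hk (mul_left_cancel₀ h2 (by linear_combination r2 - p2))
      · exact hj (mul_left_cancel₀ h2 (by linear_combination r2 - q2 + c2 - c1))
    refine ⟨Jᶜ, by_contra fun h7 => ?_, _, h6⟩
    rw [← sum_add_sum_compl J, sum_congr rfl fun k hk => (hJ' k).1 hk, sum_congr rfl h6, sum_const,
      sum_const, show J.card = 3 by omega, show Jᶜ.card = 3 by omega] at hs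
    obtain ⟨p, -, p1, p2, -⟩ := D j i (by simpa [hJ'] using hj)
    simp only [nsmul_eq_mul, Nat.cast_ofNat] at hs
    have h8 : 3 * p = 1 := by linear_combination 2 * hs - 3 * p2
    exact one_ne_zero (α := F) (by linear_combination 9 * p1 - (3 * p - 8) * h8)
  obtain ⟨T, hT, hT'⟩ := exists_subset_card_eq hI
  obtain ⟨i, j, k, l, c1, c2, c3, c4, c5, c6, rfl⟩ := card_eq_four.1 hT'
  have hi := hy i (hT (by simp))
  have hj := hy j (hT (by simp))
  have hk := hy k (hT (by simp))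
  have hl := hy l (hT (by simp))
  obtain ⟨y4, h4 | h4 | h4 | h4⟩ := hi ▸ E a ha ha' ha'' i j c1 (hi.trans hj.symm)
  · exact pow_ne_zero 2 (Z' i) (eq_of_six h2 h3 2 0 (by linear_combination h4 + 4 * hi))
  · have h5 : ∀ m, 4 * polar Q (e m) a ^ 2 = 1 := fun m => by_contra fun h5 => by
      obtain ⟨p, p0, p1, p2, p3⟩ := D m i fun h => h5 (by rw [h, hi, h4])
      rw [hi] at p2 p3
      exact p0 (eq_four p1 (by clear * - p1 p2 p3 h4; grind))
    have : 4 * ∑ i, polar Q (e i) a ^ 2 = 6 := by simp [mul_sum, h5, hn]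
    exact h2 (by linear_combination this - 4 * hs)
  · refine (C' _ (by rw [hT']; decide) (by omega) i (by simp)).1 ?_
    rw [sum_congr rfl fun m hm => hy m (hT hm), sum_const, hT', nsmul_eq_mul]
    linear_combination (16 * y) * h4
  · have h5 : 4 * y ≠ 1 := fun h => one_ne_zero (α := F) (by rw [h] at h4; linear_combination -h4)
    obtain ⟨w, b1, b2, b3, -, b4⟩ := G i j c1 (4 * y) (by rw [hi, hj]; ring) h5
    refine Ang.not_sq h2 h3 h4 y4 ?_
    convert E w b1 b2 b3 k l c6 (by rw [b4 k c2.symm c4.symm, b4 l c3.symm c5.symm, mul_pow, mul_pow,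
      hk, hl]) using 1
    rw [b4 k c2.symm c4.symm, mul_pow (_ - 1), hk]
    linear_combination (-4 * y) * h4

theorem core_rt' {a : V} (ha : Q a = 1) (ha' : refl Q a ∈ K) (ha'' : refl Q a ∉ mon Q e) :
    commutator (O Q) ≤ K := by
  by_cases h3 : (3 : F) = 0
  exacts [S.core_rt_of_three' hH h0 hn h3 ha ha' ha'', S.core_rt_of_ne' hH h0 hn h3 ha ha' ha'']

end Fr

end Cfsg.Lib.OMax
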