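import Cfsg.Agent.Lib.OMax.RatStd

/-!
# Maximality of subfield subgroups of `Ω` in dimension at least `7`
-/

set_option autoImplicit false

namespace Cfsg.Lib.OMax

open QuadraticMap Module Cfsg.Lib.Orth
open Cfsg.Lib.Unitary (ratStab finrank_span_singleton_le finrank_span_triple_le
  mem_ratStab_of_comm comm_of_mem_ratStab)

section General

variable {F V : Type*} [Field F] [AddCommGroup V] [Module F V] {Q : QuadraticForm F V}

namespace RS

variable {τ : F ≃+* F} {T : AddMonoid.End V} (R : RS Q τ T) [Finite F] [FiniteDimensional F V]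
  (hQ : ND Q) (hn : 7 ≤ finrank F V) {K : Subgroup (O Q)}
  (hH : (ratStab F T).subgroupOf (O Q) ⊓ commutator (O Q) ≤ K)
  (hK' : ¬ commutator (O Q) ≤ K) (hK : K ≤ commutator (O Q))
include R hQ hn hH hK' hK

theorem apply_mem_of_triple' {e e' e'' p p' : V} (hT : T e = e) (hT' : T e' = e')
    (hT'' : T e'' = e'') (he : Q e = 0) (he' : Q e' = 0) (he'' : Q e'' = 0)
    (h0 : polar Q e' e'' = 0) (h1 : polar Q e e' = 0) (h2 : polar Q e e'' = 0)
    (hp : Q p = 0) (hpp : polar Q p p' = 0) (hx : eich Q p p' ∈ K) (h3 : polar Q p e = 0)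
    (h4 : polar Q p' e ≠ 0) (h5 : polar Q e' p ≠ 0) (h6 : polar Q e'' p ≠ 0)
    (h7 : e' ∉ Submodule.span F {p, p', e, e''}) :
    T p ∈ Submodule.span F {e, e', e'', p, p'} := by
  have h3' : polar Q e p = 0 := by rwa [polar_comm]
  have hts := ts_span_pair he hp h3'
  have key : ∀ x, T x = x → (eich Q e x ∈ K ⊓ fixer Q (perp Q (Submodule.span F {e, x, p, p'})) ⊓
      stab Q (Submodule.span F {e, p}) ∧ eich Q p p' ∈ K ⊓ fixer Q (perp Q
        (Submodule.span F {e, x, p, p'})) ⊓ stab Q (Submodule.span F {e, p})) := fun x hx' =>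
    ⟨⟨⟨R.eich_mem hQ (by omega) hH hT hx', fun w hw => eich_apply_of_perp'
      (mem_perp_span.1 hw _ (by simp)) (mem_perp_span.1 hw _ (by simp))⟩,
      eich_mem_stab hts (Submodule.subset_span (by simp)) _⟩,
    ⟨⟨hx, fun w hw => eich_apply_of_perp'
      (mem_perp_span.1 hw _ (by simp)) (mem_perp_span.1 hw _ (by simp))⟩,
      eich_mem_stab hts (Submodule.subset_span (by simp)) _⟩⟩
  obtain ⟨k, ⟨⟨k1, k2⟩, k3⟩, a, hka⟩ := exists_swap inf_le_right (key e' hT').1 (key e' hT').2
    he hp h1 hpp h3' h5 h4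
  obtain ⟨l, ⟨⟨l1, l2⟩, l3⟩, b, hlb⟩ := exists_swap (e := p) (p := e)
    (inf_le_right.trans (by rw [Set.pair_comm])) (key e'' hT'').2 (key e'' hT'').1
    hp he hpp h2 h3 h4 h6
  have he0 : e ≠ 0 := by rintro rfl; simp at h4
  have hme : (l * k).1 e = (a * b) • e := by rw [O.mul_apply, hka, map_smul, hlb, smul_smul]
  set X := Submodule.span F {e, e', e'', p, p'} with hX
  have hfix : l * k ∈ fixer Q (perp Q X) := fun w hw => by
    rw [O.mul_apply, k2 w (perp_anti (Submodule.span_mono (by simp [Set.insert_subset_iff])) hw),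
      l2 w (perp_anti (Submodule.span_mono (by simp [Set.insert_subset_iff])) hw)]
  obtain ⟨d, -, hd⟩ := R.mem_ratStab_of_stab hQ (by omega) hH hK' hK he hT he0 (mul_mem l1 k1) hme
  have hd1 : d = 1 := by
    by_contra hne
    have hE : ∀ x ∈ perp Q X, ∃ a b c : F, x = a • e + b • e' + c • e'' := fun x hx => by
      have e1 := hd x
      rw [hfix x hx] at e1
      have e2 : T x ∈ X := by
        have := X.smul_mem d (sub_mem_of_fixer hQ hfix (T x))
        rw [smul_sub, ← e1] at this
        refine (X.smul_mem_iff (sub_ne_zero.2 (Ne.symm hne))).1 ?_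
        convert this using 1; (module)
      have e3 := mem_perp_span.1 hx
      obtain ⟨a, y, hy, e4⟩ := Submodule.mem_span_insert.1 e2
      obtain ⟨b, y₁, hy₁, rfl⟩ := Submodule.mem_span_insert.1 hy
      obtain ⟨c, y₂, hy₂, rfl⟩ := Submodule.mem_span_insert.1 hy₁
      obtain ⟨s, t, rfl⟩ := Submodule.mem_span_pair.1 hy₂
      have e5 := R.polar_right hT x
      have e6 := R.polar_right hT' x
      rw [e4, e3 _ (by simp), map_zero] at e5 e6
      have e7 : t = 0 := by
        simpa [polar_add_right, polar_self', he, h1, h2, h3', polar_comm Q e p', h4] using e5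
      have e8 : s = 0 := by
        simpa [polar_add_right, polar_self', he', h0, polar_comm Q e' e, h1, e7, h5] using e6
      refine ⟨τ.symm a, τ.symm b, τ.symm c, sub_eq_zero.1 (hQ.eq_zero fun y => ?_)⟩
      have := R.polar_eq (x - (τ.symm a • e + τ.symm b • e' + τ.symm c • e'')) y
      rw [map_sub, map_add, map_add, R.smul, R.smul, R.smul, hT, hT', hT'', e4, e7, e8] at this
      simp only [RingEquiv.apply_symm_apply, zero_smul, add_zero, add_assoc, sub_self,
        polar_zero_left] at this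
      simpa only [add_assoc, map_eq_zero] using this.symm
    have hE' : ∀ a b : F, a • e + b • e' ∈ perp Q X → a • e + b • e' = 0 := fun a b hx => by
      have e3 := mem_perp_span.1 hx
      have e4 : b = 0 := by
        simpa [polar_add_right, h3, polar_comm Q p e', h5] using e3 p (by simp)
      have e5 : a = 0 := by simpa [e4, h4] using e3 p' (by simp)
      simp [e4, e5]
    have e1 := finrank_add_finrank_perp hQ X
    have e3 : finrank F X ≤ 5 := finrank_span_five_le e e' e'' p p'
    obtain ⟨x, hx, hx0⟩ := Unitary.exists_notMem_of_lt (W := perp Q X) (Z := ⊥)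
      (by rw [finrank_bot]; omega)
    have e4 := finrank_span_singleton_le (F := F) x
    obtain ⟨y, hy, hy0⟩ := Unitary.exists_notMem_of_lt (W := perp Q X) (Z := F ∙ x) (by omega)
    have hxy := fun s t : F => add_mem ((perp Q X).smul_mem s hx) ((perp Q X).smul_mem t hy)
    obtain ⟨a, b, c, rfl⟩ := hE x hx
    obtain ⟨a', b', c', rfl⟩ := hE y hy
    by_cases hc : c = 0
    · exact hx0 (by simpa [hc] using hE' a b (by simpa [hc] using hx))
    have := hE' (c' * a - c * a') (c' * b - c * b') (by convert hxy c' (-c) using 1; (module))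
    exact hy0 ((Submodule.smul_mem_iff _ hc).1 (Submodule.mem_span_singleton.2 ⟨c', by
      linear_combination (norm := module) this⟩))
  simp only [hd1, one_smul] at hd
  obtain ⟨z, hz, hz1⟩ := exists_perp_polar_eq hQ h7 1
  have hz' := mem_perp_span.1 hz
  obtain ⟨γ, δ, h8⟩ := Submodule.mem_span_pair.1 (apply_mem_of_mem_stab (mul_mem l3 k3)
    (Submodule.subset_span (by simp) : p ∈ Submodule.span F {e, p}))
  have hδ : δ ≠ 0 := by
    rintro rfl
    have hab : a * b ≠ 0 := fun h0 => he0 ((l * k).1.injective (by rw [hme, h0, zero_smul, map_zero]))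
    have : p = (γ / (a * b)) • e := (l * k).1.injective (by
      rw [← h8, map_smul, hme, smul_smul, div_mul_cancel₀ _ hab]; simp)
    rw [this, polar_smul_right', polar_comm, h1, mul_zero] at h5
    exact h5 rfl
  have h9 : k.1 (z - (polar Q e' p)⁻¹ • p) = z - (polar Q e' p)⁻¹ • p := k2 _ (mem_perp_span.2 (by
    simp [polar_sub_right, hz', h3', hz1, h5, polar_self', hp, polar_comm Q p' p, hpp]))
  have h10 : l.1 z = z := l2 _ (mem_perp_span.2 (by simp [hz']))
  have h11 : (l * k).1 z - z = ((polar Q e' p)⁻¹ * (γ - b)) • e + ((polar Q e' p)⁻¹ * δ) • p := by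
    have := congrArg l.1 h9
    rw [← O.mul_apply, map_sub, map_sub, map_smul, map_smul, ← h8, h10, hlb] at this
    linear_combination (norm := module) this
  have h12 := sub_mem_of_fixer hQ hfix (T z)
  rw [← hd, ← map_sub, h11, map_add, R.smul, R.smul, hT, Submodule.add_mem_iff_right _
    (X.smul_mem _ (Submodule.subset_span (by simp)))] at h12
  exact (X.smul_mem_iff ((map_ne_zero τ).2 (mul_ne_zero (inv_ne_zero h5) hδ))).1 h12

/-- The long root elements of a proper overgroup are rational. -/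
theorem apply_mem_of_long' {u z : V} (hu : Q u = 0) (hz : Q z = 0) (huz : polar Q u z = 0)
    (hz' : z ∉ F ∙ u) (hx : eich Q u z ∈ K) : T u ∈ Submodule.span F {u, z} := by
  by_contra hne
  have hno : ∀ e, T e = e → Q e = 0 → e ≠ 0 → ¬ (polar Q u e = 0 ∧ polar Q z e = 0) :=
    fun e h1 h2 h3 h4 => hne (R.sub_mem_of_fix hQ (by omega) hH hK' hK h2 h1 h3 hx hu huz hz'
      h4.1 h4.2)
  set L := Submodule.span F {u, z} with hL
  have hL2 : finrank F L ≤ 2 := finrank_span_pair_le u z
  obtain ⟨e, -, a1, a2, a3⟩ := R.exists_iso (W := ⊤) (Z := L) (by simp) (by simp; omega)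
  have d1 := finrank_add_finrank_perp hQ (F ∙ e)
  have d2 := finrank_span_singleton_le (F := F) e
  have d3 := finrank_sup_le L (F ∙ e)
  obtain ⟨e', b0, b1, b2, b3⟩ := R.exists_iso (R.inv_perp (R.inv_span (s := {e}) (by simpa)))
    (Z := L ⊔ F ∙ e) (by omega)
  rw [mem_perp_singleton] at b0
  have ind2 : ∀ a b : F, a • e + b • e' ∈ L → a = 0 ∧ b = 0 := by
    intro a b h
    have hb : b = 0 := by
      by_contra hb
      refine b3 ((Submodule.smul_mem_iff _ hb).1 ?_)
      rw [show b • e' = (a • e + b • e') + (-a) • e by module]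
      exact Submodule.add_mem_sup h (Submodule.mem_span_singleton.2 ⟨_, rfl⟩)
    refine ⟨?_, hb⟩
    by_contra ha
    exact a3 ((Submodule.smul_mem_iff _ ha).1 (by simpa [hb] using h))
  have opp : ∀ {e₀ e₁ p p' : V}, T e₀ = e₀ → T e₁ = e₁ → Q e₀ = 0 → Q e₁ = 0 →
      polar Q e₀ e₁ = 0 → (∀ a b : F, a • e₀ + b • e₁ ∈ L → a = 0 ∧ b = 0) → Q p = 0 →
      polar Q p p' = 0 → Submodule.span F {p, p'} = L → eich Q p p' = eich Q u z →
      polar Q p e₀ = 0 → polar Q p' e₀ = 1 → polar Q e₁ p ≠ 0 := by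
    intro e₀ e₁ p p' h1 h2 h3 h4 h5 h6 h7 h8 h9 h10 h11 h12 h13
    have hpL : p ∈ L := h9 ▸ Submodule.subset_span (by simp)
    have h13' : polar Q p e₁ = 0 := by rwa [polar_comm]
    have h14 := mul_mem (mul_mem hx (R.eich_mem hQ (by omega) hH h1 h2)) (inv_mem hx)
    set c := polar Q p' e₁ with hc
    have q1 : Q (e₀ + p) = 0 := by simp [Orth.Q_add, h3, h7, polar_comm Q e₀ p, h11]
    have q2 : Q (e₁ - c • e₀) = 0 := by simp [Q_sub, Q_smul, h3, h4, polar_comm Q e₁ e₀, h5]
    have q3 : polar Q (e₁ - c • e₀) (e₀ + p) = 0 := by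
      simp [polar_sub_left, polar_add_right, polar_comm Q e₁ e₀, h5, h13, polar_self', h3,
        polar_comm Q e₀ p, h11]
    rw [conj_eich, ← h10, eich_apply_of_perp h7 h8 h11, eich_apply_of_perp h7 h8 h13', h12,
      one_smul, ← hc, show e₁ + c • p = (e₁ - c • e₀) + c • (e₀ + p) by module,
      eich_add_smul_self q1 (by rwa [polar_comm]), eich_swap q2 q3 q1] at h14
    have hp0 : p ≠ 0 := by
      rintro rfl
      obtain ⟨w, w1, w2⟩ := exists_perp_polar_eq hQ hz' 1
      have := congrArg (fun g : O Q => g.1 w) h10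
      simp only [eich_zero_left, eich_apply_of_perp hu huz (mem_perp_singleton.1 w1), w2] at this
      have hu0 : u = 0 := by simpa using this
      have h := hno e₀ h1 h3 (fun h => by simp [h] at h12)
      exact hne (by simp [hu0])
    obtain ⟨s, t, h15⟩ := Submodule.mem_span_pair.1 (R.sub_mem_of_fix hQ (by omega) hH hK' hK h3
      h1 (fun h => by simp [h] at h12) h14 q2 (by rw [polar_neg_right, q3, neg_zero]) (fun hm => by
        obtain ⟨s, hs⟩ := Submodule.mem_span_singleton.1 hm
        have := h6 (s * c - 1) (-s) (by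
          rw [show (s * c - 1) • e₀ + (-s) • e₁ = p by linear_combination (norm := module) -hs]
          exact hpL)
        simp [neg_eq_zero.1 this.2] at this)
      (by simp [polar_sub_left, polar_comm Q e₁ e₀, h5, polar_self', h3])
      (by simp [polar_add_left, polar_self', h3, h11]))
    rw [map_sub, h2, R.smul, h1] at h15
    have h16 := h6 (τ c - s * c - t) (s - 1) (by
      rw [show (τ c - s * c - t) • e₀ + (s - 1) • e₁ = t • p by
        linear_combination (norm := module) h15]
      exact L.smul_mem _ hpL)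
    have h17 : t = 0 := by
      have : t • p = 0 := by
        rw [← show (τ c - s * c - t) • e₀ + (s - 1) • e₁ = t • p by
          linear_combination (norm := module) h15, h16.1, h16.2]; simp
      exact (smul_eq_zero.1 this).resolve_right hp0
    have h18 : τ c = c := by linear_combination h16.1 + c * h16.2 + h17
    have h19 : e₁ - c • e₀ ∈ perp Q L := by
      rw [← h9, mem_perp_pair]
      simp [polar_sub_right, h11, h12, h13', hc]
    exact hno _ (by rw [map_sub, h2, R.fix_smul h18 h1]) q2 (fun h0 => by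
      simpa using (h6 (-c) 1 (by
        rw [show (-c) • e₀ + (1 : F) • e₁ = e₁ - c • e₀ by module, h0]; exact L.zero_mem)).2)
      (mem_perp_pair.1 h19)
  have e0 : e ≠ 0 := by rintro rfl; simp at a3
  have e0' : e' ≠ 0 := by rintro rfl; simp at b3
  obtain ⟨p, p', k1, -, k3, k4, k5, k6, k7⟩ := exists_long_normal hu hz huz (hno e a1 a2 e0)
  obtain ⟨r, r', l1, -, l3, l4, l5, l6, l7⟩ := exists_long_normal hu hz huz (hno e' b1 b2 e0')
  have b0' : polar Q e' e = 0 := by rwa [polar_comm]
  have m1 := opp a1 b1 a2 b2 b0 ind2 k1 k3 k4 k5 k6 k7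
  have d4 := finrank_add_finrank_perp hQ (Submodule.span F {e, e'})
  have d5 := finrank_span_pair_le (F := F) e e'
  obtain ⟨e'', c0, c1, c2, c3⟩ := R.exists_iso (R.inv_perp (R.inv_span (s := {e, e'})
    (by simp [a1, b1]))) (Z := Submodule.span F {e, e'}) (by omega)
  rw [mem_perp_pair] at c0
  have ind : ∀ a b c : F, a • e + b • e' + c • e'' ∈ L → a = 0 ∧ b = 0 ∧ c = 0 := by
    intro a b c h
    have hc : c = 0 := by
      by_contra hc
      obtain ⟨s, t, hst⟩ := Submodule.mem_span_pair.1 (k4.ge h)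
      have e1 := congrArg (polar Q e) hst
      have e2 := congrArg (polar Q e') hst
      have e3 : t = 0 := by
        simpa [polar_add_right, polar_self', a2, b0, c0.1, polar_comm Q e p, polar_comm Q e p', k6,
          k7] using e1
      have e4 : s = 0 := by simpa [polar_add_right, polar_self', b2, b0', c0.2, e3, m1] using e2
      refine c3 ((Submodule.smul_mem_iff _ hc).1 (Submodule.mem_span_pair.2 ⟨-a, -b, ?_⟩))
      rw [e3, e4] at hst
      linear_combination (norm := module) hst
    have := ind2 a b (by simpa [hc] using h)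
    exact ⟨this.1, this.2, hc⟩
  have m2 := opp a1 c1 a2 c2 c0.1 (fun a b h => by simpa using ind a 0 b (by simpa)) k1 k3 k4 k5
    k6 k7
  have m3 := opp b1 a1 b2 a2 b0' (fun a b h => by
    simpa [and_comm] using ind b a 0 (by simpa [add_comm])) l1 l3 l4 l5 l6 l7
  have m4 := opp b1 c1 b2 c2 c0.2 (fun a b h => by simpa using ind 0 a b (by simpa)) l1 l3 l4 l5
    l6 l7
  have n1 := R.apply_mem_of_triple' hQ hn hH hK' hK a1 b1 c1 a2 b2 c2 c0.2 b0 c0.1 k1 k3 (k5 ▸ hx) k6
    (by simp [k7]) m1 m2 fun hm => by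
      rw [show ({p, p', e, e''} : Set V) = {p, p'} ∪ {e, e''} from (pair_union_pair ..).symm,
        Submodule.span_union, k4] at hm
      obtain ⟨x, hx, y, hy, h⟩ := Submodule.mem_sup.1 hm
      obtain ⟨s, t, rfl⟩ := Submodule.mem_span_pair.1 hy
      simpa using (ind (-s) 1 (-t) (by convert hx using 1; rw [← h]; module)).2.1
  have n2 := R.apply_mem_of_triple' hQ hn hH hK' hK b1 a1 c1 b2 a2 c2 c0.1 b0' c0.2 l1 l3 (l5 ▸ hx) l6
    (by simp [l7]) m3 m4 fun hm => by
      rw [show ({r, r', e', e''} : Set V) = {r, r'} ∪ {e', e''} from (pair_union_pair ..).symm,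
        Submodule.span_union, l4] at hm
      obtain ⟨x, hx, y, hy, h⟩ := Submodule.mem_sup.1 hm
      obtain ⟨s, t, rfl⟩ := Submodule.mem_span_pair.1 hy
      simpa using (ind 1 (-s) (-t) (by convert hx using 1; rw [← h]; module)).1
  have hrL : r ∈ Submodule.span F {p, p'} := k4 ▸ l4 ▸ Submodule.subset_span (by simp)
  have hrL' : r' ∈ Submodule.span F {p, p'} := k4 ▸ l4 ▸ Submodule.subset_span (by simp)
  set X := Submodule.span F {e, e', e'', p, p'} with hX
  have hPX : Submodule.span F {p, p'} ≤ X := Submodule.span_mono (by simp [Set.insert_subset_iff])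
  have n3 : T r ∈ X := (Submodule.span_le.2 (by
    simp only [Set.insert_subset_iff, Set.singleton_subset_iff]
    exact ⟨Submodule.subset_span (by simp), Submodule.subset_span (by simp),
      Submodule.subset_span (by simp), hPX hrL, hPX hrL'⟩) : _ ≤ X) n2
  have n4 : T p' ∈ X := by
    obtain ⟨s, t, rfl⟩ := Submodule.mem_span_pair.1 hrL
    have ht : t ≠ 0 := by
      rintro rfl
      simp [polar_comm Q e p, k6] at m3
    rwa [map_add, R.smul, R.smul, X.add_mem_iff_right (X.smul_mem _ n1),
      X.smul_mem_iff ((map_ne_zero τ).2 ht)] at n3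
  have hXT := R.inv_perp (W := X) (R.inv_span' (by
    simp only [Set.mem_insert_iff, Set.mem_singleton_iff, forall_eq_or_imp, forall_eq, a1, b1, c1]
    exact ⟨Submodule.subset_span (by simp), Submodule.subset_span (by simp),
      Submodule.subset_span (by simp), n1, n4⟩))
  have hE : TS Q (Submodule.span F {e'', e, e'}) := by
    rw [Submodule.span_insert]
    exact (ts_span_singleton c2).sup (ts_span_pair a2 b2 b0) (le_perp_comm.1
      ((Submodule.span_singleton_le_iff_mem _ _).2 (mem_perp_pair.2 c0)))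
  obtain ⟨w, w1, w2, w4⟩ := R.exists_fixed_notMem (W := Submodule.span F {e'', e, e'} ⊓ perp Q X)
    (Z := ⊥) (fun w hw => ⟨R.inv_span (by simp [a1, b1, c1]) w hw.1, hXT w hw.2⟩) fun hle => by
      set s := -(polar Q e'' p * polar Q p' e' - polar Q e' p * polar Q p' e'') with hs
      have h1 := hle (show s • e + polar Q e'' p • e' + (-polar Q e' p) • e'' ∈ _ from
        ⟨add_mem (add_mem (Submodule.smul_mem _ _ (Submodule.subset_span (by simp)))
          (Submodule.smul_mem _ _ (Submodule.subset_span (by simp))))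
          (Submodule.smul_mem _ _ (Submodule.subset_span (by simp))), mem_perp_span.2 (by
            simp [polar_add_right, polar_self', a2, b2, c2, b0, b0', c0.1, c0.2, k6, k7, hs,
              polar_comm Q e'' e, polar_comm Q e'' e', polar_comm Q p e', polar_comm Q p e'']
            ring)⟩)
      exact m1 (neg_eq_zero.1 (ind _ _ _ ((Submodule.mem_bot F).1 h1 ▸ L.zero_mem)).2.2)
  exact hno w w2 (hE w w1.1) w4 (mem_perp_pair.1 (k4 ▸ perp_anti hPX w1.2))

omit hK' in
theorem max' : K ≤ (ratStab F T).subgroupOf (O Q) ∨ commutator (O Q) ≤ K := by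
  refine or_iff_not_imp_right.2 fun hK' g hg => ?_
  obtain ⟨a, -, a1, a2, a3⟩ := R.exists_iso (W := ⊤) (Z := ⊥) (by simp) (by simp; omega)
  have d1 := finrank_add_finrank_perp hQ (F ∙ a)
  have d2 := finrank_span_singleton_le (F := F) a
  have hi := R.inv_perp (R.inv_span (s := {a}) (by simpa))
  obtain ⟨b, b0, b1, b2, b3⟩ := R.exists_iso hi (Z := F ∙ a) (by omega)
  have d3 := finrank_span_pair_le (F := F) a b
  obtain ⟨b', c0, c1, c2, c3⟩ := R.exists_iso hi (Z := Submodule.span F {a, b}) (by omega)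
  have key : ∀ b, b ∈ perp Q (F ∙ a) → T b = b → Q b = 0 → b ∉ F ∙ a →
      T (g.1 a) ∈ Submodule.span F {g.1 a, g.1 b} := fun b h0 h1 h2 h3 =>
    R.apply_mem_of_long' hQ hn hH hK' hK (by simpa) (by simpa)
      (by simpa using mem_perp_singleton.1 h0) (fun hm => h3 (by
        obtain ⟨s, hs⟩ := Submodule.mem_span_singleton.1 hm
        exact Submodule.mem_span_singleton.2 ⟨s, g.1.injective (by simpa using hs)⟩))
      (conj_eich g a b ▸ mul_mem (mul_mem hg (R.eich_mem hQ (by omega) hH a1 h1)) (inv_mem hg))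
  have h1 := Unitary.mem_span_of_mem_pairs (b := g.1 b) (b' := g.1 b') (fun hm => c3 (by
      obtain ⟨s, t, e⟩ := Submodule.mem_span_pair.mp hm
      exact Submodule.mem_span_pair.mpr ⟨s, t, g.1.injective (by simpa using e)⟩))
    (key b b0 b1 b2 b3) (key b' c0 c1 c2 fun hm => c3 (Submodule.span_mono (by simp) hm))
  obtain ⟨e, e1, e2, e3⟩ := R.exists_fixed_notMem (R.inv_span' (s := {g.1 a}) (by simpa))
    (Z := ⊥) (by simpa using a3)
  obtain ⟨s, rfl⟩ := Submodule.mem_span_singleton.1 e1
  obtain ⟨p, z, h2, h3, c, -, -, h4⟩ := R.exists_map hQ (by omega) (by simp [Q_smul, a2]) a2 e2 a1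
    e3 a3
  have hs : s ≠ 0 := by rintro rfl; simp at e3
  have := R.mem_ratStab_of_stab hQ (by omega) hH hK' hK a2 a1 a3
    (mul_mem (R.eich_mem hQ (by omega) hH h2 h3) hg) (a := s⁻¹ * c) (by
      rw [O.mul_apply, mul_smul, ← h4, map_smul, smul_smul, inv_mul_cancel₀ hs, one_smul])
  exact (mul_mem_cancel_left (mem_ratStab_of_comm (R.eich_comm h2 h3))).1 this

end RS

end General

theorem isMaximalIn_subfield' {F : Type*} [Field F] {ι : Type} [Fintype ι] [DecidableEq ι]
    [Finite F] {Q : QuadraticForm F (ι → F)} (hQ : ND Q)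
    (hn : 7 ≤ Fintype.card ι) {F₀ : Subfield F} {r : ℕ} (hr : r.Prime)
    (hcard : Nat.card F = Nat.card F₀ ^ r) {P : GL ι F} {ζ : F} (hζ : ζ ≠ 0)
    (hP : Geo.IsQuadFormRationalStructure (fun v => ζ * Q v) F₀ P) :
    Geo.IsMaximalIn (Geo.omegaGL ⇑Q) (Geo.subfieldSubgroup F₀ P ⊓ Geo.omegaGL ⇑Q) := by
  obtain ⟨τ, rfl, h2, -⟩ := Unitary.exists_aut_fixing F₀ hcard
  have R := rs_ratT (Q := ζ • Q) h2 hr hP
  have hQ' := nd_smul hQ hζ
  rw [← omegaGL_smul _ hζ]
  exact isMaximalIn_of (Q := ζ • Q) (fun g => Unitary.mem_subfieldSubgroup_iff_ratStab h2 _)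
    (R.not_commutator_le hQ' (by simp; omega)) fun K hH hK => R.max' hQ' (by simpa) hH hK

end Cfsg.Lib.OMax
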